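import Cfsg.Agent.Lib.H28.GUF1
import Cfsg.Agent.Lib.H01.Solv2

set_option autoImplicit false
set_option linter.style.haveILetI false
set_option linter.unusedSectionVars false
set_option linter.unusedSimpArgs false

namespace Cfsg.Agent.H28

open scoped MatrixGroups Matrix commutatorElement
open Cfsg Cfsg.Geo

section Fix1

variable {Γ : Type*} [Group Γ]

/-- The lower central series of a subgroup, as subgroups of the ambient group. -/
def lcsN (N : Subgroup Γ) : ℕ → Subgroup Γ
  | 0 => N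
  | j + 1 => ⁅lcsN N j, N⁆

lemma lcsN_normal (N : Subgroup Γ) [hN : N.Normal] (j : ℕ) : (lcsN N j).Normal := by
  induction j with
  | zero => exact hN
  | succ j ih =>
    haveI := ih
    exact Subgroup.commutator_normal _ _

lemma lcsN_succ_le (N : Subgroup Γ) [hN : N.Normal] (j : ℕ) : lcsN N (j + 1) ≤ lcsN N j := by
  haveI := lcsN_normal N j
  exact Subgroup.commutator_le_left _ _

lemma lcsN_le (N : Subgroup Γ) [hN : N.Normal] {i j : ℕ} (h : i ≤ j) : lcsN N j ≤ lcsN N i := by
  induction j, h using Nat.le_induction with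
  | base => exact le_rfl
  | succ j _ ih => exact (lcsN_succ_le N j).trans ih

lemma lcsN_eq_map (N : Subgroup Γ) (j : ℕ) : lcsN N j = ((⊤ : Subgroup N).lowerCentralSeries j).map N.subtype := by
  have htop : N = Subgroup.map N.subtype ⊤ := by
    rw [← MonoidHom.range_eq_map, Subgroup.range_subtype]
  induction j with
  | zero => exact htop
  | succ j ih =>
    show ⁅lcsN N j, N⁆ = Subgroup.map N.subtype ⁅(⊤ : Subgroup N).lowerCentralSeries j, ⊤⁆
    rw [Subgroup.map_commutator, ← ih, ← htop]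

lemma lcsN_bot (N : Subgroup Γ) [Group.IsNilpotent N] : ∃ c, lcsN N c = ⊥ := by
  obtain ⟨c, hc⟩ := (Subgroup.nilpotent_iff_lowerCentralSeries).1 (inferInstance : Group.IsNilpotent N)
  refine ⟨c, ?_⟩
  rw [lcsN_eq_map, hc, Subgroup.map_bot]

/-- In a finite solvable group, a non-identity element has a short iterated commutator which is a non-identity element of an abelian normal subgroup. -/
theorem short_comm [Finite Γ] [Group.IsSolvable Γ] {g : Γ} (hg : g ≠ 1) :
    ∃ M : Subgroup Γ, M.Normal ∧ ∃ t ∈ M ⊓ Subgroup.centralizer (M : Set Γ), t ≠ 1 ∧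
      (t = g ∨ (∃ x : Γ, t = ⁅g, x⁆) ∨ (∃ x z : Γ, t = ⁅⁅g, x⁆, z⁆)) := by
  classical
  set N := Cfsg.fittingSubgroup Γ with hNdef
  haveI hNn : N.Normal := H01.fitting_normal
  haveI hNp : Group.IsNilpotent N := H01.fitting_nilpotent
  by_cases hgN : g ∈ Subgroup.centralizer (N : Set Γ)
  · have hgF : g ∈ N := H01.centralizer_fitting_le hgN
    exact ⟨N, hNn, g, ⟨hgF, hgN⟩, hg, Or.inl rfl⟩
  -- the first term of the series centralised by `g`
  obtain ⟨c, hc⟩ := lcsN_bot N
  have hex : ∃ i, lcsN N i ≤ Subgroup.centralizer {g} := ⟨c, by rw [hc]; exact bot_le⟩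
  let i := Nat.find hex
  have hi : lcsN N i ≤ Subgroup.centralizer {g} := Nat.find_spec hex
  have hi0 : i ≠ 0 := by
    intro h0
    apply hgN
    have h1 : N ≤ Subgroup.centralizer {g} := by
      have := hi
      rw [h0] at this
      exact this
    rw [Subgroup.mem_centralizer_iff]
    intro u hu
    have h5 := Subgroup.mem_centralizer_iff.1 (h1 hu) g rfl
    exact h5.symm
  obtain ⟨k, hk⟩ : ∃ k, i = k + 1 := Nat.exists_eq_succ_of_ne_zero hi0
  have hnot : ¬ lcsN N k ≤ Subgroup.centralizer {g} := Nat.find_min hex (by omega)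
  haveI hLk := lcsN_normal N k
  haveI hLi := lcsN_normal N (k + 1)
  obtain ⟨x, hxL, hxg⟩ := SetLike.not_le_iff_exists.1 hnot
  have hcom : ∀ u ∈ lcsN N (k + 1), g * u = u * g := by
    intro u hu
    have h5 := hi (by rw [hk]; exact hu)
    exact (Subgroup.mem_centralizer_iff.1 h5 g rfl)
  have hxN : x ∈ N := lcsN_le N (Nat.zero_le k) hxL
  set y : Γ := ⁅g, x⁆ with hy
  have hyne : y ≠ 1 := by
    intro h
    apply hxg
    rw [Subgroup.mem_centralizer_iff]
    intro w hw
    have hw' : w = g := hw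
    rw [hw']
    have h5 : g * x * g⁻¹ * x⁻¹ = 1 := h
    have h6 : g * x = x * g := by
      have := mul_inv_eq_one.1 h5
      exact mul_inv_eq_iff_eq_mul.1 this
    exact h6
  have hyL : y ∈ lcsN N k := by
    have h5 : g * x * g⁻¹ ∈ lcsN N k := hLk.conj_mem x hxL g
    exact (lcsN N k).mul_mem h5 ((lcsN N k).inv_mem hxL)
  -- `y` centralises the terms from `k + 1` on
  have hyc : ∀ j, k + 1 ≤ j → ∀ u ∈ lcsN N j, y * u = u * y := by
    intro j hj
    obtain ⟨e, he⟩ : ∃ e, c ≤ j + e := ⟨c, by omega⟩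
    induction e generalizing j with
    | zero =>
      intro u hu
      have h5 : u ∈ lcsN N c := lcsN_le N (by omega) hu
      rw [hc, Subgroup.mem_bot] at h5
      rw [h5, mul_one, one_mul]
    | succ e ih =>
      intro u hu
      have hrec := ih (j + 1) (by omega) (by omega)
      have hcu : ⁅u, x⁆ ∈ lcsN N (j + 1) := Subgroup.commutator_mem_commutator hu hxN
      have hcu' : ⁅x, u⁆ ∈ lcsN N (j + 1) := by
        have h5 := (lcsN N (j + 1)).inv_mem hcu
        rwa [commutatorElement_inv] at h5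
      have hgu : g * u = u * g := hcom u (lcsN_le N hj hu)
      have hgc : g * ⁅x, u⁆ = ⁅x, u⁆ * g := hcom _ (lcsN_le N (by omega) hcu')
      have hyc' : y * ⁅x, u⁆ = ⁅x, u⁆ * y := hrec _ hcu'
      -- conjugating the commutator by `g`
      have e1 : g * x * g⁻¹ = y * x := by
        simp only [hy, commutatorElement_def]
        group
      have e2 : (g * x * g⁻¹) * u * (g * x * g⁻¹)⁻¹ * u⁻¹ = ⁅x, u⁆ := by
        have e3 : (g * x * g⁻¹) * u * (g * x * g⁻¹)⁻¹ * u⁻¹ = g * ⁅x, u⁆ * g⁻¹ := by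
          have hu' : g⁻¹ * u = u * g⁻¹ := by
            calc g⁻¹ * u = g⁻¹ * (u * g) * g⁻¹ := by group
              _ = g⁻¹ * (g * u) * g⁻¹ := by rw [hgu]
              _ = u * g⁻¹ := by group
          have hui : g * u⁻¹ = u⁻¹ * g := by
            calc g * u⁻¹ = u⁻¹ * (u * g) * u⁻¹ := by group
              _ = u⁻¹ * (g * u) * u⁻¹ := by rw [hgu]
              _ = u⁻¹ * g := by group
          simp only [commutatorElement_def]
          calc (g * x * g⁻¹) * u * (g * x * g⁻¹)⁻¹ * u⁻¹
              = g * x * (g⁻¹ * u) * g * x⁻¹ * g⁻¹ * u⁻¹ := by group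
            _ = g * x * (u * g⁻¹) * g * x⁻¹ * g⁻¹ * u⁻¹ := by rw [hu']
            _ = g * x * u * x⁻¹ * (g⁻¹ * u⁻¹) := by group
            _ = g * x * u * x⁻¹ * (u⁻¹ * g⁻¹) := by
              have : g⁻¹ * u⁻¹ = u⁻¹ * g⁻¹ := by
                calc g⁻¹ * u⁻¹ = g⁻¹ * (u⁻¹ * g) * g⁻¹ := by group
                  _ = g⁻¹ * (g * u⁻¹) * g⁻¹ := by rw [hui]
                  _ = u⁻¹ * g⁻¹ := by group
              rw [this]
            _ = g * (x * u * x⁻¹ * u⁻¹) * g⁻¹ := by group
        rw [e3, hgc]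
        group
      rw [e1] at e2
      have e4 : (y * x) * u * (y * x)⁻¹ * u⁻¹ = y * ⁅x, u⁆ * (u * y⁻¹ * u⁻¹) := by
        simp only [commutatorElement_def]
        group
      rw [e4, hyc'] at e2
      have e5 : ⁅x, u⁆ * y * (u * y⁻¹ * u⁻¹) = ⁅x, u⁆ := e2
      have e6 : y * (u * y⁻¹ * u⁻¹) = 1 := by
        have := mul_left_cancel (a := ⁅x, u⁆) (b := y * (u * y⁻¹ * u⁻¹)) (c := 1) (by
          rw [mul_one, ← mul_assoc]
          exact e5)
        exact this
      calc y * u = y * (u * y⁻¹ * u⁻¹) * (u * y) := by group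
        _ = u * y := by rw [e6, one_mul]
  by_cases hyN : y ∈ Subgroup.centralizer (N : Set Γ)
  · exact ⟨N, hNn, y, ⟨lcsN_le N (Nat.zero_le k) hyL, hyN⟩, hyne, Or.inr (Or.inl ⟨x, rfl⟩)⟩
  · -- a second commutator
    have hz : ∃ z ∈ N, y * z ≠ z * y := by
      by_contra hcon
      push Not at hcon
      apply hyN
      rw [Subgroup.mem_centralizer_iff]
      intro u hu
      exact (hcon u hu).symm
    obtain ⟨z, hzN, hzne⟩ := hz
    refine ⟨lcsN N (k + 1), hLi, ⁅y, z⁆, ⟨Subgroup.commutator_mem_commutator hyL hzN, ?_⟩, ?_, Or.inr (Or.inr ⟨x, z, rfl⟩)⟩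
    · -- the commutator centralises
      have hCn : (Subgroup.centralizer (lcsN N (k + 1) : Set Γ)).Normal := H01.centralizer_normal hLi
      have hyC : y ∈ Subgroup.centralizer (lcsN N (k + 1) : Set Γ) := by
        rw [Subgroup.mem_centralizer_iff]
        intro u hu
        exact (hyc (k + 1) le_rfl u hu).symm
      have e7 : ⁅y, z⁆ = y * (z * y⁻¹ * z⁻¹) := by
        simp only [commutatorElement_def]
        group
      rw [e7]
      exact (Subgroup.centralizer (lcsN N (k + 1) : Set Γ)).mul_mem hyC (hCn.conj_mem y⁻¹ (Subgroup.inv_mem _ hyC) z)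
    · intro h
      apply hzne
      exact commutatorElement_eq_one_iff_mul_comm.1 h

end Fix1

end Cfsg.Agent.H28
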