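import Cfsg.Agent.Lib.H28.GFix1

set_option autoImplicit false
set_option linter.style.haveILetI false
set_option linter.unusedSectionVars false
set_option linter.unusedSimpArgs false

namespace Cfsg.Agent.H28

open scoped MatrixGroups Matrix commutatorElement
open Cfsg Cfsg.Geo

section Fix2

variable {n : ℕ} {F : Type*} [Field F] [Fintype F]

/-- The fixed space of a matrix. -/
noncomputable def fixS (g : GL (Fin n) F) : Submodule F (Fin n → F) :=
  Module.End.eigenspace (Matrix.toLin' (g : Matrix (Fin n) (Fin n) F)) 1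

lemma mem_fixS {g : GL (Fin n) F} {v : Fin n → F} : v ∈ fixS g ↔ (g : Matrix (Fin n) (Fin n) F) *ᵥ v = v := by
  simp [fixS, Module.End.mem_eigenspace_iff, Matrix.toLin'_apply]

lemma fixS_le (g : GL (Fin n) F) : Module.finrank F (fixS g) ≤ n := by
  have h := Submodule.finrank_le (fixS g)
  simpa using h

lemma fixS_mul (g h : GL (Fin n) F) :
    Module.finrank F (fixS g) + Module.finrank F (fixS h) ≤ Module.finrank F (fixS (g * h)) + n := by
  have h1 := Submodule.finrank_sup_add_finrank_inf_eq (fixS g) (fixS h)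
  have h2 : Module.finrank F ↥(fixS g ⊔ fixS h) ≤ n := by
    have h3 := Submodule.finrank_le (fixS g ⊔ fixS h)
    simpa using h3
  have h3 : Module.finrank F ↥(fixS g ⊓ fixS h) ≤ Module.finrank F (fixS (g * h)) := by
    apply Submodule.finrank_mono
    intro v hv
    rw [mem_fixS, Units.val_mul, ← Matrix.mulVec_mulVec, mem_fixS.1 hv.2, mem_fixS.1 hv.1]
  omega

lemma fixS_inv (g : GL (Fin n) F) : fixS g⁻¹ = fixS g := by
  ext v
  rw [mem_fixS, mem_fixS]
  constructor
  · intro h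
    calc (g : Matrix (Fin n) (Fin n) F) *ᵥ v = (g : Matrix (Fin n) (Fin n) F) *ᵥ (((g⁻¹ : GL (Fin n) F) : Matrix (Fin n) (Fin n) F) *ᵥ v) := by rw [h]
      _ = v := by rw [Matrix.mulVec_mulVec, Units.mul_inv, Matrix.one_mulVec]
  · intro h
    calc ((g⁻¹ : GL (Fin n) F) : Matrix (Fin n) (Fin n) F) *ᵥ v = ((g⁻¹ : GL (Fin n) F) : Matrix (Fin n) (Fin n) F) *ᵥ ((g : Matrix (Fin n) (Fin n) F) *ᵥ v) := by rw [h]
      _ = v := by rw [Matrix.mulVec_mulVec, Units.inv_mul, Matrix.one_mulVec]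

lemma fixS_conj (x g : GL (Fin n) F) : Module.finrank F (fixS (x * g * x⁻¹)) = Module.finrank F (fixS g) := by
  have e : fixS (x * g * x⁻¹) = (fixS g).map (Matrix.toLin' (x : Matrix (Fin n) (Fin n) F)) := by
    ext v
    rw [mem_fixS, Submodule.mem_map]
    constructor
    · intro h
      refine ⟨((x⁻¹ : GL (Fin n) F) : Matrix (Fin n) (Fin n) F) *ᵥ v, ?_, ?_⟩
      · rw [mem_fixS]
        calc (g : Matrix (Fin n) (Fin n) F) *ᵥ (((x⁻¹ : GL (Fin n) F) : Matrix (Fin n) (Fin n) F) *ᵥ v)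
            = ((x⁻¹ : GL (Fin n) F) : Matrix (Fin n) (Fin n) F) *ᵥ (((x * g * x⁻¹ : GL (Fin n) F) : Matrix (Fin n) (Fin n) F) *ᵥ v) := by
              simp only [Units.val_mul, Matrix.mulVec_mulVec]
              congr 1
              rw [← Units.val_mul, ← Units.val_mul, ← Units.val_mul, ← Units.val_mul]
              congr 1
              group
          _ = _ := by rw [h]
      · rw [Matrix.toLin'_apply, Matrix.mulVec_mulVec, Units.mul_inv, Matrix.one_mulVec]
    · rintro ⟨w, hw, rfl⟩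
      rw [Matrix.toLin'_apply, Units.val_mul, Units.val_mul, Matrix.mulVec_mulVec]
      have e2 : (x : Matrix (Fin n) (Fin n) F) * (g : Matrix (Fin n) (Fin n) F) * ((x⁻¹ : GL (Fin n) F) : Matrix (Fin n) (Fin n) F) * (x : Matrix (Fin n) (Fin n) F) =
          (x : Matrix (Fin n) (Fin n) F) * (g : Matrix (Fin n) (Fin n) F) := by
        rw [mul_assoc, Units.inv_mul, mul_one]
      rw [e2, ← Matrix.mulVec_mulVec, mem_fixS.1 hw]
  rw [e]
  exact finrank_map_gl x _

lemma fixS_comm (g x : GL (Fin n) F) : 2 * Module.finrank F (fixS g) ≤ Module.finrank F (fixS ⁅g, x⁆) + n := by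
  have h1 := fixS_mul g (x * g⁻¹ * x⁻¹)
  have h2 := fixS_conj x g⁻¹
  rw [fixS_inv] at h2
  have e : g * (x * g⁻¹ * x⁻¹) = ⁅g, x⁆ := by
    simp only [commutatorElement_def]
    group
  rw [e, h2] at h1
  omega

/-- A non-identity element of an abelian normal subgroup of a primitive group has no non-zero fixed vector. -/
theorem abelian_normal_fpf {G : Subgroup (GL (Fin n) F)} [Nonempty (Fin n)] (hirr : Irr G)
    (hprim : ∀ (m t : ℕ) (D : Fin t → Submodule F (Fin n → F)), 2 ≤ t → IsMDecomposition m D → ¬ G ≤ decompositionStabilizer D)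
    {A : Subgroup (GL (Fin n) F)} (hA : NormalIn A G) (hcomm : ∀ a ∈ A, ∀ b ∈ A, a * b = b * a) {T : GL (Fin n) F} (hT : T ∈ A)
    (hT1 : T ≠ 1) {v : Fin n → F} (hv : (T : Matrix (Fin n) (Fin n) F) *ᵥ v = v) : v = 0 := by
  rcases clifford hirr hA with hiso | ⟨t', m, D, hD, hle, _⟩
  · have hss := semisimple_of_irr hirr hA
    have hK := zadj_isFieldSubalgebra hss hiso
    let X : Matrix (Fin n) (Fin n) F := (T : Matrix (Fin n) (Fin n) F) - 1
    have hXmem : X ∈ ZAdj A := by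
      refine ⟨Subalgebra.sub_mem _ (mem_adj T hT) (Subalgebra.one_mem _), ?_⟩
      show X ∈ Cmt A
      rw [mem_cmt]
      intro a ha
      simp only [X, mul_sub, sub_mul, mul_one, one_mul]
      have := congrArg Units.val (hcomm a ha T hT)
      simp only [Units.val_mul] at this
      rw [this]
    have hX0 : X ≠ 0 := by
      intro h
      apply hT1
      apply Units.ext
      rw [Units.val_one]
      exact sub_eq_zero.1 h
    obtain ⟨Y, -, hXY⟩ := hK.inv X hXmem hX0
    have hYX : Y * X = 1 := mul_eq_one_comm.1 hXY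
    have hXv : X *ᵥ v = 0 := by
      simp only [X, Matrix.sub_mulVec, Matrix.one_mulVec, hv, sub_self]
    calc v = (Y * X) *ᵥ v := by rw [hYX, Matrix.one_mulVec]
      _ = Y *ᵥ (X *ᵥ v) := by rw [Matrix.mulVec_mulVec]
      _ = 0 := by rw [hXv, Matrix.mulVec_zero]
  · exact absurd hle (hprim m t' D hD.two_le hD)

/-- Fixed-point spaces in primitive soluble linear groups. -/
theorem fix_bound (G : Subgroup (GL (Fin n) F)) (hsol : IsSolvable G) (hirr : ActsIrreducibly (matrixSet G))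
    (hprim : ∀ (m t : ℕ) (D : Fin t → Submodule F (Fin n → F)), 2 ≤ t → IsMDecomposition m D → ¬ G ≤ decompositionStabilizer D)
    (g : GL (Fin n) F) (hg : g ∈ G) (hg1 : g ≠ 1) :
    4 * Module.finrank F (fixS g) ≤ 3 * n := by
  classical
  by_contra hcon
  push Not at hcon
  have hle := fixS_le g
  have hn0 : 0 < n := by omega
  haveI : Nonempty (Fin n) := ⟨⟨0, hn0⟩⟩
  have hIrr : Irr G := (actsIrreducibly_iff G).1 hirr
  let g' : G := ⟨g, hg⟩
  have hg' : g' ≠ 1 := fun h => hg1 (congrArg Subtype.val h)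
  haveI : Group.IsSolvable G := hsol
  haveI : Finite G := inferInstance
  obtain ⟨M, hM, t, ⟨htM, htC⟩, ht1, hform⟩ := short_comm hg'
  -- the fixed space of `t` is non-zero
  have hdt : 0 < Module.finrank F (fixS (t : GL (Fin n) F)) := by
    rcases hform with rfl | ⟨x, rfl⟩ | ⟨x, z, rfl⟩
    · show 0 < Module.finrank F (fixS g)
      omega
    · have h1 := fixS_comm g (x : GL (Fin n) F)
      have h2 : ((⁅g', x⁆ : G) : GL (Fin n) F) = ⁅g, (x : GL (Fin n) F)⁆ := rfl
      rw [h2]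
      omega
    · have h1 := fixS_comm g (x : GL (Fin n) F)
      have h3 := fixS_comm ⁅g, (x : GL (Fin n) F)⁆ (z : GL (Fin n) F)
      have h2 : ((⁅⁅g', x⁆, z⁆ : G) : GL (Fin n) F) = ⁅⁅g, (x : GL (Fin n) F)⁆, (z : GL (Fin n) F)⁆ := rfl
      rw [h2]
      omega
  obtain ⟨v, hv, hv0⟩ := Submodule.exists_mem_ne_zero_of_ne_bot (fun h : fixS (t : GL (Fin n) F) = ⊥ => by
    rw [h] at hdt
    simp at hdt)
  let A₀ : Subgroup G := M ⊓ Subgroup.centralizer (M : Set G)
  let A : Subgroup (GL (Fin n) F) := A₀.map G.subtype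
  have hA : NormalIn A G := by
    refine ⟨?_, ?_⟩
    · rintro _ ⟨a, -, rfl⟩
      exact a.2
    · rintro h hh _ ⟨a, ⟨ha1, ha2⟩, rfl⟩
      let hG : G := ⟨h, hh⟩
      refine ⟨hG * a * hG⁻¹, ⟨hM.conj_mem a ha1 hG, ?_⟩, ?_⟩
      · exact (H01.centralizer_normal hM).conj_mem a ha2 hG
      · simp only [Subgroup.subtype_apply, Subgroup.coe_mul, Subgroup.coe_inv, hG]
  have hcomm : ∀ a ∈ A, ∀ b ∈ A, a * b = b * a := by
    rintro _ ⟨a, ⟨ha1, ha2⟩, rfl⟩ _ ⟨b, ⟨hb1, hb2⟩, rfl⟩
    have h5 := Subgroup.mem_centralizer_iff.1 hb2 a ha1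
    exact (congrArg Subtype.val h5)
  have hT : (t : GL (Fin n) F) ∈ A := ⟨t, ⟨htM, htC⟩, rfl⟩
  have hT1 : (t : GL (Fin n) F) ≠ 1 := fun h => ht1 (Subtype.ext h)
  exact hv0 (abelian_normal_fpf hIrr hprim hA hcomm hT hT1 (mem_fixS.1 hv))

end Fix2

end Cfsg.Agent.H28
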