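import Cfsg.Agent.Lib.H28.GLE1

set_option autoImplicit false
set_option linter.style.haveILetI false
set_option linter.unusedSectionVars false
set_option linter.unusedSimpArgs false

namespace Cfsg.Agent.H28

open scoped MatrixGroups Matrix commutatorElement Kronecker
open Cfsg Cfsg.Geo

section LinStruct

variable {F : Type*} [Field F] [Fintype F] {n : ℕ}

/-- `H` lies in a geometric subgroup of the linear group. -/
def LinLE (n : ℕ) (F : Type*) [Field F] [Fintype F] (H : Subgroup (GL (Fin n) F)) : Prop :=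
  ∃ M : Subgroup (GL (Fin n) F), InLinearClass n F M ∧ H ≤ M

variable {H : Subgroup (GL (Fin n) F)}

lemma LinLE.stab {W : Submodule F (Fin n → F)} (h0 : W ≠ ⊥) (h1 : W ≠ ⊤) (hle : H ≤ subspaceStabilizer W) :
    LinLE n F H :=
  ⟨_, Or.inl ⟨W, h0, h1, rfl⟩, hle⟩

lemma LinLE.decomp {t m : ℕ} {D : Fin t → Submodule F (Fin n → F)} (hD : IsMDecomposition m D)
    (hle : H ≤ decompositionStabilizer D) : LinLE n F H :=
  ⟨_, Or.inr (Or.inr (Or.inr (Or.inl ⟨t, m, D, hD, rfl⟩))), hle⟩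

lemma LinLE.field {r : ℕ} {K : Subalgebra F (Matrix (Fin n) (Fin n) F)} (hr : r.Prime) (hK : IsFieldSubalgebra r K)
    (hle : H ≤ subalgebraNormalizer K) : LinLE n F H :=
  ⟨_, Or.inr (Or.inr (Or.inr (Or.inr (Or.inl ⟨r, K, hr, hK, rfl⟩)))), hle⟩

lemma LinLE.tensor {n₁ n₂ : ℕ} {e : Fin n ≃ Fin n₁ × Fin n₂} {P : GL (Fin n) F} (h1 : 2 ≤ n₁) (h2 : n₁ < n₂)
    (hle : H ≤ tensorProductSubgroup n₁ n₂ e P) : LinLE n F H :=
  ⟨_, Or.inr (Or.inr (Or.inr (Or.inr (Or.inr (Or.inl ⟨n₁, n₂, e, P, h1, h2, rfl⟩))))), hle⟩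

lemma LinLE.subfield {F₀ : Subfield F} {r : ℕ} {P : GL (Fin n) F} (hr : r.Prime) (hc : Fintype.card F = Nat.card F₀ ^ r)
    (hle : H ≤ subfieldSubgroup F₀ P) : LinLE n F H :=
  ⟨_, Or.inr (Or.inr (Or.inr (Or.inr (Or.inr (Or.inr (Or.inl ⟨F₀, r, P, hr, hc, rfl⟩)))))), hle⟩

lemma LinLE.sympType {r : ℕ} {R : Subgroup (GL (Fin n) F)} (hR : IsLinearSymplecticTypeData r R)
    (hle : H ≤ subgroupNormalizer R) : LinLE n F H :=
  ⟨_, Or.inr (Or.inr (Or.inr (Or.inr (Or.inr (Or.inr (Or.inr (Or.inl ⟨r, R, hR, rfl⟩))))))), hle⟩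

lemma LinLE.wreath {m t : ℕ} {e : Fin n ≃ (Fin t → Fin m)} {P : GL (Fin n) F} (hm : 3 ≤ m) (ht : 2 ≤ t)
    (hle : H ≤ tensorWreathSubgroup m t e P) : LinLE n F H :=
  ⟨_, Or.inr (Or.inr (Or.inr (Or.inr (Or.inr (Or.inr (Or.inr (Or.inr (Or.inl ⟨m, t, e, P, hm, ht, rfl⟩)))))))), hle⟩

lemma LinLE.symp {f : (Fin n → F) → (Fin n → F) → F} (hf : IsSymplecticForm f) (hn : 3 ≤ n)
    (hle : H ≤ similarityGroup f) : LinLE n F H := by
  have he : Even n := by
    rw [← Nat.not_odd_iff_even]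
    intro hodd
    exact no_symplectic_odd (by simpa using hodd) hf
  have h4 : 4 ≤ n := by
    obtain ⟨a, ha⟩ := he
    omega
  exact ⟨_, Or.inr (Or.inr (Or.inr (Or.inr (Or.inr (Or.inr (Or.inr (Or.inr (Or.inr (Or.inl ⟨f, hf, he, h4, rfl⟩))))))))), hle⟩

lemma LinLE.unit {σ : F ≃+* F} {f : (Fin n → F) → (Fin n → F) → F} (hf : IsUnitaryForm σ f) (hn : 3 ≤ n)
    (hle : H ≤ similarityGroup f) : LinLE n F H :=
  ⟨_, Or.inr (Or.inr (Or.inr (Or.inr (Or.inr (Or.inr (Or.inr (Or.inr (Or.inr (Or.inr (Or.inl ⟨σ, f, hf, hn, rfl⟩)))))))))), hle⟩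

lemma LinLE.quad {Q : (Fin n → F) → F} (hQ : IsNondegenerateQuadraticForm Q) (hodd : Odd (Fintype.card F)) (hn : 3 ≤ n)
    (hle : H ≤ quadSimilarityGroup Q) : LinLE n F H :=
  ⟨_, Or.inr (Or.inr (Or.inr (Or.inr (Or.inr (Or.inr (Or.inr (Or.inr (Or.inr (Or.inr (Or.inr ⟨Q, hQ, hodd, hn, rfl⟩)))))))))), hle⟩

/-- A bilinear non-degenerate symmetric or skew form whose similarity group contains `H`. -/
lemma LinLE.of_form (hn : 3 ≤ n) {f : (Fin n → F) → (Fin n → F) → F} (hfb : IsBilinearForm f)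
    (hnd : ∀ x, x ≠ 0 → ∃ v, f x v ≠ 0) (h2 : (2 : F) ≠ 0)
    (hsym : (∀ x y, f x y = f y x) ∨ (∀ x y, f x y = - f y x)) (hle : H ≤ similarityGroup f) : LinLE n F H := by
  rcases hsym with hs | hs
  · exact LinLE.quad (quad_of_symm hfb hnd hs h2) (odd_of_two_ne_zero h2) hn (hle.trans quad_sim_of_sim)
  · have hf : IsSymplecticForm f :=
      { bilinear := hfb
        skew := hs
        alternating := fun v => by
          have h1 := hs v v
          have h4 : 2 * f v v = 0 := by linear_combination h1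
          exact (mul_eq_zero.1 h4).resolve_left h2
        nondegenerate := fun v hv => by
          obtain ⟨w, hw⟩ := hnd v hv
          refine ⟨⟨w, ?_⟩, ⟨w, hw⟩⟩
          rw [hs w v]
          exact neg_ne_zero.2 hw }
    exact LinLE.symp hf hn hle

/-- Tensor powers of planes. -/
lemma LinLE.wreath_two (hn : 3 ≤ n) {k : ℕ} (hk : 0 < k) (e : Fin n ≃ (Fin k → Fin 2)) (B : GL (Fin n) F)
    (hle : H ≤ tensorWreathSubgroup 2 k e B) : LinLE n F H := by
  obtain ⟨C, hC, hsk, halt⟩ := wreath_two_gram hk e B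
  have hle' := hle.trans hC
  have hb := gramForm_bilinear (C : Matrix (Fin n) (Fin n) F)
  have hnd := gramForm_nondeg C
  by_cases h2 : (2 : F) = 0
  · have h1 : (-1 : F) = 1 := by linear_combination -h2
    refine LinLE.symp ⟨hb, fun v w => ?_, halt (Or.inl h2), hnd⟩ hn hle'
    rw [hsk w v, h1, one_pow, one_mul]
    linear_combination (gramForm (C : Matrix (Fin n) (Fin n) F) w v) * h2
  · refine LinLE.of_form hn hb (fun x hx => (hnd x hx).2) h2 ?_ hle'
    rcases Nat.even_or_odd k with hev | hodd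
    · left
      intro x y
      rw [hsk y x, hev.neg_one_pow, one_mul]
    · right
      intro x y
      rw [hsk y x, hodd.neg_one_pow]
      ring

/-- The case of a perfect normal subgroup with simple quotient. -/
lemma core_lin (hn : 3 ≤ n) {N : Subgroup (GL (Fin n) F)} (hN : NormalIn N H) (hC : CoreData H N) :
    LinLE n F H ∨ InLinearResidualClass H := by
  haveI : Nonempty (Fin n) := ⟨⟨0, by omega⟩⟩
  have hirr : AbsIrr N := hC.absIrred
  by_cases hsub : ∃ F₀ : Subfield F, F₀ ≠ ⊤ ∧ RealisableOver F₀ (matrixSet N)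
  · obtain ⟨F₀, h0, B, hB⟩ := hsub
    obtain ⟨F₁, r, τ, h01, hr, hcard, hτ⟩ := exists_prime_index_subfield h0
    have hle := le_subfield_of_realisable hN hirr τ hτ (B := B) (fun g hg i j => h01 (hB _ ⟨g, hg, rfl⟩ i j))
    exact Or.inl (LinLE.subfield hr hcard hle)
  by_cases hq : ∃ Q : (Fin n → F) → F, IsNondegenerateQuadraticForm Q ∧ FixesQuadForm (matrixSet N) Q
  · obtain ⟨Q, hQ, hfix⟩ := hq
    by_cases h2 : (2 : F) = 0
    · have hs := symplectic_of_char_two hQ h2
      have hfix' : ∀ g ∈ N, ∀ u v, QuadraticMap.polar Q ((g : Matrix (Fin n) (Fin n) F) *ᵥ u) ((g : Matrix (Fin n) (Fin n) F) *ᵥ v) =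
          QuadraticMap.polar Q u v := by
        intro g hg u v
        simp only [QuadraticMap.polar, ← Matrix.mulVec_add]
        rw [hfix _ ⟨g, hg, rfl⟩, hfix _ ⟨g, hg, rfl⟩, hfix _ ⟨g, hg, rfl⟩]
      have hle := le_sim_of_fixes hN hirr (sesq_of_bilinear hs.bilinear)
        (fun x hx => (hs.nondegenerate x hx).2) hfix'
      exact Or.inl (LinLE.symp hs hn hle)
    · exact Or.inl (LinLE.quad hQ (odd_of_two_ne_zero h2) hn (le_quadSim_of_fixes hQ h2 hN hirr hfix))
  by_cases hs : ∃ f : (Fin n → F) → (Fin n → F) → F, IsSymplecticForm f ∧ FixesForm (matrixSet N) f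
  · obtain ⟨f, hf, hfix⟩ := hs
    have hle := le_sim_of_fixes hN hirr (sesq_of_bilinear hf.bilinear)
      (fun x hx => (hf.nondegenerate x hx).2) (fun g hg u v => hfix _ ⟨g, hg, rfl⟩ u v)
    exact Or.inl (LinLE.symp hf hn hle)
  by_cases hu : ∃ (σ : F ≃+* F) (f : (Fin n → F) → (Fin n → F) → F), IsUnitaryForm σ f ∧ FixesForm (matrixSet N) f
  · obtain ⟨σ, f, hf, hfix⟩ := hu
    have hle : H ≤ similarityGroup f := le_sim_of_fixes hN hirr (sesq_of_unitary hf)
      (fun x hx => (hf.nondegenerate x hx).2) (fun g hg u v => hfix _ ⟨g, hg, rfl⟩ u v)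
    exact Or.inl (LinLE.unit hf hn hle)
  refine Or.inr ⟨N, ?_, hq, hs, hu⟩
  exact ⟨hC.le, hC.normal, hC.perfect, hC.simple, hC.nonabelian, hC.centralizer_scalar, hC.absIrred,
      fun F₀ h0 hr => hsub ⟨F₀, h0, hr⟩⟩

/-- The case of a normal subgroup which is neither scalar nor absolutely irreducible. -/
lemma reducible_normal_lin (hn : 3 ≤ n) (hirr : Irr H) {M : Subgroup (GL (Fin n) F)} (hM : NormalIn M H)
    (hMs : ¬ M ≤ scalars (Fin n) F) (hMa : ¬ AbsIrr M) : LinLE n F H := by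
  haveI : Nonempty (Fin n) := ⟨⟨0, by omega⟩⟩
  rcases normal_dichotomy hirr hM with ⟨t, m, D, hD, hle, _⟩ | ⟨r, K, hr, hrn, hK, _, hle⟩ |
    ⟨w, a, hw, φ, e, P, hφ, hP, hle⟩
  · exact LinLE.decomp hD hle
  · exact LinLE.field hr hK hle
  · have hw1 : w ≠ 1 := by
      rintro rfl
      exact hMs (le_scalars_of_w_one hφ)
    have hw0 : w ≠ 0 := hw.out
    have ha1 : a ≠ 1 := by
      rintro rfl
      exact hMa (absIrr_of_a_one hφ hP)
    have ha0 : a ≠ 0 := by
      rintro rfl
      obtain ⟨i⟩ := ‹Nonempty (Fin n)›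
      exact (e i).2.elim0
    have hw2 : 2 ≤ w := by omega
    have ha2 : 2 ≤ a := by omega
    rcases lt_trichotomy w a with hlt | heq | hgt
    · exact LinLE.tensor hw2 hlt hle
    · subst heq
      have hle' := hle.trans (tensor_le_wreath e P)
      by_cases hw3 : w = 2
      · subst hw3
        exact LinLE.wreath_two hn (by norm_num) _ _ hle'
      · exact LinLE.wreath (by omega) (le_refl 2) hle'
    · exact LinLE.tensor ha2 hgt (hle.trans (tensor_le_swap e P))

/-- The case of a normal subgroup with central commutators. -/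
lemma xdata_lin (hn : 3 ≤ n) {N : Subgroup (GL (Fin n) F)} (hN : NormalIn N H) (hNa : AbsIrr N)
    (hc : ⁅N, N⁆ ≤ scalars (Fin n) F)
    (hd : ∀ M : Subgroup (GL (Fin n) F), NormalIn M H → M ≤ scalars (Fin n) F ∨ AbsIrr M)
    (hmin : ∀ M, NormalIn M H → ¬ M ≤ scalars (Fin n) F → M ≤ N → M = N) : LinLE n F H := by
  haveI : Nonempty (Fin n) := ⟨⟨0, by omega⟩⟩
  have hn2 : 2 ≤ Fintype.card (Fin n) := by simp; omega
  obtain ⟨r, s, hr, hcard, _⟩ := abelian_mod_power hN hNa hc hmin hn2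
  have hcn : n = r ^ s := by simpa using hcard
  have hs : s ≠ 0 := by
    rintro rfl
    simp at hcn
    omega
  rcases hr.eq_two_or_odd' with rfl | hodd
  · -- the prime two
    have hs2 : 2 ≤ s := by
      by_contra hlt
      have : s = 1 := by omega
      subst this
      omega
    by_cases hi : ∃ i : F, i ^ 2 = -1
    · obtain ⟨i, hi⟩ := hi
      obtain ⟨R, hX, _⟩ := exists_xdata4 hN hNa hc hd hmin hn2 (s := s) hcard hi
      rcases xdata_field hX (by norm_num) (by
        intro a hcop _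
        have h3 : a % 2 ≠ 0 := by
          intro h0
          have : 2 ∣ Nat.gcd a 4 := Nat.dvd_gcd (Nat.dvd_of_mod_eq_zero h0) (by norm_num)
          rw [hcop] at this
          omega
        omega) Nat.prime_two (t := 2) (by norm_num) with ⟨F₁, r', P, hr', hc', hle⟩ | ⟨σ, f, hf, hle⟩ | ⟨p, e, h2p, he, hmf⟩
      · exact LinLE.subfield hr' hc' hle
      · exact LinLE.unit hf hn hle
      · have he1 : e = 1 := by
          by_contra hne
          have he3 : 2 < e := by
            obtain ⟨c, hc⟩ := he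
            omega
          obtain ⟨hpp, _, _, _, hk⟩ := hmf
          apply hk 2 (by norm_num) he3
          have hp3 : p % 2 = 1 := by
            rcases hpp.eq_two_or_odd with h | h
            · exact absurd h.symm h2p
            · exact h
          obtain ⟨u, rfl⟩ : ∃ u, p = 2 * u + 1 := ⟨p / 2, by omega⟩
          have h5 : (2 * u + 1) ^ 2 - 1 = 4 * (u * u + u) := by
            have : (2 * u + 1) ^ 2 = 4 * (u * u + u) + 1 := by ring
            omega
          rw [h5]
          exact Dvd.intro _ rfl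
        subst he1
        have hc4 := hX.card_center (by norm_num)
        refine LinLE.sympType ⟨hX.symp hn2 Nat.prime_two (t := 2) (by norm_num) (by norm_num), hX.absIrr,
          p, 1, h2p, by rw [hc4]; exact hmf, Or.inr (Or.inl ⟨rfl, rfl, hc4, ?_, s, ?_⟩)⟩ hX.le_normalizer
        · rw [hcard]
          exact (Nat.pow_le_pow_right (by norm_num) hs2 : 2 ^ 2 ≤ 2 ^ s)
        · rw [hX.card_eq (by norm_num), hcard]
          ring
    · push Not at hi
      obtain ⟨R, hle, hRa, hRc, hscal, hneg⟩ := exists_R_nonsquare hN hNa hc hmin hn2 (s := s) hcard hi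
      have h2 : (2 : F) ≠ 0 := by
        intro h
        apply hneg
        linear_combination -h
      have h8 : ((Fintype.card (Fin n) : ℕ) : F) ≠ 0 := by
        rw [hcard]
        push_cast
        exact pow_ne_zero _ h2
      obtain ⟨f, hfb, hnd, hinv, hsym⟩ := exists_inv_form hRa hRc hneg h8 hscal
      exact LinLE.of_form hn hfb hnd h2 hsym
        (hle.trans (le_sim_of_fixes (normalIn_normalizer R) hRa (sesq_of_bilinear hfb) hnd hinv))
  · have hoddr : Odd r := hodd
    obtain ⟨ω, R, hX⟩ := exists_xdata_odd hN hNa hc hd hmin hn2 hr hoddr hcard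
    rcases xdata_field hX hr.one_lt (by
        intro a hcop hdvd
        have h1 : 1 ≤ a := by
          rcases Nat.eq_zero_or_pos a with rfl | h
          · simp at hcop
            exact absurd hcop hr.ne_one
          · exact h
        have h2 : a ^ 2 - 1 = (a - 1) * (a + 1) := by
          obtain ⟨u, rfl⟩ : ∃ u, a = u + 1 := ⟨a - 1, by omega⟩
          simp only [Nat.add_sub_cancel]
          have : (u + 1) ^ 2 = u * (u + 1 + 1) + 1 := by ring
          omega
        rw [h2] at hdvd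
        exact (hr.dvd_mul).1 hdvd) hr (t := 1) (by simp) with ⟨F₁, r', P, hr', hc', hle⟩ | ⟨σ, f, hf, hle⟩ | ⟨p, e, hrp, he, hmf⟩
    · exact LinLE.subfield hr' hc' hle
    · exact LinLE.unit hf hn hle
    · have hcr := hX.card_center hr.pos
      refine LinLE.sympType ⟨hX.symp hn2 hr (t := 1) (by simp) (by
          have : Nat.gcd 2 r = 1 := (Nat.coprime_primes Nat.prime_two hr).2 (by
            rintro rfl
            exact absurd hodd (by decide))
          rw [this, mul_one]), hX.absIrr,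
        p, e, hrp, by rw [hcr]; exact hmf, Or.inl ⟨hoddr, he, hcr, s, by omega, ?_⟩⟩ hX.le_normalizer
      rw [hX.card_eq hr.pos, hcard]
      ring

/-- The structure theorem for subgroups of the linear group. -/
theorem lin_struct (hn : 3 ≤ n) (H : Subgroup (GL (Fin n) F)) : LinLE n F H ∨ InLinearResidualClass H := by
  haveI : Nonempty (Fin n) := ⟨⟨0, by omega⟩⟩
  have h3 : 3 ≤ Fintype.card (Fin n) := by simpa using hn
  by_cases hirr : Irr H
  swap
  · simp only [Irr] at hirr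
    push Not at hirr
    obtain ⟨W, hW, h0, h1⟩ := hirr
    exact Or.inl (LinLE.stab h0 h1 (le_stab_of_inv hW))
  by_cases hd : ∀ M : Subgroup (GL (Fin n) F), NormalIn M H → M ≤ scalars (Fin n) F ∨ AbsIrr M
  swap
  · push Not at hd
    obtain ⟨M, hM, hMs, hMa⟩ := hd
    exact Or.inl (reducible_normal_lin hn hirr hM hMs hMa)
  have hHH : NormalIn H H := ⟨le_rfl, fun h hh x hx => H.mul_mem (H.mul_mem hh hx) (H.inv_mem hh)⟩
  have hHns : ¬ H ≤ scalars (Fin n) F := fun h => not_irr_of_le_scalars (by omega) h hirr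
  obtain ⟨N, ⟨hN, hNns⟩, hmin₀⟩ := exists_minimal_subgroup
    {M : Subgroup (GL (Fin n) F) | NormalIn M H ∧ ¬ M ≤ scalars (Fin n) F} ⟨H, hHH, hHns⟩
  have hmin : ∀ M, NormalIn M H → ¬ M ≤ scalars (Fin n) F → M ≤ N → M = N :=
    fun M h1 h2 h3 => hmin₀ M ⟨h1, h2⟩ h3
  have hNirr : AbsIrr N := (hd N hN).resolve_left hNns
  by_cases hc : ⁅N, N⁆ ≤ scalars (Fin n) F
  · exact Or.inl (xdata_lin hn hN hNirr hc hd hmin)
  · have hNperf : ⁅N, N⁆ = N := hmin _ hN.commutator hc (subgroup_commutator_le_self N)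
    rcases core_or_factor hN hNirr hNperf hNns hmin with hC | ⟨T, hT⟩
    · exact core_lin hn hN hC
    · obtain ⟨w, k, e, B, hw, hk, hle⟩ := hT.le_wreath (by omega)
      by_cases hw3 : w = 2
      · subst hw3
        exact Or.inl (LinLE.wreath_two hn (by omega) e B hle)
      · exact Or.inl (LinLE.wreath (by omega) hk hle)

end LinStruct

end Cfsg.Agent.H28
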