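import Cfsg.Agent.Lib.H28.GSU4b
import Cfsg.Agent.Lib.H28.GSp4a
import Cfsg.Agent.Lib.H28.GU9

set_option autoImplicit false
set_option linter.style.haveILetI false
set_option linter.unusedSectionVars false
set_option linter.unusedSimpArgs false

namespace Cfsg.Agent.H28

open scoped MatrixGroups Matrix commutatorElement Kronecker
open Cfsg Cfsg.Geo

section SU4Tensor

variable {F : Type*} [Field F] [Fintype F] {q : ℕ} {σ : F ≃+* F}

/-- The subfield fixed by the involution. -/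
def F0 (σ : F ≃+* F) : Subfield F := (σ : F →+* F).eqLocusField (RingHom.id F)

lemma mem_F0 {x : F} : x ∈ F0 σ ↔ σ x = x := Iff.rfl

lemma card_F0 (hS : HS F q σ) : Fintype.card F = Nat.card (F0 σ) ^ 2 := by
  have h1 : Nat.card (F0 σ) = q := by
    rw [← card_herm_fixed hS]
    rfl
  rw [h1, hS.card]

lemma F0_ne_top (hS : HS F q σ) : F0 σ ≠ ⊤ := by
  intro h
  apply hS.ne
  ext x
  have : x ∈ F0 σ := by
    rw [h]
    exact Subfield.mem_top x
  exact this

/-- The hyperbolic skew form in two variables. -/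
def g0 (σ : F ≃+* F) (ζ : F) (x y : Fin 2 → F) : F := ζ * (x 0 * σ (y 1) - x 1 * σ (y 0))

lemma g0_eform (hS : HS F q σ) {ζ : F} (hζ0 : ζ ≠ 0) (hζ : ζ + σ ζ = 0) : EForm σ 1 (g0 σ ζ) := by
  have hσζ : σ ζ = -ζ := by linear_combination hζ
  refine ⟨⟨?_, ?_, ?_, ?_⟩, hS.inv, ?_, ?_⟩
  · intro x y v
    simp only [g0, Pi.add_apply]
    ring
  · intro c x v
    simp only [g0, Pi.smul_apply, smul_eq_mul]
    ring
  · intro v x y
    simp only [g0, Pi.add_apply, map_add]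
    ring
  · intro c v x
    simp only [g0, Pi.smul_apply, smul_eq_mul, map_mul]
    ring
  · intro x y
    simp only [g0, map_mul, map_sub, hS.inv, hσζ]
    ring
  · intro x hx
    by_cases h0 : x 0 = 0
    · have h1 : x 1 ≠ 0 := by
        intro h1
        apply hx
        funext i
        fin_cases i
        · exact h0
        · exact h1
      refine ⟨![1, 0], ?_⟩
      simp only [g0, h0, Matrix.cons_val_zero, Matrix.cons_val_one, map_one, map_zero]
      simpa using ⟨hζ0, h1⟩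
    · refine ⟨![0, 1], ?_⟩
      simp only [g0, Matrix.cons_val_zero, Matrix.cons_val_one, map_one, map_zero]
      simpa using ⟨hζ0, h0⟩

/-- A similitude of the hyperbolic skew form is proportional to a rational matrix. -/
lemma sim_rational (hS : HS F q σ) {ζ : F} (hζ0 : ζ ≠ 0) (hζ : ζ + σ ζ = 0) (A : GL (Fin 2) F) {c : F}
    (hA : ∀ x y, g0 σ ζ ((A : Matrix (Fin 2) (Fin 2) F) *ᵥ x) ((A : Matrix (Fin 2) (Fin 2) F) *ᵥ y) =
      c * g0 σ ζ x y) :
    ∃ l : Fˣ, ∀ i j, l * (A : Matrix (Fin 2) (Fin 2) F) i j ∈ F0 σ := by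
  set M : Matrix (Fin 2) (Fin 2) F := (A : Matrix (Fin 2) (Fin 2) F) with hM
  have hval : ∀ i j, g0 σ ζ (M *ᵥ Pi.single i 1) (M *ᵥ Pi.single j 1) =
      ζ * (M 0 i * σ (M 1 j) - M 1 i * σ (M 0 j)) := by
    intro i j
    simp only [g0, Matrix.mulVec_single_one, Matrix.col_apply]
  have h00 := hA (Pi.single 0 1) (Pi.single 0 1)
  have h01 := hA (Pi.single 0 1) (Pi.single 1 1)
  have h10 := hA (Pi.single 1 1) (Pi.single 0 1)
  have h11 := hA (Pi.single 1 1) (Pi.single 1 1)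
  rw [hval] at h00 h01 h10 h11
  simp only [g0, Pi.single_apply, map_one, map_zero, one_ne_zero, zero_ne_one, if_true, if_false,
    Fin.isValue, mul_one, mul_zero, sub_zero, zero_sub] at h00 h01 h10 h11
  set a := M 0 0
  set b := M 0 1
  set u := M 1 0
  set d := M 1 1
  have e00 : a * σ u - u * σ a = 0 := by
    have : ζ * (a * σ u - u * σ a) = 0 := by simpa using h00
    exact (mul_eq_zero.1 this).resolve_left hζ0
  have e11 : b * σ d - d * σ b = 0 := by
    have : ζ * (b * σ d - d * σ b) = 0 := by simpa using h11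
    exact (mul_eq_zero.1 this).resolve_left hζ0
  have e01 : a * σ d - u * σ b = c := by
    have : ζ * (a * σ d - u * σ b) = ζ * c := by linear_combination h01
    exact mul_left_cancel₀ hζ0 this
  have e10 : b * σ u - d * σ a = -c := by
    have : ζ * (b * σ u - d * σ a) = ζ * (-c) := by linear_combination h10
    exact mul_left_cancel₀ hζ0 this
  set δ : F := a * d - b * u with hδ
  have hδ0 : δ ≠ 0 := by
    have h1 : δ = M.det := by
      rw [Matrix.det_fin_two]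
    have h2 : IsUnit M.det := (Matrix.isUnit_iff_isUnit_det M).1 A.isUnit
    rw [h1]
    exact h2.ne_zero
  have ha : δ * σ a = c * a := by linear_combination b * e00 - a * e10
  have hu : δ * σ u = c * u := by linear_combination d * e00 - u * e10
  have hb : δ * σ b = c * b := by linear_combination a * e11 * 0 + b * e01 - a * e11
  have hd : δ * σ d = c * d := by linear_combination d * e01 - u * e11
  set κ : F := c / δ with hκ
  have hfix : ∀ t, δ * σ t = c * t → σ t = κ * t := by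
    intro t ht
    rw [hκ]
    field_simp
    linear_combination ht
  -- a non-zero entry gives the norm condition
  obtain ⟨i₀, j₀, hne⟩ : ∃ i j, M i j ≠ 0 := by
    by_contra hcon
    push Not at hcon
    apply hδ0
    rw [hδ]
    simp only [a, b, u, d, hcon]
    ring
  have hall : ∀ i j, σ (M i j) = κ * M i j := by
    intro i j
    fin_cases i <;> fin_cases j
    · exact hfix _ ha
    · exact hfix _ hb
    · exact hfix _ hu
    · exact hfix _ hd
  by_cases hκ1 : 1 + κ = 0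
  · obtain ⟨z, hz0, hz⟩ := hS.exists_trace_zero
    refine ⟨Units.mk0 z hz0, fun i j => ?_⟩
    rw [mem_F0]
    simp only [Units.val_mk0, map_mul, hall]
    have hk : κ = -1 := by linear_combination hκ1
    have hz' : σ z = -z := by linear_combination hz
    rw [hk, hz']
    ring
  · refine ⟨Units.mk0 (1 + κ) hκ1, fun i j => ?_⟩
    rw [mem_F0]
    simp only [Units.val_mk0, map_mul, hall, map_add, map_one]
    have hκκ : σ κ * κ = 1 := by
      have h1 := hS.inv (M i₀ j₀)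
      rw [hall, map_mul, hall] at h1
      have h2 : (σ κ * κ - 1) * M i₀ j₀ = 0 := by linear_combination h1
      exact sub_eq_zero.1 ((mul_eq_zero.1 h2).resolve_right hne)
    linear_combination (M i j) * hκκ

/-- A splitting of the form gives similitudes of both factors. -/
lemma sim_of_split {ζ : F} (hζ0 : ζ ≠ 0) {A B : GL (Fin 2) F}
    (h : ∀ x y u v, g0 σ ζ ((A : Matrix (Fin 2) (Fin 2) F) *ᵥ x) ((A : Matrix (Fin 2) (Fin 2) F) *ᵥ y) *
      g0 σ ζ ((B : Matrix (Fin 2) (Fin 2) F) *ᵥ u) ((B : Matrix (Fin 2) (Fin 2) F) *ᵥ v) = g0 σ ζ x y * g0 σ ζ u v) :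
    (∃ c, ∀ x y, g0 σ ζ ((A : Matrix (Fin 2) (Fin 2) F) *ᵥ x) ((A : Matrix (Fin 2) (Fin 2) F) *ᵥ y) = c * g0 σ ζ x y) ∧
    (∃ d, ∀ u v, g0 σ ζ ((B : Matrix (Fin 2) (Fin 2) F) *ᵥ u) ((B : Matrix (Fin 2) (Fin 2) F) *ᵥ v) = d * g0 σ ζ u v) := by
  have h1 : g0 σ ζ (Pi.single 0 1) (Pi.single 1 1) = ζ := by
    simp [g0]
  have hh := h (Pi.single 0 1) (Pi.single 1 1) (Pi.single 0 1) (Pi.single 1 1)
  rw [h1] at hh
  set s := g0 σ ζ ((B : Matrix (Fin 2) (Fin 2) F) *ᵥ Pi.single 0 1) ((B : Matrix (Fin 2) (Fin 2) F) *ᵥ Pi.single 1 1) with hs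
  set t := g0 σ ζ ((A : Matrix (Fin 2) (Fin 2) F) *ᵥ Pi.single 0 1) ((A : Matrix (Fin 2) (Fin 2) F) *ᵥ Pi.single 1 1) with ht
  have hs0 : s ≠ 0 := by
    intro h0
    rw [h0, mul_zero] at hh
    exact (mul_ne_zero hζ0 hζ0) hh.symm
  have ht0 : t ≠ 0 := by
    intro h0
    rw [h0, zero_mul] at hh
    exact (mul_ne_zero hζ0 hζ0) hh.symm
  constructor
  · refine ⟨ζ / s, fun x y => ?_⟩
    have h2 := h x y (Pi.single 0 1) (Pi.single 1 1)
    rw [h1, ← hs] at h2
    field_simp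
    linear_combination h2
  · refine ⟨ζ / t, fun u v => ?_⟩
    have h2 := h (Pi.single 0 1) (Pi.single 1 1) u v
    rw [h1, ← ht] at h2
    field_simp
    linear_combination h2

/-- The entries of an element exchanging the two factors. -/
lemma entries_swap {ι : Type} [Fintype ι] [DecidableEq ι] {e : ι ≃ Fin 2 × Fin 2} {M : Matrix ι ι F}
    {A B : Matrix (Fin 2) (Fin 2) F}
    (h : ∀ x u : Fin 2 → F, M *ᵥ (fun i => x (e i).1 * u (e i).2) = fun i => (A *ᵥ u) (e i).1 * (B *ᵥ x) (e i).2)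
    (i j : ι) : M i j = A (e i).1 (e j).2 * B (e i).2 (e j).1 := by
  have h1 := congrFun (h (Pi.single (e j).1 1) (Pi.single (e j).2 1)) i
  have h2 : (fun i => (Pi.single (e j).1 1 : Fin 2 → F) (e i).1 * (Pi.single (e j).2 1 : Fin 2 → F) (e i).2) =
      (Pi.single j 1 : ι → F) := by
    funext k
    by_cases hk : k = j
    · subst hk
      simp
    · have hk' : e k ≠ e j := fun h => hk (e.injective h)
      have : (e k).1 ≠ (e j).1 ∨ (e k).2 ≠ (e j).2 := by
        by_contra hcon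
        push Not at hcon
        exact hk' (Prod.ext hcon.1 hcon.2)
      rw [Pi.single_eq_of_ne hk]
      rcases this with h3 | h3
      · rw [Pi.single_eq_of_ne h3, zero_mul]
      · rw [Pi.single_eq_of_ne h3, mul_zero]
  rw [h2, Matrix.mulVec_single_one, Matrix.mulVec_single_one, Matrix.mulVec_single_one] at h1
  exact h1

variable {e : Fin 4 ≃ Fin 2 × Fin 2} {P : GL (Fin 4) F}

/-- The group lies in a subfield subgroup. -/
theorem tensor22_sub (hS : HS F q σ) {H : Subgroup (GL (Fin 4) F)} (hHU : H ≤ GU 4 F q)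
    (hle : H ≤ tensorWreathSubgroup 2 2 (eTwo e) P) {ζ : F} (hζ0 : ζ ≠ 0) (hζ : ζ + σ ζ = 0)
    (hsplit : ∀ x u y v, hermForm 4 F q (pureV e P x u) (pureV e P y v) = g0 σ ζ x y * g0 σ ζ u v) :
    H ≤ subfieldSubgroup (F0 σ) P := by
  intro g hg
  rw [mem_subfieldSubgroup]
  rcases wreath_cases (hle hg) with hT | ⟨A, B, hAB⟩
  · obtain ⟨A, B, hAB⟩ := mem_tensor_iff.1 hT
    have hp := pure_of_conj e P hAB
    obtain ⟨⟨c, hc⟩, ⟨d, hd⟩⟩ := sim_of_split (σ := σ) hζ0 (A := A) (B := B) (fun x y u v => by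
      rw [← hsplit, ← hsplit, ← hp, ← hp, gu_isom (hHU hg)])
    obtain ⟨l₁, hl₁⟩ := sim_rational hS hζ0 hζ A hc
    obtain ⟨l₂, hl₂⟩ := sim_rational hS hζ0 hζ B hd
    refine ⟨l₁ * l₂, fun i j => ?_⟩
    rw [hAB]
    simp only [Matrix.submatrix_apply, Matrix.kroneckerMap_apply, Units.val_mul]
    have e1 := (F0 σ).mul_mem (hl₁ (e i).1 (e j).1) (hl₂ (e i).2 (e j).2)
    convert e1 using 1
    ring
  · obtain ⟨⟨c, hc⟩, ⟨d, hd⟩⟩ := sim_of_split (σ := σ) hζ0 (A := A) (B := B) (fun u v x y => by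
      rw [← hsplit, ← hAB, ← hAB, gu_isom (hHU hg), hsplit, mul_comm])
    obtain ⟨l₁, hl₁⟩ := sim_rational hS hζ0 hζ A hc
    obtain ⟨l₂, hl₂⟩ := sim_rational hS hζ0 hζ B hd
    refine ⟨l₁ * l₂, fun i j => ?_⟩
    rw [entries_swap (e := e) (M := ((P⁻¹ : GL (Fin 4) F) : Matrix (Fin 4) (Fin 4) F) * (g : Matrix (Fin 4) (Fin 4) F) *
        (P : Matrix (Fin 4) (Fin 4) F)) (A := (A : Matrix (Fin 2) (Fin 2) F)) (B := (B : Matrix (Fin 2) (Fin 2) F)) (fun x u => by
      have h1 := hAB x u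
      simp only [pureV] at h1
      rw [← Matrix.mulVec_mulVec, ← Matrix.mulVec_mulVec, h1, inv_mul_mulVec])]
    have e1 := (F0 σ).mul_mem (hl₁ (e i).1 (e j).2) (hl₂ (e i).2 (e j).1)
    convert e1 using 1
    simp only [Units.val_mul]
    ring

/-- The form in tensor coordinates. -/
lemma herm_coords (hS : HS F q σ) {ζ : F} (hζ : ζ + σ ζ = 0)
    (hsplit : ∀ x u y v, hermForm 4 F q (pureV e P x u) (pureV e P y v) = g0 σ ζ x y * g0 σ ζ u v) (y z : Fin 4 → F) :
    hermForm 4 F q y z = ζ ^ 2 * (XC e P y 0 0 * σ (XC e P z 1 1) - XC e P y 0 1 * σ (XC e P z 1 0) -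
      XC e P y 1 0 * σ (XC e P z 0 1) + XC e P y 1 1 * σ (XC e P z 0 0)) := by
  have hs' : Sesq σ (fun y z : Fin 4 → F => ζ ^ 2 * (XC e P y 0 0 * σ (XC e P z 1 1) - XC e P y 0 1 * σ (XC e P z 1 0) -
      XC e P y 1 0 * σ (XC e P z 0 1) + XC e P y 1 1 * σ (XC e P z 0 0))) := by
    refine ⟨?_, ?_, ?_, ?_⟩
    · intro a b v
      simp only [XC_add]
      ring
    · intro c a v
      simp only [XC_smul]
      ring
    · intro v a b
      simp only [XC_add, map_add]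
      ring
    · intro c v a
      simp only [XC_smul, map_mul]
      ring
  refine sesq_ext_pure' (e := e) (P := P) (herm_sesq hS) hs' (fun x u y v => ?_) y z
  rw [hsplit]
  simp only [XC_pureV, g0, map_mul]
  ring

/-- The outcome for a tensor square of two-dimensional spaces. -/
theorem tensor22_conc (hS : HS F q σ) {H : Subgroup (GL (Fin 4) F)} (hH : IsMaximalIn (GSU 4 F q) H)
    {f₁ f₂ : (Fin 2 → F) → (Fin 2 → F) → F} (hle : H ≤ tensorWreathSubgroup 2 2 (eTwo e) P)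
    (hf₁ : EForm σ 1 f₁) (hf₂ : EForm σ 1 f₂)
    (hsplit : ∀ x u y v, hermForm 4 F q (pureV e P x u) (pureV e P y v) = f₁ x y * f₂ u v) :
    (∃ (F₀ : Subfield F) (P : GL (Fin 4) F) (ζ : F), Fintype.card F = Nat.card F₀ ^ 2 ∧ ζ ≠ 0 ∧ ζ + ζ ^ q = 0 ∧
      IsFormRationalStructure (hermForm 4 F q) F₀ ζ P ∧
      (∀ u : Fin 4 → F, (∀ i, u i ∈ F₀) → hermForm 4 F q ((P : Matrix (Fin 4) (Fin 4) F) *ᵥ u)
        ((P : Matrix (Fin 4) (Fin 4) F) *ᵥ u) = 0) ∧
      H = subfieldSubgroup F₀ P ⊓ (GU 4 F q ⊓ specialLinear (Fin 4) F)) ∨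
    (Odd q ∧ ∃ (F₀ : Subfield F) (P : GL (Fin 4) F), Fintype.card F = Nat.card F₀ ^ 2 ∧
      IsFormRationalStructure (hermForm 4 F q) F₀ 1 P ∧
      H = subfieldSubgroup F₀ P ⊓ (GU 4 F q ⊓ specialLinear (Fin 4) F)) := by
  obtain ⟨ζ, hζ0, hζ⟩ := hS.exists_trace_zero
  have hg := g0_eform hS hζ0 hζ
  obtain ⟨M₀, hM₀⟩ := exists_std_basis hS hg
  obtain ⟨M₁, hM₁⟩ := exists_std_basis hS hf₁
  obtain ⟨M₂, hM₂⟩ := exists_std_basis hS hf₂
  have hstd : ∀ (f : (Fin 2 → F) → (Fin 2 → F) → F) (M : GL (Fin 2) F),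
      (∀ x y, f ((M : Matrix (Fin 2) (Fin 2) F) *ᵥ x) ((M : Matrix (Fin 2) (Fin 2) F) *ᵥ y) = hermForm 2 F q x y) →
      ∀ x y, f (((M * M₀⁻¹ : GL (Fin 2) F) : Matrix (Fin 2) (Fin 2) F) *ᵥ x)
        (((M * M₀⁻¹ : GL (Fin 2) F) : Matrix (Fin 2) (Fin 2) F) *ᵥ y) = g0 σ ζ x y := by
    intro f M hM x y
    simp only [Units.val_mul, ← Matrix.mulVec_mulVec]
    rw [hM, ← hM₀, mul_inv_mulVec, mul_inv_mulVec]
  set P' : GL (Fin 4) F := P * glTwo e (M₁ * M₀⁻¹) (M₂ * M₀⁻¹) with hP'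
  have hsplit' : ∀ x u y v, hermForm 4 F q (pureV e P' x u) (pureV e P' y v) = g0 σ ζ x y * g0 σ ζ u v := by
    intro x u y v
    rw [hP', pureV_glTwo, pureV_glTwo, hsplit, hstd f₁ M₁ hM₁, hstd f₂ M₂ hM₂]
  have hle' : H ≤ tensorWreathSubgroup 2 2 (eTwo e) P' := hle.trans (wreath_le_glTwo e P _ _)
  have hHU : H ≤ GU 4 F q := fun g hg => (hH.1.le hg).1
  have hsub := tensor22_sub hS hHU hle' hζ0 hζ hsplit'
  have heq : H = subfieldSubgroup (F0 σ) P' ⊓ (GU 4 F q ⊓ specialLinear (Fin 4) F) :=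
    eq_inf_of_max hH hsub (not_gsu_le_subfield4 hS σ (fun x => Iff.rfl) (F0_ne_top hS) P')
  have hcoord : ∀ u : Fin 4 → F, ∀ a b, XC e P' ((P' : Matrix (Fin 4) (Fin 4) F) *ᵥ u) a b = u (e.symm (a, b)) := by
    intro u a b
    simp only [XC, inv_mul_mulVec]
  have hform : ∀ u v : Fin 4 → F, hermForm 4 F q ((P' : Matrix (Fin 4) (Fin 4) F) *ᵥ u)
      ((P' : Matrix (Fin 4) (Fin 4) F) *ᵥ v) = ζ ^ 2 * (u (e.symm (0, 0)) * σ (v (e.symm (1, 1))) -
        u (e.symm (0, 1)) * σ (v (e.symm (1, 0))) - u (e.symm (1, 0)) * σ (v (e.symm (0, 1))) +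
        u (e.symm (1, 1)) * σ (v (e.symm (0, 0)))) := by
    intro u v
    rw [herm_coords hS hζ hsplit']
    simp only [hcoord]
  have hσζ : σ ζ = -ζ := by linear_combination hζ
  have hrat : ∀ u v : Fin 4 → F, (∀ i, u i ∈ F0 σ) → (∀ i, v i ∈ F0 σ) →
      hermForm 4 F q ((P' : Matrix (Fin 4) (Fin 4) F) *ᵥ u) ((P' : Matrix (Fin 4) (Fin 4) F) *ᵥ v) ∈ F0 σ := by
    intro u v hu hv
    rw [hform, mem_F0]
    simp only [map_mul, map_sub, map_add, map_pow, hS.inv, hσζ]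
    rw [(mem_F0.1 (hu _) : σ (u (e.symm (0, 0))) = _), (mem_F0.1 (hu _) : σ (u (e.symm (0, 1))) = _),
      (mem_F0.1 (hu _) : σ (u (e.symm (1, 0))) = _), (mem_F0.1 (hu _) : σ (u (e.symm (1, 1))) = _),
      (mem_F0.1 (hv _) : σ (v (e.symm (0, 0))) = _), (mem_F0.1 (hv _) : σ (v (e.symm (0, 1))) = _),
      (mem_F0.1 (hv _) : σ (v (e.symm (1, 0))) = _), (mem_F0.1 (hv _) : σ (v (e.symm (1, 1))) = _)]
    ring
  by_cases h2 : (2 : F) = 0
  · left
    refine ⟨F0 σ, P', 1, card_F0 hS, one_ne_zero, ?_, fun u v hu hv => ?_, fun u hu => ?_, heq⟩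
    · rw [one_pow]
      linear_combination h2
    · rw [one_mul]
      exact hrat u v hu hv
    · rw [hform]
      rw [(mem_F0.1 (hu _) : σ (u (e.symm (0, 0))) = _), (mem_F0.1 (hu _) : σ (u (e.symm (0, 1))) = _),
        (mem_F0.1 (hu _) : σ (u (e.symm (1, 0))) = _), (mem_F0.1 (hu _) : σ (u (e.symm (1, 1))) = _)]
      linear_combination (ζ ^ 2 * (u (e.symm (1, 1)) * u (e.symm (0, 0)) - u (e.symm (1, 0)) * u (e.symm (0, 1)))) * h2
  · right
    have hodd : Odd q := by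
      have h3 := odd_of_two_ne_zero h2
      rw [hS.card] at h3
      exact (Nat.odd_pow_iff (by norm_num)).1 h3
    refine ⟨hodd, F0 σ, P', card_F0 hS, fun u v hu hv => ?_, heq⟩
    rw [one_mul]
    exact hrat u v hu hv

end SU4Tensor

end Cfsg.Agent.H28
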