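import Cfsg.Agent.Lib.H28.GLE3
import Cfsg.Agent.Lib.H28.GSU4c

set_option autoImplicit false
set_option linter.style.haveILetI false
set_option linter.unusedSectionVars false
set_option linter.unusedSimpArgs false

namespace Cfsg.Agent.H28

open scoped MatrixGroups Matrix commutatorElement Kronecker
open Cfsg Cfsg.Geo

section ULE

variable {n : ℕ} {F : Type*} [Field F] [Fintype F] {q : ℕ} {σ : F ≃+* F}

/-- The list of classes for the unitary group, with inclusions. -/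
def UGLE (n : ℕ) (F : Type*) [Field F] [Fintype F] (q : ℕ) (H : Subgroup (GL (Fin n) F)) : Prop :=
  (∃ W : Submodule F (Fin n → F), W ≠ ⊥ ∧ IsTotallySingularFor (hermForm n F q) W ∧ H ≤ subspaceStabilizer W) ∨
  (∃ W : Submodule F (Fin n → F), W ≠ ⊥ ∧ IsNondegenerateOn (hermForm n F q) W ∧
    2 * Module.finrank F W < n ∧ H ≤ subspaceStabilizer W) ∨
  (∃ (t m : ℕ) (D : Fin t → Submodule F (Fin n → F)), IsNondegenerateMDecomposition (hermForm n F q) m D ∧
    H ≤ decompositionStabilizer D) ∨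
  (∃ (k : ℕ) (D : Fin 2 → Submodule F (Fin n → F)), 2 * k = n ∧ IsMDecomposition k D ∧
    (∀ i, IsTotallySingularFor (hermForm n F q) (D i)) ∧ H ≤ decompositionStabilizer D) ∨
  (∃ (F₀ : Subfield F) (r : ℕ) (P : GL (Fin n) F), r.Prime ∧ Odd r ∧ Fintype.card F = Nat.card F₀ ^ r ∧
    IsFormRationalStructure (hermForm n F q) F₀ 1 P ∧ H ≤ subfieldSubgroup F₀ P) ∨
  (∃ (F₀ : Subfield F) (P : GL (Fin n) F), Odd q ∧ Fintype.card F = Nat.card F₀ ^ 2 ∧
    IsFormRationalStructure (hermForm n F q) F₀ 1 P ∧ H ≤ subfieldSubgroup F₀ P) ∨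
  (∃ (F₀ : Subfield F) (P : GL (Fin n) F) (ζ : F), Even n ∧ Fintype.card F = Nat.card F₀ ^ 2 ∧ ζ ≠ 0 ∧
    ζ + ζ ^ q = 0 ∧ IsFormRationalStructure (hermForm n F q) F₀ ζ P ∧
    (∀ u : Fin n → F, (∀ i, u i ∈ F₀) → hermForm n F q ((P : Matrix (Fin n) (Fin n) F) *ᵥ u)
      ((P : Matrix (Fin n) (Fin n) F) *ᵥ u) = 0) ∧
    H ≤ subfieldSubgroup F₀ P) ∨
  (∃ (r : ℕ) (R : Subgroup (GL (Fin n) F)) (p e k : ℕ), IsSymplecticTypeGroup r R ∧
      ActsAbsolutelyIrreducibly (matrixSet R) ∧ R ≤ similarityGroup (hermForm n F q) ∧ r ≠ p ∧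
      IsMinimalFieldFor (Nat.card (Subgroup.center R)) p e F ∧
      ((Odd r ∧ Nat.card (Subgroup.center R) = r ∧ 1 ≤ k ∧ Nat.card R = r ^ (1 + 2 * k)) ∨
       (r = 2 ∧ e = 2 ∧ Nat.card (Subgroup.center R) = 4 ∧ Nat.card R = 2 ^ (2 + 2 * k))) ∧
      H ≤ subgroupNormalizer R) ∨
  (∃ (r : ℕ) (K : Subalgebra F (Matrix (Fin n) (Fin n) F)), r.Prime ∧ Odd r ∧ IsFieldSubalgebra r K ∧
    IsAdjointClosedFor (hermForm n F q) K ∧ H ≤ subalgebraNormalizer K) ∨
  (∃ (n₁ n₂ : ℕ) (e : Fin n ≃ Fin n₁ × Fin n₂) (P : GL (Fin n) F) (f₁ : (Fin n₁ → F) → (Fin n₁ → F) → F)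
    (f₂ : (Fin n₂ → F) → (Fin n₂ → F) → F), 2 ≤ n₁ ∧ n₁ < n₂ ∧
    IsUnitaryFormPow q f₁ ∧ IsUnitaryFormPow q f₂ ∧
    IsTensorFormStructure (fun x : F => x ^ q) (hermForm n F q) f₁ f₂ e P ∧
    H ≤ tensorProductSubgroup n₁ n₂ e P) ∨
  (∃ (k t : ℕ) (e : Fin n ≃ (Fin t → Fin k)) (P : GL (Fin n) F) (f₁ : (Fin k → F) → (Fin k → F) → F),
      3 ≤ k ∧ 2 ≤ t ∧ ¬ (q = 2 ∧ k = 3) ∧ IsUnitaryFormPow q f₁ ∧
      IsTensorPowerFormStructure (fun x : F => x ^ q) (hermForm n F q) f₁ e P ∧ H ≤ tensorWreathSubgroup k t e P) ∨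
  InUnitaryResidualClass H

lemma decomp_ugle {H : Subgroup (GL (Fin n) F)} {t m : ℕ} {D : Fin t → Submodule F (Fin n → F)}
    (hD : IsNondegenerateMDecomposition (hermForm n F q) m D) (hle : H ≤ decompositionStabilizer D) :
    UGLE n F q H :=
  Or.inr (Or.inr (Or.inl ⟨t, m, D, hD, hle⟩))

/-- The reducible case. -/
lemma reducible_ugle (hS : HS F q σ) (h3 : 3 ≤ n) {H : Subgroup (GL (Fin n) F)} (hH : H ≤ GU n F q)
    {W : Submodule F (Fin n → F)} (hW : Inv (H : Set (GL (Fin n) F)) W) (h0 : W ≠ ⊥) (h1 : W ≠ ⊤) :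
    UGLE n F q H := by
  classical
  haveI : Nonempty (Fin n) := ⟨⟨0, by omega⟩⟩
  have hHU : ∀ g ∈ H, ∀ x y : Fin n → F, hermForm n F q ((g : Matrix (Fin n) (Fin n) F) *ᵥ x)
      ((g : Matrix (Fin n) (Fin n) F) *ᵥ y) = hermForm n F q x y := fun g hg x y =>
    gu_isom (hH hg) x y
  have hf := herm_eform (n := n) hS
  rcases form_reducible hf (H := H) (fun g hg => ⟨1, one_ne_zero, fun x y => by rw [one_mul]; exact hHU g hg x y⟩)
    hW h0 h1 with ⟨W', h2, h3, hts, hinv⟩ | ⟨W', h2, h3, hnd, hinv, hdim⟩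
  · exact Or.inl ⟨W', h2, hts, le_stab_of_inv hinv⟩
  · have hcardn : Fintype.card (Fin n) = n := Fintype.card_fin n
    rw [hcardn] at hdim
    by_cases hlt : 2 * Module.finrank F W' < n
    · exact Or.inr (Or.inl ⟨W', h2, hnd, hlt, le_stab_of_inv hinv⟩)
    · have heq : 2 * Module.finrank F W' = n := by omega
      have hd1 := finrank_fperp hf W'
      rw [hcardn] at hd1
      have hd2 : Module.finrank F (fperp hf.sesq W') = Module.finrank F W' := by omega
      have hnd2 : IsNondegenerateOn (hermForm n F q) (fperp hf.sesq W') := by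
        apply nondeg_of_inf_fperp hf
        rw [fperp_fperp hf, inf_comm]
        exact inf_fperp_of_nondeg hf hnd
      have hne : W' ≠ fperp hf.sesq W' := by
        intro h
        apply h2
        have h4 := inf_fperp_of_nondeg hf hnd
        rw [← h, inf_idem] at h4
        exact h4
      have hm0 : 0 < Module.finrank F W' := by
        rw [Nat.pos_iff_ne_zero]
        intro h
        exact h2 (Submodule.finrank_eq_zero.1 h)
      have hinv2 : Inv (H : Set (GL (Fin n) F)) (fperp hf.sesq W') := inv_fperp hf hHU hinv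
      have hmapinv : ∀ (X : Submodule F (Fin n → F)), Inv (H : Set (GL (Fin n) F)) X → ∀ g ∈ H,
          X.map (Matrix.toLin' (g : Matrix (Fin n) (Fin n) F)) = X := by
        intro X hX g hg
        apply Submodule.eq_of_le_of_finrank_eq
        · rintro _ ⟨w, hw, rfl⟩
          exact hX g hg w hw
        · exact finrank_map_gl g X
      let O : Finset (Submodule F (Fin n → F)) := {W', fperp hf.sesq W'}
      have hOmem : ∀ E ∈ O, E = W' ∨ E = fperp hf.sesq W' := by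
        intro E hE
        simpa [O] using hE
      obtain ⟨D', hD', hle', _⟩ := nondeg_decomp_of_finset (m' := Module.finrank F W') (H := H) hf O hm0
        (by rw [Finset.card_pair hne])
        (fun E hE => by
          rcases hOmem E hE with rfl | rfl
          · rfl
          · exact hd2)
        (fun E hE => by
          rcases hOmem E hE with rfl | rfl
          · exact hnd
          · exact hnd2)
        (fun E hE E' hE' hEE u hu v hv => by
          rcases hOmem E hE with rfl | rfl <;> rcases hOmem E' hE' with rfl | rfl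
          · exact absurd rfl hEE
          · exact hv u hu
          · exact hf.refl (hu v hv)
          · exact absurd rfl hEE)
        (by
          rw [eq_top_iff, ← sup_fperp_of_nondeg hf hnd]
          refine sup_le ?_ ?_
          · exact le_iSup₂_of_le (f := fun A (_ : A ∈ O) => A) W' (by simp [O]) le_rfl
          · exact le_iSup₂_of_le (f := fun A (_ : A ∈ O) => A) (fperp hf.sesq W') (by simp [O]) le_rfl)
        (fun g hg E hE => by
          rcases hOmem E hE with rfl | rfl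
          · rw [hmapinv _ hinv g hg]
            simp [O]
          · rw [hmapinv _ hinv2 g hg]
            simp [O])
      exact decomp_ugle hD' hle'

lemma tensor_case_ugle (hS : HS F q σ) {H : Subgroup (GL (Fin n) F)}
    {w a : ℕ} (hw : 2 ≤ w) (hlt : w < a) {e : Fin n ≃ Fin w × Fin a} {P : GL (Fin n) F}
    (hle : H ≤ tensorProductSubgroup w a e P) {f₁ : (Fin w → F) → (Fin w → F) → F}
    {f₂ : (Fin a → F) → (Fin a → F) → F} (hs₁ : Sesq σ f₁) (hs₂ : Sesq σ f₂)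
    (hnd₁ : ∀ x : Fin w → F, x ≠ 0 → ∃ y, f₁ x y ≠ 0) (hnd₂ : ∀ u : Fin a → F, u ≠ 0 → ∃ v, f₂ u v ≠ 0)
    (h₁ : ∀ x y, f₁ x y = σ (f₁ y x)) (h₂ : ∀ u v, f₂ u v = σ (f₂ v u))
    (hsplit : ∀ x u y v, hermForm n F q (pureV e P x u) (pureV e P y v) = f₁ x y * f₂ u v) :
    UGLE n F q H := by
  haveI : Nonempty (Fin n) := ⟨e.symm (⟨0, by omega⟩, ⟨0, by omega⟩)⟩
  have hf := herm_eform (n := n) hS
  exact Or.inr (Or.inr (Or.inr (Or.inr (Or.inr (Or.inr (Or.inr (Or.inr (Or.inr (Or.inl ⟨w, a, e, P, f₁, f₂, hw, hlt,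
    unitaryPow_of hS hs₁ h₁ hnd₁, unitaryPow_of hS hs₂ h₂ hnd₂,
    tensor_struct hf.sesq _ (fun x => hS.pow x) hsplit, hle⟩)))))))))

/-- The outcome for a normal subgroup which is neither scalar nor absolutely irreducible. -/
lemma normal_ugle (hS : HS F q σ) (h3 : 3 ≤ n) {H M : Subgroup (GL (Fin n) F)} (hH : H ≤ GU n F q)
    (hirr : Irr H) (hM : NormalIn M H) (hMs : ¬ M ≤ scalars (Fin n) F) (hMa : ¬ AbsIrr M) :
    UGLE n F q H ∨ ∃ (w : ℕ) (e : Fin n ≃ Fin w × Fin w) (P : GL (Fin n) F)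
      (f₁ f₂ : (Fin w → F) → (Fin w → F) → F), 2 ≤ w ∧ H ≤ tensorProductSubgroup w w e P ∧
      EForm σ 1 f₁ ∧ EForm σ 1 f₂ ∧
      ∀ x u y v, hermForm n F q (pureV e P x u) (pureV e P y v) = f₁ x y * f₂ u v := by
  haveI : Nonempty (Fin n) := ⟨⟨0, by omega⟩⟩
  have hHU : ∀ g ∈ H, ∀ x y : Fin n → F, hermForm n F q ((g : Matrix (Fin n) (Fin n) F) *ᵥ x)
      ((g : Matrix (Fin n) (Fin n) F) *ᵥ y) = hermForm n F q x y := fun g hg x y =>
    gu_isom (hH hg) x y
  have hMU : ∀ g ∈ M, ∀ x y : Fin n → F, hermForm n F q ((g : Matrix (Fin n) (Fin n) F) *ᵥ x)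
      ((g : Matrix (Fin n) (Fin n) F) *ᵥ y) = hermForm n F q x y := fun g hg => hHU g (hM.1 hg)
  have hf := herm_eform (n := n) hS
  rcases normal_dichotomy_u hS hf hirr hM hMU with ⟨t, m, D, hD, hle, hc⟩ | ⟨r, K, hr, hrodd, hrn, hK, hadj, hle⟩ |
    ⟨w, a, hw, φ, e, P, hφ, hP, hle⟩
  · left
    rcases form_decomp hf hirr hM hMU (fun g hg => ⟨1, one_ne_zero, fun x y => by rw [one_mul]; exact hHU g hg x y⟩)
      hD hle hc with ⟨t', m', D', hD', hle'⟩ | ⟨k, D', hD', hts, hle'⟩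
    · exact decomp_ugle hD' hle'
    · have hcard : 2 * k = n := by
        have := decomp_card hD'
        simpa using this
      exact Or.inr (Or.inr (Or.inr (Or.inl ⟨k, D', hcard, hD', hts, hle'⟩)))
  · left
    exact Or.inr (Or.inr (Or.inr (Or.inr (Or.inr (Or.inr (Or.inr (Or.inr (Or.inl ⟨r, K, hr, hrodd, hK, hadj, hle⟩))))))))
  · have hw1 : w ≠ 1 := by
      rintro rfl
      exact hMs (le_scalars_of_w_one hφ)
    have hw0 : w ≠ 0 := hw.out
    have ha1 : a ≠ 1 := by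
      rintro rfl
      exact hMa (absIrr_of_a_one hφ hP)
    have ha0 : a ≠ 0 := by
      rintro rfl
      obtain ⟨i⟩ := ‹Nonempty (Fin n)›
      exact (e i).2.elim0
    have hw2 : 2 ≤ w := by omega
    have ha2 : 2 ≤ a := by omega
    obtain ⟨f₁, f₂, hs₁, hs₂, hnd₁, hnd₂, h₁, h₂, hsplit⟩ := tensor_herm hS hMU hφ hP
    rcases lt_trichotomy w a with hlt | heq | hgt
    · left
      exact tensor_case_ugle hS hw2 hlt hle hs₁ hs₂ hnd₁ hnd₂ h₁ h₂ hsplit
    · right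
      subst heq
      exact ⟨w, e, P, f₁, f₂, hw2, hle, ⟨hs₁, hS.inv, fun x y => by rw [one_mul]; exact h₁ x y, hnd₁⟩,
        ⟨hs₂, hS.inv, fun x y => by rw [one_mul]; exact h₂ x y, hnd₂⟩, hsplit⟩
    · left
      refine tensor_case_ugle hS ha2 hgt (hle.trans (tensor_le_swap e P)) hs₂ hs₁ hnd₂ hnd₁ h₂ h₁ ?_
      intro x u y v
      rw [pureV_swap, pureV_swap, hsplit, mul_comm]

/-- The subfield case. -/
lemma subfield_ugle' (hS : HS F q σ) (h3 : 3 ≤ n) {H N : Subgroup (GL (Fin n) F)}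
    (hN : H ≤ subgroupNormalizer N) (hNU : N ≤ GU n F q) (hirr : AbsIrr N)
    {F₀ : Subfield F} (h0 : F₀ ≠ ⊤) {B : GL (Fin n) F}
    (hB : ∀ g ∈ N, ∀ i j, ((B : Matrix (Fin n) (Fin n) F) * (g : Matrix (Fin n) (Fin n) F) *
      ((B⁻¹ : GL (Fin n) F) : Matrix (Fin n) (Fin n) F)) i j ∈ F₀) : UGLE n F q H := by
  haveI : Nonempty (Fin n) := ⟨⟨0, by omega⟩⟩
  have hf := herm_sesq (n := n) hS
  obtain ⟨F₁, r, τ₀, h01, hr, hcard, hτ₀⟩ := exists_prime_index_subfield h0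
  let τ : F ≃+* F := RingEquiv.ofBijective τ₀ (Finite.injective_iff_bijective.1 τ₀.injective)
  have hτ : ∀ x, τ x = x ↔ x ∈ F₁ := hτ₀
  have htop := ne_top_of_card_pow hr hcard
  have hNN := normalIn_normalizer N
  rcases hr.eq_two_or_odd' with rfl | hrodd
  · have hfix := fix_iff_of_card_sq hS hcard
    have hle := hN.trans (le_subfield_of_realisable hNN hirr τ₀ hτ₀ (B := B) (fun g hg i j => h01 (hB g hg i j)))
    rcases rational_two' hS hirr hNU (by omega) hfix B⁻¹ (fun g hg i j => by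
      rw [inv_inv]
      exact h01 (hB g hg i j)) with ⟨hq, hrat⟩ | ⟨ζ, hζ0, hζ, hrat, hiso⟩
    · refine Or.inr (Or.inr (Or.inr (Or.inr (Or.inr (Or.inl ⟨F₁, B⁻¹, hq, hcard,
        fun u v hu hv => ?_, hle⟩)))))
      rw [one_mul]
      exact hrat u v hu hv
    · have heven : Even n := by
        by_contra hne
        exact zeta_clause_false hS (Nat.not_even_iff_odd.1 hne) hiso
      exact Or.inr (Or.inr (Or.inr (Or.inr (Or.inr (Or.inr (Or.inl ⟨F₁, B⁻¹, ζ, heven, hcard, hζ0,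
        by rw [← hS.pow]; exact hζ, hrat, hiso, hle⟩))))))
  · obtain ⟨t₀, ht₀⟩ := rational_odd hS hirr hNU (by omega) τ hτ hrodd hcard B⁻¹ (fun g hg i j => by
      rw [inv_inv]
      exact h01 (hB g hg i j))
    set P' : GL (Fin n) F := B⁻¹ * scalGL t₀ with hP'
    have hreal' : ∀ g ∈ N, ∀ i j, (((P'⁻¹ : GL (Fin n) F) : Matrix (Fin n) (Fin n) F) *
        (g : Matrix (Fin n) (Fin n) F) * (((P'⁻¹)⁻¹ : GL (Fin n) F) : Matrix (Fin n) (Fin n) F)) i j ∈ F₁ := by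
      intro g hg i j
      have e : ((P'⁻¹ : GL (Fin n) F) : Matrix (Fin n) (Fin n) F) *
          (g : Matrix (Fin n) (Fin n) F) * (((P'⁻¹)⁻¹ : GL (Fin n) F) : Matrix (Fin n) (Fin n) F) =
          (B : Matrix (Fin n) (Fin n) F) * (g : Matrix (Fin n) (Fin n) F) *
            ((B⁻¹ : GL (Fin n) F) : Matrix (Fin n) (Fin n) F) := by
        rw [← Units.val_mul, ← Units.val_mul, ← Units.val_mul, ← Units.val_mul, inv_inv]
        congr 1
        have := conj_scal B⁻¹ g t₀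
        rwa [inv_inv] at this
      rw [e]
      exact h01 (hB g hg i j)
    have hle := hN.trans (le_subfield_of_realisable hNN hirr τ₀ hτ₀ (B := P'⁻¹) hreal')
    rw [inv_inv] at hle
    refine Or.inr (Or.inr (Or.inr (Or.inr (Or.inl ⟨F₁, r, P', hr, hrodd, hcard, fun u v hu hv => ?_, hle⟩))))
    rw [one_mul, hP', mulVec_scal, mulVec_scal, hf.smul_left, hf.smul_right, ← mul_assoc]
    exact ht₀ u v hu hv

variable {H N R : Subgroup (GL (Fin n) F)} {ζ : F} {m : ℕ}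

/-- The subfield case for a normal subgroup. -/
lemma subfield_ugle (hS : HS F q σ) (h3 : 3 ≤ n) {H N : Subgroup (GL (Fin n) F)}
    (hHU : H ≤ GU n F q) (hN : NormalIn N H) (hirr : AbsIrr N)
    {F₀ : Subfield F} (h0 : F₀ ≠ ⊤) {B : GL (Fin n) F}
    (hB : ∀ g ∈ N, ∀ i j, ((B : Matrix (Fin n) (Fin n) F) * (g : Matrix (Fin n) (Fin n) F) *
      ((B⁻¹ : GL (Fin n) F) : Matrix (Fin n) (Fin n) F)) i j ∈ F₀) : UGLE n F q H := by
  have hnorm : H ≤ subgroupNormalizer N := by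
    intro g hg
    refine Subgroup.mem_normalizer_iff.2 fun t => ⟨fun ht => hN.2 g hg t ht, fun ht => ?_⟩
    have h1 := hN.2 g⁻¹ (H.inv_mem hg) _ ht
    have h4 : g⁻¹ * (g * t * g⁻¹) * g⁻¹⁻¹ = t := by group
    rwa [h4] at h1
  exact subfield_ugle' hS h3 hnorm (fun g hg => hHU (hN.1 hg)) hirr h0 hB

lemma core_ugle (hS : HS F q σ) (h5 : 3 ≤ n) {H N : Subgroup (GL (Fin n) F)}
    (hH : H ≤ GU n F q) (hN : NormalIn N H) (hC : CoreData H N) :
    UGLE n F q H := by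
  haveI : Nonempty (Fin n) := ⟨⟨0, by omega⟩⟩
  have hirr : AbsIrr N := hC.absIrred
  have hNU : N ≤ GU n F q := fun g hg => hH (hN.1 hg)
  by_cases hsub : ∃ F₀ : Subfield F, F₀ ≠ ⊤ ∧ RealisableOver F₀ (matrixSet N)
  · obtain ⟨F₀, h0, B, hB⟩ := hsub
    exact subfield_ugle hS h5 hH hN hirr h0 (B := B) (fun g hg i j => hB _ ⟨g, hg, rfl⟩ i j)
  refine Or.inr (Or.inr (Or.inr (Or.inr (Or.inr (Or.inr (Or.inr (Or.inr (Or.inr (Or.inr (Or.inr ⟨N, ?_, ?_, ?_⟩))))))))))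
  · exact ⟨hC.le, hC.normal, hC.perfect, hC.simple, hC.nonabelian, hC.centralizer_scalar, hC.absIrred,
      fun F₀ h0 hr => hsub ⟨F₀, h0, hr⟩⟩
  · rintro ⟨Q, hQ, hfix⟩
    apply hsub
    refine realisable_of_two_forms (herm_unitary hS) (fun τ hτ => hS.norm_surj hτ) hirr
      (fun g hg x y => gu_isom (hNU hg) x y) hQ.polar_bilinear hQ.nondegenerate (fun g hg u v => ?_)
    simp only [QuadraticMap.polar, ← Matrix.mulVec_add]
    rw [hfix _ ⟨g, hg, rfl⟩, hfix _ ⟨g, hg, rfl⟩, hfix _ ⟨g, hg, rfl⟩]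
  · rintro ⟨f, hf, hfix⟩
    apply hsub
    exact realisable_of_two_forms (herm_unitary hS) (fun τ hτ => hS.norm_surj hτ) hirr
      (fun g hg x y => gu_isom (hNU hg) x y) hf.bilinear hf.nondegenerate
      (fun g hg u v => hfix _ ⟨g, hg, rfl⟩ u v)

end ULE

end Cfsg.Agent.H28
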