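import Cfsg.Agent.Lib.H28.GLU1

set_option autoImplicit false
set_option linter.style.haveILetI false
set_option linter.unusedSectionVars false
set_option linter.unusedSimpArgs false

namespace Cfsg.Agent.H28

open scoped MatrixGroups Matrix commutatorElement Kronecker
open Cfsg Cfsg.Geo

section RTLe

variable {n : ℕ} {F : Type*} [Field F] [Fintype F] {σ : F ≃+* F}
variable {e : Fin n ≃ Fin 3 × Fin 3} {P : GL (Fin n) F}

/-- The tensor square of three-dimensional unitary spaces over the field with four elements. -/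
theorem q2_wreath_le (hS : HS F 2 σ) (h5 : 3 ≤ n) {H : Subgroup (GL (Fin n) F)} (hH : H ≤ GU n F 2)
    (hle : H ≤ tensorWreathSubgroup 3 2 (eTwo e) P)
    (hsplit : ∀ x u y v, hermForm n F 2 (pureV e P x u) (pureV e P y v) = hermForm 3 F 2 x y * hermForm 3 F 2 u v) :
    UGLE n F 2 H := by
  haveI : Nonempty (Fin n) := ⟨⟨0, by omega⟩⟩
  obtain ⟨ω, h0, h1, h2, h3⟩ := exists_omega hS
  have hω : IsPrimitiveRoot ω 3 := by
    refine IsPrimitiveRoot.mk_of_lt ω (by norm_num) h3 fun l hl0 hl3 hl => ?_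
    interval_cases l
    · exact h1 (by simpa using hl)
    · exact h0 (by linear_combination h2 - hl - q2_two hS)
  have hX : XBase (RT hS e P) ω 3 := RT_base hω
  have hcard : Fintype.card (Fin n) = 9 := by
    have := Fintype.card_congr e
    simpa using this
  have hconj : ∀ h ∈ H, ∀ x ∈ RT hS e P, h * x * h⁻¹ ∈ RT hS e P := by
    intro h hh x hx
    obtain ⟨Q, hQ, rfl⟩ := mem_wreath_iff.1 (hle hh)
    obtain ⟨A, τ, rfl⟩ := std_normal_form hQ
    have hAU := A_mem_GU hS hsplit (hH hh)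
    obtain ⟨a, ha, rfl⟩ := mem_RT.1 hx
    refine mem_RT.2 ⟨fun j => A j * a (τ.symm j) * (A j)⁻¹, fun j => R3_normal hS (hAU j) (ha _), ?_⟩
    rw [← map_inv, ← map_mul, ← map_mul, conj_normal_form]
  have hnorm : H ≤ subgroupNormalizer (RT hS e P) := by
    intro h hh
    refine Subgroup.mem_normalizer_iff.2 fun x => ⟨fun hx => hconj h hh x hx, fun hx => ?_⟩
    have := hconj h⁻¹ (H.inv_mem hh) _ hx
    have e1 : h⁻¹ * (h * x * h⁻¹) * h⁻¹⁻¹ = x := by group
    rwa [e1] at this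
  have hccard := hX.card_center (by norm_num)
  have h2F : (2 : F) = 0 := q2_two hS
  have hchar : CharP F 2 := CharTwo.of_one_ne_zero_of_two_eq_zero one_ne_zero h2F
  refine Or.inr (Or.inr (Or.inr (Or.inr (Or.inr (Or.inr (Or.inr (Or.inl ⟨3, RT hS e P, 2, 2, 2,
    hX.symp RT_char Nat.prime_three (t := 1) (by norm_num) (by norm_num), hX.absR, ?_, by norm_num, ?_,
    Or.inl ⟨by decide, hccard, by norm_num, ?_⟩, hnorm⟩)))))))
  · intro g hg
    refine ⟨1, fun x y => ?_⟩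
    rw [Units.val_one, one_mul]
    exact gu_isom (RT_le_GU hS hsplit hg) x y
  · rw [hccard]
    refine ⟨Nat.prime_two, hchar, hS.card, by norm_num, fun d hd0 hd2 hdvd => ?_⟩
    have hd1 : d = 1 := by omega
    subst hd1
    norm_num at hdvd
  · rw [hX.card_eq (by norm_num), hcard]
    norm_num

end RTLe

section T22Le

variable {F : Type*} [Field F] [Fintype F] {q : ℕ} {σ : F ≃+* F}
variable {e : Fin 4 ≃ Fin 2 × Fin 2} {P : GL (Fin 4) F}

/-- The outcome for a tensor square of two-dimensional spaces. -/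
theorem tensor22_le (hS : HS F q σ) {H : Subgroup (GL (Fin 4) F)} (hHU : H ≤ GU 4 F q)
    {f₁ f₂ : (Fin 2 → F) → (Fin 2 → F) → F} (hle : H ≤ tensorWreathSubgroup 2 2 (eTwo e) P)
    (hf₁ : EForm σ 1 f₁) (hf₂ : EForm σ 1 f₂)
    (hsplit : ∀ x u y v, hermForm 4 F q (pureV e P x u) (pureV e P y v) = f₁ x y * f₂ u v) :
    UGLE 4 F q H := by
  obtain ⟨ζ, hζ0, hζ⟩ := hS.exists_trace_zero
  have hg := g0_eform hS hζ0 hζ
  obtain ⟨M₀, hM₀⟩ := exists_std_basis hS hg
  obtain ⟨M₁, hM₁⟩ := exists_std_basis hS hf₁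
  obtain ⟨M₂, hM₂⟩ := exists_std_basis hS hf₂
  have hstd : ∀ (f : (Fin 2 → F) → (Fin 2 → F) → F) (M : GL (Fin 2) F),
      (∀ x y, f ((M : Matrix (Fin 2) (Fin 2) F) *ᵥ x) ((M : Matrix (Fin 2) (Fin 2) F) *ᵥ y) = hermForm 2 F q x y) →
      ∀ x y, f (((M * M₀⁻¹ : GL (Fin 2) F) : Matrix (Fin 2) (Fin 2) F) *ᵥ x)
        (((M * M₀⁻¹ : GL (Fin 2) F) : Matrix (Fin 2) (Fin 2) F) *ᵥ y) = g0 σ ζ x y := by
    intro f M hM x y
    simp only [Units.val_mul, ← Matrix.mulVec_mulVec]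
    rw [hM, ← hM₀, mul_inv_mulVec, mul_inv_mulVec]
  set P' : GL (Fin 4) F := P * glTwo e (M₁ * M₀⁻¹) (M₂ * M₀⁻¹) with hP'
  have hsplit' : ∀ x u y v, hermForm 4 F q (pureV e P' x u) (pureV e P' y v) = g0 σ ζ x y * g0 σ ζ u v := by
    intro x u y v
    rw [hP', pureV_glTwo, pureV_glTwo, hsplit, hstd f₁ M₁ hM₁, hstd f₂ M₂ hM₂]
  have hle' : H ≤ tensorWreathSubgroup 2 2 (eTwo e) P' := hle.trans (wreath_le_glTwo e P _ _)
  have hsub := tensor22_sub hS hHU hle' hζ0 hζ hsplit'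
  have hcoord : ∀ u : Fin 4 → F, ∀ a b, XC e P' ((P' : Matrix (Fin 4) (Fin 4) F) *ᵥ u) a b = u (e.symm (a, b)) := by
    intro u a b
    simp only [XC, inv_mul_mulVec]
  have hform : ∀ u v : Fin 4 → F, hermForm 4 F q ((P' : Matrix (Fin 4) (Fin 4) F) *ᵥ u)
      ((P' : Matrix (Fin 4) (Fin 4) F) *ᵥ v) = ζ ^ 2 * (u (e.symm (0, 0)) * σ (v (e.symm (1, 1))) -
        u (e.symm (0, 1)) * σ (v (e.symm (1, 0))) - u (e.symm (1, 0)) * σ (v (e.symm (0, 1))) +
        u (e.symm (1, 1)) * σ (v (e.symm (0, 0)))) := by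
    intro u v
    rw [herm_coords hS hζ hsplit']
    simp only [hcoord]
  have hσζ : σ ζ = -ζ := by linear_combination hζ
  have hrat : ∀ u v : Fin 4 → F, (∀ i, u i ∈ F0 σ) → (∀ i, v i ∈ F0 σ) →
      hermForm 4 F q ((P' : Matrix (Fin 4) (Fin 4) F) *ᵥ u) ((P' : Matrix (Fin 4) (Fin 4) F) *ᵥ v) ∈ F0 σ := by
    intro u v hu hv
    rw [hform, mem_F0]
    simp only [map_mul, map_sub, map_add, map_pow, hS.inv, hσζ]
    rw [(mem_F0.1 (hu _) : σ (u (e.symm (0, 0))) = _), (mem_F0.1 (hu _) : σ (u (e.symm (0, 1))) = _),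
      (mem_F0.1 (hu _) : σ (u (e.symm (1, 0))) = _), (mem_F0.1 (hu _) : σ (u (e.symm (1, 1))) = _),
      (mem_F0.1 (hv _) : σ (v (e.symm (0, 0))) = _), (mem_F0.1 (hv _) : σ (v (e.symm (0, 1))) = _),
      (mem_F0.1 (hv _) : σ (v (e.symm (1, 0))) = _), (mem_F0.1 (hv _) : σ (v (e.symm (1, 1))) = _)]
    ring
  by_cases h2 : (2 : F) = 0
  · refine Or.inr (Or.inr (Or.inr (Or.inr (Or.inr (Or.inr (Or.inl ⟨F0 σ, P', 1, by decide, card_F0 hS, one_ne_zero, ?_, fun u v hu hv => ?_, fun u hu => ?_, hsub⟩))))))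
    · rw [one_pow]
      linear_combination h2
    · rw [one_mul]
      exact hrat u v hu hv
    · rw [hform]
      rw [(mem_F0.1 (hu _) : σ (u (e.symm (0, 0))) = _), (mem_F0.1 (hu _) : σ (u (e.symm (0, 1))) = _),
        (mem_F0.1 (hu _) : σ (u (e.symm (1, 0))) = _), (mem_F0.1 (hu _) : σ (u (e.symm (1, 1))) = _)]
      linear_combination (ζ ^ 2 * (u (e.symm (1, 1)) * u (e.symm (0, 0)) - u (e.symm (1, 0)) * u (e.symm (0, 1)))) * h2
  · have hodd : Odd q := by
      have h3 := odd_of_two_ne_zero h2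
      rw [hS.card] at h3
      exact (Nat.odd_pow_iff (by norm_num)).1 h3
    refine Or.inr (Or.inr (Or.inr (Or.inr (Or.inr (Or.inl ⟨F0 σ, P', hodd, card_F0 hS, fun u v hu hv => ?_, hsub⟩)))))
    rw [one_mul]
    exact hrat u v hu hv

end T22Le

section SquareLe

variable {n : ℕ} {F : Type*} [Field F] [Fintype F] {q : ℕ} {σ : F ≃+* F}

/-- The tensor square of a unitary space. -/
theorem square_ugle (hS : HS F q σ) (h3 : 3 ≤ n) {H : Subgroup (GL (Fin n) F)} (hHU : H ≤ GU n F q)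
    {w : ℕ} (hw : 2 ≤ w) {e : Fin n ≃ Fin w × Fin w} {P : GL (Fin n) F} {f₁ f₂ : (Fin w → F) → (Fin w → F) → F}
    (hle : H ≤ tensorWreathSubgroup w 2 (eTwo e) P) (hf₁ : EForm σ 1 f₁) (hf₂ : EForm σ 1 f₂)
    (hsplit : ∀ x u y v, hermForm n F q (pureV e P x u) (pureV e P y v) = f₁ x y * f₂ u v) : UGLE n F q H := by
  haveI : Nonempty (Fin n) := ⟨⟨0, by omega⟩⟩
  have hcard : n = w * w := by
    have := Fintype.card_congr e
    simpa using this
  by_cases hw2 : w = 2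
  · subst hw2
    obtain rfl : n = 4 := by omega
    exact tensor22_le hS hHU hle hf₁ hf₂ hsplit
  obtain ⟨M₁, hM₁⟩ := exists_std_basis hS hf₁
  obtain ⟨M₂, hM₂⟩ := exists_std_basis hS hf₂
  have hsplit' : ∀ x u y v, hermForm n F q (pureV e (P * glTwo e M₁ M₂) x u) (pureV e (P * glTwo e M₁ M₂) y v) =
      hermForm w F q x y * hermForm w F q u v := by
    intro x u y v
    rw [pureV_glTwo, pureV_glTwo, hsplit, hM₁, hM₂]
  have hle' := hle.trans (wreath_le_glTwo e P M₁ M₂)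
  by_cases hq2 : q = 2 ∧ w = 3
  · obtain ⟨rfl, rfl⟩ := hq2
    exact q2_wreath_le hS h3 hHU hle' hsplit'
  haveI : Nonempty (Fin w) := ⟨⟨0, by omega⟩⟩
  refine Or.inr (Or.inr (Or.inr (Or.inr (Or.inr (Or.inr (Or.inr (Or.inr (Or.inr (Or.inr (Or.inl ⟨w, 2, eTwo e,
    P * glTwo e M₁ M₂, hermForm w F q, by omega, le_rfl, hq2,
    unitaryPow_of hS (herm_sesq hS) (herm_symm hS) (fun x hx => ((herm_unitary hS).nondegenerate x hx).2),
    tensorPower_of_tensor (tensor_struct (herm_sesq hS) _ hS.pow hsplit'), hle'⟩))))))))))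

end SquareLe

section XLe

variable {n : ℕ} {F : Type*} [Field F] [Fintype F] {q : ℕ} {σ : F ≃+* F}
variable {H N R : Subgroup (GL (Fin n) F)} {ζ : F} {m : ℕ}

/-- Lifting in the group of exponent four. -/
theorem xdata4_lift' (hS : HS F q σ) (hH : H ≤ GU n F q) {i : F} (hX : XData H N R i 4)
    (hR : ∀ g, g ∈ R ↔ g ∈ NZ N ∧ (g ^ 2 = 1 ∨ g ^ 2 = sc (-1))) (hn2 : 2 ≤ n)
    (hmin : ∀ M, NormalIn M H → ¬ M ≤ scalars (Fin n) F → M ≤ N → M = N) :
    ∀ x ∈ N, ∃ c : Fˣ, sc c * x ∈ R ∧ (c : F) * σ c = 1 := by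
  classical
  haveI : Nonempty (Fin n) := ⟨⟨0, by omega⟩⟩
  have hNU : N ≤ GU n F q := fun g hg => hH (hX.hN.1 hg)
  -- the norm of a lift is a sign
  have hsign : ∀ x ∈ N, ∀ c : Fˣ, sc c * x ∈ R → (c : F) * σ c = 1 ∨ (c : F) * σ c = -1 := by
    intro x hx c hc
    have h1 := ((hR _).1 hc).2
    rw [(show Commute (sc c : GL (Fin n) F) x from sc_central _ _).mul_pow, ← sc_pow] at h1
    have hx2 : x ^ 2 ∈ GU n F q := (GU n F q).pow_mem (hNU hx) 2
    have hkey : ∀ ε : Fˣ, (ε : F) * σ ε = 1 → (sc (c ^ 2) * x ^ 2 = sc ε) →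
        (c : F) * σ c = 1 ∨ (c : F) * σ c = -1 := by
      intro ε hε h
      have h2 : x ^ 2 = sc ((c ^ 2)⁻¹ * ε) := by
        calc x ^ 2 = sc (c ^ 2)⁻¹ * (sc (c ^ 2) * x ^ 2) := by rw [sc_inv]; group
          _ = sc (c ^ 2)⁻¹ * sc ε := by rw [h]
          _ = _ := by rw [sc_mul]
      rw [h2] at hx2
      have h3 := norm_of_sc_mem hS hx2
      simp only [Units.val_mul, Units.val_inv_eq_inv_val, Units.val_pow_eq_pow_val, map_mul, map_inv₀, map_pow] at h3
      have hc0 : (c : F) ≠ 0 := c.ne_zero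
      have hσ0 : σ (c : F) ≠ 0 := (map_ne_zero σ).2 hc0
      have h4 : ((c : F) * σ c) ^ 2 = 1 := by
        field_simp at h3
        linear_combination hε - h3
      have h5 : ((c : F) * σ c - 1) * ((c : F) * σ c + 1) = 0 := by linear_combination h4
      rcases mul_eq_zero.1 h5 with h6 | h6
      · exact Or.inl (sub_eq_zero.1 h6)
      · exact Or.inr (eq_neg_of_add_eq_zero_left h6)
    rcases h1 with h1 | h1
    · exact hkey 1 (by simp) (by rw [h1, sc_one])
    · exact hkey (-1) (by simp) h1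
  let M : Subgroup (GL (Fin n) F) :=
    { carrier := {y | y ∈ N ∧ ∃ c : Fˣ, sc c * y ∈ R ∧ (c : F) * σ c = 1}
      mul_mem' := by
        rintro a b ⟨ha, c, hc1, hc2⟩ ⟨hb, d, hd1, hd2⟩
        refine ⟨N.mul_mem ha hb, c * d, ?_, ?_⟩
        · have e1 : sc (c * d) * (a * b) = (sc c * a) * (sc d * b) := by
            rw [sc_mul, mul_assoc, mul_assoc, ← mul_assoc a, (sc_central d a).symm, mul_assoc]
          rw [e1]
          exact R.mul_mem hc1 hd1
        · simp only [Units.val_mul, map_mul]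
          linear_combination (σ (d : F)) * (d : F) * hc2 + hd2
      one_mem' := ⟨N.one_mem, 1, by simp [sc_one, R.one_mem], by simp⟩
      inv_mem' := by
        rintro a ⟨ha, c, hc1, hc2⟩
        refine ⟨N.inv_mem ha, c⁻¹, ?_, ?_⟩
        · have e1 : sc c⁻¹ * a⁻¹ = (sc c * a)⁻¹ := by
            rw [sc_central c⁻¹ a⁻¹, mul_inv_rev, sc_inv]
          rw [e1]
          exact R.inv_mem hc1
        · simp only [Units.val_inv_eq_inv_val, map_inv₀]
          have hc0 : (c : F) ≠ 0 := c.ne_zero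
          have hσ0 : σ (c : F) ≠ 0 := (map_ne_zero σ).2 hc0
          field_simp
          linear_combination -hc2 }
  have hMN : NormalIn M H := by
    refine ⟨fun x hx => hX.hN.1 hx.1, ?_⟩
    rintro h hh x ⟨hx, c, hc1, hc2⟩
    refine ⟨hX.hN.2 h hh x hx, c, ?_, hc2⟩
    have e1 : sc c * (h * x * h⁻¹) = h * (sc c * x) * h⁻¹ := by
      rw [sc_central c (h * x * h⁻¹), sc_central c x, mul_assoc (h * x), ← sc_central c h⁻¹]
      group
    rw [e1]
    exact hX.conj h hh _ hc1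
  obtain ⟨x₀, hx₀, y₀, hy₀, hne⟩ := hX.absN.exists_not_comm (by simp; omega)
  have hMns : ¬ M ≤ scalars (Fin n) F := by
    intro hle
    have hx₀M : x₀ ∉ M := by
      intro h
      have h1 := hle h
      exact hne (Subgroup.mem_center_iff.1 (scalars_le_center h1) y₀).symm
    obtain ⟨c₂, hc₂⟩ := hX.lift x₀ hx₀
    have hμ₂ : (c₂ : F) * σ c₂ = -1 := (hsign x₀ hx₀ c₂ hc₂).resolve_left fun h => hx₀M ⟨hx₀, c₂, hc₂, h⟩
    apply hne
    by_cases hyZ : y₀ ∈ scalars (Fin n) F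
    · exact (Subgroup.mem_center_iff.1 (scalars_le_center hyZ) x₀)
    have hyM : y₀ ∉ M := fun h => hyZ (hle h)
    obtain ⟨c₁, hc₁⟩ := hX.lift y₀ hy₀
    have hμ₁ : (c₁ : F) * σ c₁ = -1 := (hsign y₀ hy₀ c₁ hc₁).resolve_left fun h => hyM ⟨hy₀, c₁, hc₁, h⟩
    have hyx : y₀ * x₀ ∈ M := by
      refine ⟨N.mul_mem hy₀ hx₀, c₁ * c₂, ?_, ?_⟩
      · have e1 : sc (c₁ * c₂) * (y₀ * x₀) = (sc c₁ * y₀) * (sc c₂ * x₀) := by
          rw [sc_mul, mul_assoc, mul_assoc, ← mul_assoc y₀, (sc_central c₂ y₀).symm, mul_assoc]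
        rw [e1]
        exact R.mul_mem hc₁ hc₂
      · simp only [Units.val_mul, map_mul]
        linear_combination (σ (c₂ : F)) * (c₂ : F) * hμ₁ - hμ₂
    have h2 := Subgroup.mem_center_iff.1 (scalars_le_center (hle hyx)) x₀
    have h3 : x₀ * y₀ * x₀ = y₀ * x₀ * x₀ := by rw [mul_assoc, h2]
    exact mul_right_cancel h3
  have hMeq : M = N := hmin M hMN hMns (fun x hx => hx.1)
  intro x hx
  rw [← hMeq] at hx
  exact hx.2

/-- The elements of the extraspecial group are similarities. -/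
lemma XData.le_sim' (hS : HS F q σ) (hH : H ≤ GU n F q) (hX : XData H N R ζ m) :
    R ≤ similarityGroup (hermForm n F q) := by
  rintro g hg
  obtain ⟨c, x, hx, rfl⟩ := hX.le hg
  have hf := herm_sesq (n := n) hS
  have hμ : (c : F) * σ c ≠ 0 := mul_ne_zero c.ne_zero ((map_ne_zero σ).2 c.ne_zero)
  refine ⟨Units.mk0 _ hμ, fun u v => ?_⟩
  simp only [Units.val_mul, sc_val, Matrix.smul_mul, Matrix.one_mul, Matrix.smul_mulVec]
  rw [hf.smul_left, hf.smul_right, gu_isom (hH (hX.hN.1 hx)), ← mul_assoc]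
  rfl

/-- Lifting in a group of odd prime exponent. -/
theorem xdata_odd_lift (hS : HS F q σ) {r : ℕ} (hr : r.Prime) (hrodd : Odd r) (hHU : H ≤ GU n F q)
    (hX : XData H N R ζ r) (hn2 : 2 ≤ n) :
    ∀ x ∈ N, ∃ c : Fˣ, sc c * x ∈ R ∧ (c : F) * σ c = 1 := by
  haveI : Nonempty (Fin n) := ⟨⟨0, by omega⟩⟩
  haveI : Fact r.Prime := ⟨hr⟩
  have hNU : N ≤ GU n F q := fun g hg => hHU (hX.hN.1 hg)
  obtain ⟨x₀, hx₀, y₀, hy₀, hne⟩ := hX.absN.exists_not_comm (by simpa using hn2)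
  obtain ⟨w, hw⟩ := exists_sc (hX.comm (Subgroup.commutator_mem_commutator hx₀ hy₀))
  have hw1 : (w : F) ≠ 1 := by
    intro h
    have h1 : w = 1 := Units.ext h
    rw [h1, sc_one, commutatorElement_eq_one_iff_mul_comm] at hw
    exact hne hw
  obtain ⟨c₀, hc₀⟩ := hX.lift x₀ hx₀
  obtain ⟨d₀, hd₀⟩ := hX.lift y₀ hy₀
  have hwR : (sc w : GL (Fin n) F) ∈ R := by
    rw [← hw, ← commutator_sc_mul c₀ d₀, commutatorElement_def]
    exact R.mul_mem (R.mul_mem (R.mul_mem hc₀ hd₀) (R.inv_mem hc₀)) (R.inv_mem hd₀)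
  have hwr : (w : F) ^ r = 1 := (hX.scal w).1 hwR
  have hwN : (w : F) * σ w = 1 := by
    apply norm_of_sc_mem (n := n) hS
    rw [← hw, commutatorElement_def]
    have hx := hNU hx₀
    have hy := hNU hy₀
    exact (GU n F q).mul_mem ((GU n F q).mul_mem ((GU n F q).mul_mem hx hy) ((GU n F q).inv_mem hx)) ((GU n F q).inv_mem hy)
  rw [hS.pow] at hwN
  have hord : orderOf (w : F) = r := orderOf_eq_prime hwr hw1
  have hdvd : r ∣ q + 1 := by
    rw [← hord]
    apply orderOf_dvd_of_pow_eq_one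
    rw [pow_succ]
    linear_combination hwN
  intro x hx
  obtain ⟨c, hc⟩ := hX.lift x hx
  refine ⟨c, hc, ?_⟩
  have h1 := hX.exp _ hc
  rw [(show Commute (sc c : GL (Fin n) F) x from sc_central _ _).mul_pow, ← sc_pow] at h1
  have h2 : x ^ r = sc (c ^ r)⁻¹ := by
    rw [sc_inv]
    exact eq_inv_of_mul_eq_one_right h1
  have hxr : x ^ r ∈ GU n F q := (GU n F q).pow_mem (hNU hx) r
  rw [h2] at hxr
  have h3 := norm_of_sc_mem hS hxr
  simp only [Units.val_inv_eq_inv_val, Units.val_pow_eq_pow_val, map_inv₀, map_pow] at h3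
  have hc0 : (c : F) ≠ 0 := c.ne_zero
  have hσ0 : σ (c : F) ≠ 0 := (map_ne_zero σ).2 hc0
  set μ : F := (c : F) * σ c with hμ
  have hμ0 : μ ≠ 0 := mul_ne_zero hc0 hσ0
  have hμr : μ ^ r = 1 := by
    rw [hμ, mul_pow]
    field_simp at h3
    linear_combination -h3
  have hfix : σ μ = μ := by
    rw [hμ, map_mul, hS.inv]
    ring
  rw [hS.pow] at hfix
  obtain ⟨t, ht⟩ := hdvd
  have hμ2 : μ * μ = 1 := by
    have h4 : μ ^ (q + 1) = 1 := by rw [ht, pow_mul, hμr, one_pow]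
    rw [pow_succ, hfix] at h4
    exact h4
  obtain ⟨a, ha⟩ := hrodd
  rw [ha, pow_succ, pow_mul, pow_two, hμ2, one_pow, one_mul] at hμr
  exact hμr

/-- The field analysis for a monomial subgroup of the unitary group. -/
theorem xdata_u (hS : HS F q σ) (h3 : 3 ≤ n) (hHU : H ≤ GU n F q) (hX : XData H N R ζ m)
    (hm1 : 1 < m) {r t : ℕ} (hr : r.Prime)
    (hmt : m = r ^ t) (hlift : ∀ x ∈ N, ∃ c : Fˣ, sc c * x ∈ R ∧ (c : F) * σ c = 1) :
    UGLE n F q H ∨ ∃ p e : ℕ, r ≠ p ∧ IsMinimalFieldFor m p e F := by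
  haveI : Nonempty (Fin n) := ⟨⟨0, by omega⟩⟩
  have hm0 : 0 < m := by omega
  obtain ⟨P, hP⟩ := exists_mono_basis hX.absIrr hX.commR hm0 hX.prim hX.exp
  obtain ⟨p, hchar, e₀, hpp, hn⟩ := FiniteField.card' F
  haveI := hchar
  haveI : Fact p.Prime := ⟨hpp⟩
  set e : ℕ := (e₀ : ℕ) with he
  have he0 : 0 < e := e₀.pos
  have hprim := hX.prim
  have hζ0 : ζ ≠ 0 := hprim.ne_zero hm0.ne'
  have hrp : r ≠ p := by
    rintro rfl
    have h1 : ζ ^ r ^ t = 1 := by rw [← hmt]; exact hprim.pow_eq_one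
    have h2 : (ζ - 1) ^ r ^ t = 0 := by rw [sub_pow_char_pow, h1, one_pow, sub_self]
    have h3 : ζ = 1 := sub_eq_zero.1 ((pow_eq_zero_iff (pow_ne_zero _ hr.ne_zero)).1 h2)
    exact hprim.ne_one hm1 h3
  have hle := hX.le_normalizer
  have hpowk : ∀ k, m ∣ p ^ k - 1 → ζ ^ p ^ k = ζ := by
    intro k hk
    obtain ⟨b, hb⟩ := hk
    have hpos : 1 ≤ p ^ k := Nat.one_le_pow _ _ hpp.pos
    have e1 : p ^ k = m * b + 1 := by omega
    rw [e1, pow_succ, pow_mul, hprim.pow_eq_one, one_pow, one_mul]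
  by_cases hk : ∃ k, 0 < k ∧ k < e ∧ m ∣ p ^ k - 1
  · left
    obtain ⟨k, hk0, hke, hkd⟩ := hk
    have hne := fixedSub_ne_top (F := F) p k e hk0 hke hn
    have hζmem : ζ ∈ fixedSub F p k := (mem_fixedSub p k).2 (hpowk k hkd)
    -- the isometries in `R`
    let R₀ : Subgroup (GL (Fin n) F) := R ⊓ GU n F q
    have hR₀a : AbsIrr R₀ := by
      refine absIrr_of_adj_top (adj_top_of_scaled (adj_eq_top_of_absIrr hX.absN) fun x hx => ?_)
      obtain ⟨c, hc1, hc2⟩ := hlift x hx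
      exact ⟨c, hc1, sc_mul_mem_GU hS hc2 (hHU (hX.hN.1 hx))⟩
    have hle₀ : H ≤ subgroupNormalizer R₀ := by
      intro h hh
      refine Subgroup.mem_normalizer_iff.2 fun x => ⟨fun hx => ⟨hX.conj h hh x hx.1, ?_⟩, fun hx => ⟨?_, ?_⟩⟩
      · exact (GU n F q).mul_mem ((GU n F q).mul_mem (hHU hh) hx.2) ((GU n F q).inv_mem (hHU hh))
      · have := hX.conj h⁻¹ (H.inv_mem hh) _ hx.1
        have e1 : h⁻¹ * (h * x * h⁻¹) * h⁻¹⁻¹ = x := by group
        rwa [e1] at this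
      · have := (GU n F q).mul_mem ((GU n F q).mul_mem ((GU n F q).inv_mem (hHU hh)) hx.2) (hHU hh)
        have e1 : h⁻¹ * (h * x * h⁻¹) * h = x := by group
        rwa [e1] at this
    refine subfield_ugle' hS h3 hle₀ inf_le_right hR₀a hne (B := P⁻¹) ?_
    intro g hg i j
    rw [inv_inv]
    obtain ⟨π, d', hm⟩ := hP g hg.1
    rw [hm]
    split_ifs
    · exact (fixedSub F p k).pow_mem hζmem _
    · exact (fixedSub F p k).zero_mem
  push Not at hk
  right
  refine ⟨p, e, hrp, hpp, hchar, hn, ?_, fun d hd0 hde hdvd => hk d hd0 hde hdvd⟩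
  apply hprim.dvd_of_pow_eq_one
  rw [← hn]
  exact FiniteField.pow_card_sub_one_eq_one ζ hζ0

/-- The abelian-modulo-scalars case. -/
theorem xdata_ugle (hS : HS F q σ) (h3 : 3 ≤ n) (hHU : H ≤ GU n F q) (hN : NormalIn N H) (hNa : AbsIrr N)
    (hc : ⁅N, N⁆ ≤ scalars (Fin n) F)
    (hd : ∀ M : Subgroup (GL (Fin n) F), NormalIn M H → M ≤ scalars (Fin n) F ∨ AbsIrr M)
    (hmin : ∀ M, NormalIn M H → ¬ M ≤ scalars (Fin n) F → M ≤ N → M = N) : UGLE n F q H := by
  haveI : Nonempty (Fin n) := ⟨⟨0, by omega⟩⟩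
  have hn2 : 2 ≤ Fintype.card (Fin n) := by simp; omega
  obtain ⟨r, s, hr, hs, _⟩ := abelian_mod_power hN hNa hc hmin hn2
  have hs' : n = r ^ s := by simpa using hs
  have hs1 : 1 ≤ s := by
    by_contra h0
    have : s = 0 := by omega
    subst this
    simp at hs'
    omega
  have hcardN : Fintype.card (Fin n) = r ^ s := hs
  rcases hr.eq_two_or_odd' with rfl | hrodd
  · obtain ⟨i, hi⟩ := exists_sqrt_neg_one hS
    obtain ⟨R, hX, hR⟩ := exists_xdata4 hN hNa hc hd hmin hn2 (s := s) hs hi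
    rcases xdata_u hS h3 hHU hX (by norm_num) Nat.prime_two (t := 2) (by norm_num)
      (xdata4_lift' hS hHU hX hR (by omega) hmin) with h | ⟨p, e, h2p, hmf⟩
    · exact h
    · have hccard := hX.card_center (by norm_num)
      obtain ⟨hpp, hchar, hcard, hdvd, hmine⟩ := id hmf
      have hq2 : q ^ 2 = p ^ e := by rw [← hS.card, hcard]
      have hq := hS.two_le
      have he2 : e = 2 := by
        have he0 : e ≠ 0 := by
          rintro rfl
          simp at hq2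
          omega
        have he1 : e ≠ 1 := by
          rintro rfl
          rw [pow_one] at hq2
          have h5 : q ∣ p := ⟨q, by rw [← hq2, sq]⟩
          rcases (Nat.dvd_prime hpp).1 h5 with h6 | h6
          · omega
          · rw [h6] at hq2
            have := hpp.two_le
            nlinarith
        by_contra hne
        have he3 : 2 < e := by omega
        apply hmine 2 (by norm_num) he3
        have hodd : Odd p := hpp.odd_of_ne_two h2p.symm
        obtain ⟨u, rfl⟩ := hodd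
        have h6 : (2 * u + 1) ^ 2 = 4 * (u * (u + 1)) + 1 := by ring
        rw [h6]
        exact ⟨u * (u + 1), by omega⟩
      refine Or.inr (Or.inr (Or.inr (Or.inr (Or.inr (Or.inr (Or.inr (Or.inl ⟨2, R, p, e, s,
        hX.symp hn2 Nat.prime_two (t := 2) (by norm_num) (by norm_num), hX.absIrr, hX.le_sim' hS hHU, h2p,
        by rw [hccard]; exact hmf, Or.inr ⟨rfl, he2, hccard, ?_⟩, hX.le_normalizer⟩)))))))
      rw [hX.card_eq (by norm_num), hcardN]
      ring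
  · obtain ⟨ω, R, hX⟩ := exists_xdata_odd hN hNa hc hd hmin hn2 hr hrodd hs
    have hlift := xdata_odd_lift hS hr hrodd hHU hX (by omega)
    rcases xdata_u hS h3 hHU hX hr.one_lt hr (t := 1) (pow_one r).symm hlift with h | ⟨p, e, hrp, hmf⟩
    · exact h
    · have hccard := hX.card_center hr.pos
      have hgcd : Nat.gcd 2 r = 1 := Nat.Coprime.symm (Nat.Coprime.symm ((Nat.coprime_primes Nat.prime_two hr).2 (fun h => by
        subst h
        exact absurd hrodd (by decide))))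
      refine Or.inr (Or.inr (Or.inr (Or.inr (Or.inr (Or.inr (Or.inr (Or.inl ⟨r, R, p, e, s,
        hX.symp hn2 hr (t := 1) (pow_one r).symm (by rw [hgcd, mul_one]), hX.absIrr, hX.le_sim' hS hHU, hrp,
        by rw [hccard]; exact hmf, Or.inl ⟨hrodd, hccard, hs1, ?_⟩, hX.le_normalizer⟩)))))))
      rw [hX.card_eq hr.pos, hcardN]
      ring

end XLe

end Cfsg.Agent.H28
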