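import Cfsg.Agent.Lib.H28.GLU2

set_option autoImplicit false
set_option linter.style.haveILetI false
set_option linter.unusedSectionVars false
set_option linter.unusedSimpArgs false

namespace Cfsg.Agent.H28

open scoped MatrixGroups Matrix commutatorElement Kronecker
open Cfsg Cfsg.Geo

section SolvGU

variable {F : Type*} [Field F] [Fintype F] {σ : F ≃+* F}

/-- The Cayley–Hamilton identity in dimension three. -/
lemma cayley3 (G : Matrix (Fin 3) (Fin 3) F) :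
    G * G * G = (G 0 0 + G 1 1 + G 2 2) • (G * G) -
      ((G 0 0 * G 1 1 - G 1 0 * G 0 1) + (G 0 0 * G 2 2 - G 2 0 * G 0 2) + (G 1 1 * G 2 2 - G 2 1 * G 1 2)) • G +
      G.det • (1 : Matrix (Fin 3) (Fin 3) F) := by
  rw [Matrix.det_fin_three]
  ext i j
  fin_cases i <;> fin_cases j <;>
    simp [Matrix.mul_apply, Fin.sum_univ_three, Matrix.one_apply] <;> ring

/-- The diagonal cofactors of a unitary matrix of determinant one. -/
lemma cofactor_diag (hS : HS F 2 σ) {g : GL (Fin 3) F} (hg : g ∈ GU 3 F 2) (hdet : Matrix.GeneralLinearGroup.det g = 1) :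
    σ ((g : Matrix (Fin 3) (Fin 3) F) 0 0) = (g : Matrix (Fin 3) (Fin 3) F) 1 1 * (g : Matrix (Fin 3) (Fin 3) F) 2 2 -
      (g : Matrix (Fin 3) (Fin 3) F) 2 1 * (g : Matrix (Fin 3) (Fin 3) F) 1 2 ∧
    σ ((g : Matrix (Fin 3) (Fin 3) F) 1 1) = (g : Matrix (Fin 3) (Fin 3) F) 0 0 * (g : Matrix (Fin 3) (Fin 3) F) 2 2 -
      (g : Matrix (Fin 3) (Fin 3) F) 2 0 * (g : Matrix (Fin 3) (Fin 3) F) 0 2 ∧
    σ ((g : Matrix (Fin 3) (Fin 3) F) 2 2) = (g : Matrix (Fin 3) (Fin 3) F) 0 0 * (g : Matrix (Fin 3) (Fin 3) F) 1 1 -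
      (g : Matrix (Fin 3) (Fin 3) F) 1 0 * (g : Matrix (Fin 3) (Fin 3) F) 0 1 := by
  set G := (g : Matrix (Fin 3) (Fin 3) F) with hG
  let N : Matrix (Fin 3) (Fin 3) F := Matrix.of fun i j => σ (G i j)
  have hMN : Gᵀ * N = 1 := by
    ext j l
    have h1 := gu_isom hg (Pi.single j 1) (Pi.single l 1)
    rw [herm3_single, herm3_single'] at h1
    simp only [Matrix.mul_apply, Matrix.transpose_apply, Fin.sum_univ_three, N, Matrix.of_apply, Matrix.one_apply, hS.pow]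
    exact h1
  have hd : (Gᵀ).det = 1 := by
    have h1 := congrArg Units.val hdet
    rw [Matrix.GeneralLinearGroup.val_det_apply] at h1
    rw [Matrix.det_transpose]
    simpa using h1
  have h2 : N = (Gᵀ).adjugate := by
    calc N = ((Gᵀ).adjugate * Gᵀ) * N := by rw [Matrix.adjugate_mul, hd, one_smul, Matrix.one_mul]
      _ = _ := by rw [Matrix.mul_assoc, hMN, Matrix.mul_one]
  have h3 := congrFun (congrFun h2 0) 0
  have h4 := congrFun (congrFun h2 1) 1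
  have h5 := congrFun (congrFun h2 2) 2
  rw [Matrix.adjugate_fin_three] at h3 h4 h5
  refine ⟨by simpa [N] using h3, by simpa [N] using h4, by simpa [N] using h5⟩

/-- The fourth power of a unitary matrix of determinant one over the field with four elements. -/
theorem pow4_mem_R3 (hS : HS F 2 σ) {g : GL (Fin 3) F} (hg : g ∈ GU 3 F 2) (hdet : Matrix.GeneralLinearGroup.det g = 1) :
    g ^ 4 ∈ R3 hS := by
  by_cases htr : Matrix.trace (g : Matrix (Fin 3) (Fin 3) F) = 0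
  · exact (R3 hS).pow_mem (R3_of_trace hS hg hdet htr) 4
  have hd1 : (g : Matrix (Fin 3) (Fin 3) F).det = 1 := by
    have h1 := congrArg Units.val hdet
    rw [Matrix.GeneralLinearGroup.val_det_apply] at h1
    simpa using h1
  obtain ⟨c0, c1, c2⟩ := cofactor_diag hS hg hdet
  rw [Matrix.trace_fin_three] at htr
  set G := (g : Matrix (Fin 3) (Fin 3) F) with hG
  set t : F := G 0 0 + G 1 1 + G 2 2 with ht
  have ht3 : t ^ 3 = 1 := f4_cube hS htr
  have hσt : σ t = t ^ 2 := hS.pow t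
  have hcof : (G 0 0 * G 1 1 - G 1 0 * G 0 1) + (G 0 0 * G 2 2 - G 2 0 * G 0 2) + (G 1 1 * G 2 2 - G 2 1 * G 1 2) = t ^ 2 := by
    rw [← hσt, ht, map_add, map_add, c0, c1, c2]
    ring
  have h3 := cayley3 G
  rw [hcof, hd1, ← ht, one_smul] at h3
  have h4 : G ^ 4 = t • (1 : Matrix (Fin 3) (Fin 3) F) := by
    calc G ^ 4 = G * (G * G * G) := by
          rw [pow_succ, pow_succ, pow_succ, pow_one]
          simp only [mul_assoc]
      _ = t • (G * (G * G)) - t ^ 2 • (G * G) + G := by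
          rw [h3, mul_add, mul_sub, mul_smul_comm, mul_smul_comm, mul_one]
      _ = t • (t • (G * G) - t ^ 2 • G + 1) - t ^ 2 • (G * G) + G := by rw [← mul_assoc, h3]
      _ = (t * t - t ^ 2) • (G * G) + (1 - t * t ^ 2) • G + t • (1 : Matrix (Fin 3) (Fin 3) F) := by module
      _ = t • (1 : Matrix (Fin 3) (Fin 3) F) := by
          have e1 : t * t - t ^ 2 = 0 := by ring
          have e2 : 1 - t * t ^ 2 = 0 := by linear_combination -ht3
          rw [e1, e2, zero_smul, zero_smul, zero_add, zero_add]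
  have ht0 : t ≠ 0 := htr
  have h5 : g ^ 4 = sc (Units.mk0 t ht0) := by
    apply Units.ext
    rw [Units.val_pow_eq_pow_val, sc_val]
    exact h4
  rw [h5, R3_scal]
  exact ht3

/-- A perfect subgroup of the three-dimensional unitary group over the field with four elements is trivial. -/
theorem no_perfect_gu32 (hS : HS F 2 σ) {A : Subgroup (GL (Fin 3) F)} (hAU : A ≤ GU 3 F 2) (hperf : ⁅A, A⁆ = A) :
    A = ⊥ := by
  classical
  haveI := gl_finite (ι := Fin 3) (F := F)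
  have hdet : ∀ g ∈ A, Matrix.GeneralLinearGroup.det g = 1 := by
    have h1 : A ≤ (Matrix.GeneralLinearGroup.det (n := Fin 3) (R := F)).ker := by
      rw [← hperf, Subgroup.commutator_le]
      intro x _ y _
      rw [MonoidHom.mem_ker, map_commutatorElement, commutatorElement_eq_one_iff_mul_comm, mul_comm]
    exact fun g hg => h1 hg
  let Y : Subgroup A := (R3 hS).subgroupOf A
  haveI hYn : Y.Normal := ⟨fun z hz g => by
    rw [Subgroup.mem_subgroupOf] at hz ⊢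
    exact R3_normal hS (hAU g.2) hz⟩
  have hY3 : IsPGroup 3 Y := by
    rintro ⟨z, hz⟩
    refine ⟨1, ?_⟩
    apply Subtype.ext
    apply Subtype.ext
    have h1 : (z : GL (Fin 3) F) ^ 3 = 1 := R3_cube hS (Subgroup.mem_subgroupOf.1 hz)
    simpa using h1
  have hQ : IsPGroup 2 (A ⧸ Y) := by
    intro x
    obtain ⟨g, rfl⟩ := QuotientGroup.mk_surjective x
    refine ⟨2, ?_⟩
    rw [← QuotientGroup.mk_pow, QuotientGroup.eq_one_iff, Subgroup.mem_subgroupOf]
    exact pow4_mem_R3 hS (hAU g.2) (hdet g g.2)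
  haveI := hQ.isNilpotent
  haveI := hY3.isNilpotent
  have hsolv : IsSolvable A := solvable_of_ker_le_range Y.subtype (QuotientGroup.mk' Y) (by simp)
  have hcomm : commutator A = ⊤ := by
    apply Subgroup.map_injective A.subtype_injective
    rw [Subgroup.map_subtype_commutator, hperf, ← MonoidHom.range_eq_map, Subgroup.range_subtype]
  obtain ⟨m, hm⟩ := hsolv.solvable
  have hall : ∀ k, derivedSeries A k = ⊤ := by
    intro k
    induction k with
    | zero => rfl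
    | succ k ih =>
      rw [derivedSeries_succ, ih]
      exact hcomm
  rw [hall] at hm
  rw [eq_bot_iff]
  intro x hx
  have h1 : (⟨x, hx⟩ : A) ∈ (⊤ : Subgroup A) := trivial
  rw [hm, Subgroup.mem_bot] at h1
  rw [Subgroup.mem_bot]
  exact congrArg Subtype.val h1

end SolvGU

section FactorU

variable {n : ℕ} {F : Type*} [Field F] [Fintype F] {q : ℕ} {σ : F ≃+* F}

/-- The path through a tensor power. -/
theorem factor_ugle (hS : HS F q σ) (h3 : 3 ≤ n) {H P T : Subgroup (GL (Fin n) F)} (hHU : H ≤ GU n F q)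
    (hP : NormalIn P H) (hfac : FactorData H P T) : UGLE n F q H := by
  classical
  haveI : Nonempty (Fin n) := ⟨⟨0, by omega⟩⟩
  have hfs := herm_sesq (n := n) hS
  have hPU : P ≤ GU n F q := fun g hg => hHU (hP.1 hg)
  obtain ⟨w, k, e, B, A, f₁, hw, hk, hle, hA, hAperf, hs₁, hnd₁, hinv₁, c, hc, hform⟩ := hfac.form_power
    (by simp only [Fintype.card_fin]; omega) hfs
    (fun x hx => ((herm_unitary hS).nondegenerate x hx).2) (fun g hg x y => gu_isom (hPU hg) x y)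
  by_cases hw2 : w = 2
  · subst hw2
    obtain ⟨C, hsim, _, _⟩ := wreath_two_gram (F := F) (k := k) (by omega) e B
    have hiso := perfect_le_isom hfac.perf ((hP.1.trans hle).trans hsim)
    obtain ⟨F₀, h0, B', hB'⟩ := realisable_of_two_forms (herm_unitary hS) (fun τ hτ => hS.norm_surj hτ) hfac.irr
      (fun x hx u v => gu_isom (hPU hx) u v) (gramForm_bilinear _) (gramForm_nondeg C) (fun x hx u v => hiso hx u v)
    exact subfield_ugle hS h3 hHU hP hfac.irr h0 (B := B') (fun x hx i j => hB' _ ⟨x, hx, rfl⟩ i j)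
  let f₁s : (Fin w → F) → (Fin w → F) → F := fun x y => σ (f₁ y x)
  have hs₁s : Sesq σ f₁s :=
    ⟨fun x y v => by simp only [f₁s, hs₁.add_right, map_add],
     fun a x v => by simp only [f₁s, hs₁.smul_right, map_mul, hS.inv],
     fun v x y => by simp only [f₁s, hs₁.add_left, map_add],
     fun a v x => by simp only [f₁s, hs₁.smul_left, map_mul]⟩
  obtain ⟨l, hl⟩ := form_eq_smul_of_absIrr hA hs₁ hs₁s hnd₁ hinv₁ (fun g hg u v => by
    simp only [f₁s]
    rw [hinv₁ g hg])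
  have hl' : ∀ x y, σ (f₁ y x) = l * f₁ x y := hl
  have he0 : (Pi.single ⟨0, by omega⟩ 1 : Fin w → F) ≠ 0 := by
    intro h
    have := congrFun h ⟨0, by omega⟩
    simp at this
  obtain ⟨y₀, hy₀⟩ := hnd₁ _ he0
  set x₀ : Fin w → F := Pi.single ⟨0, by omega⟩ 1
  have hσ0 : σ (f₁ x₀ y₀) ≠ 0 := (map_ne_zero σ).2 hy₀
  have hyx : f₁ y₀ x₀ ≠ 0 := by
    intro h
    apply hσ0
    rw [hl' y₀ x₀, h, mul_zero]
  have hlN : l * σ l = 1 := by
    have h1 := congrArg σ (hl' x₀ y₀)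
    rw [hS.inv, map_mul, hl' y₀ x₀] at h1
    have h5 : (l * σ l - 1) * f₁ y₀ x₀ = 0 := by linear_combination -h1
    have h6 := (mul_eq_zero.1 h5).resolve_right hyx
    linear_combination h6
  obtain ⟨d, hd0, hd⟩ := hilbert90 hS hlN
  set δ : F := σ d with hδ
  have hδ0 : δ ≠ 0 := (map_ne_zero σ).2 hd0
  let f₁' : (Fin w → F) → (Fin w → F) → F := fun x y => δ * f₁ x y
  have hs₁' : Sesq σ f₁' :=
    ⟨fun x y v => by simp only [f₁', hs₁.add_left]; ring,
     fun a x v => by simp only [f₁', hs₁.smul_left]; ring,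
     fun v x y => by simp only [f₁', hs₁.add_right]; ring,
     fun a v x => by simp only [f₁', hs₁.smul_right]; ring⟩
  have h₁' : ∀ x y, f₁' x y = σ (f₁' y x) := by
    intro x y
    simp only [f₁']
    have hσδ : σ δ = d := by rw [hδ, hS.inv]
    rw [map_mul, hl' x y, hσδ, hd]
    ring
  have hnd₁' : ∀ x : Fin w → F, x ≠ 0 → ∃ y, f₁' x y ≠ 0 := by
    intro x hx
    obtain ⟨y, hy⟩ := hnd₁ x hx
    exact ⟨y, mul_ne_zero hδ0 hy⟩
  have hinv₁' : ∀ g ∈ A, ∀ x y, f₁' ((g : Matrix (Fin w) (Fin w) F) *ᵥ x) ((g : Matrix (Fin w) (Fin w) F) *ᵥ y) = f₁' x y := by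
    intro g hg x y
    simp only [f₁']
    rw [hinv₁ g hg]
  have hc' : c * (δ ^ k)⁻¹ ≠ 0 := mul_ne_zero hc (inv_ne_zero (pow_ne_zero _ hδ0))
  have hform' : ∀ u v, hermForm n F q (powV e B u) (powV e B v) = (c * (δ ^ k)⁻¹) * ∏ i, f₁' (u i) (v i) := by
    intro u v
    rw [hform]
    simp only [f₁', Finset.prod_mul_distrib, Finset.prod_const, Finset.card_univ, Fintype.card_fin]
    field_simp
  by_cases hq : q = 2 ∧ w = 3
  · exfalso
    obtain ⟨rfl, rfl⟩ := hq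
    have hE : EForm σ 1 f₁' := ⟨hs₁', hS.inv, fun x y => by rw [one_mul]; exact h₁' x y, hnd₁'⟩
    obtain ⟨M, hM⟩ := exists_std_basis hS hE
    let A' : Subgroup (GL (Fin 3) F) := A.map (MulAut.conj M⁻¹).toMonoidHom
    have hA'U : A' ≤ GU 3 F 2 := by
      rintro _ ⟨a, ha, rfl⟩
      intro x y
      change hermForm 3 F 2 (((M⁻¹ * a * M⁻¹⁻¹ : GL (Fin 3) F) : Matrix (Fin 3) (Fin 3) F) *ᵥ x)
        (((M⁻¹ * a * M⁻¹⁻¹ : GL (Fin 3) F) : Matrix (Fin 3) (Fin 3) F) *ᵥ y) = hermForm 3 F 2 x y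
      rw [inv_inv, ← hM, ← hM x y]
      simp only [Units.val_mul, ← Matrix.mulVec_mulVec]
      rw [mul_inv_mulVec, mul_inv_mulVec, hinv₁' a ha]
    have hperf : ⁅A', A'⁆ = A' := by
      simp only [A']
      rw [← Subgroup.map_commutator, hAperf]
    have hbot := no_perfect_gu32 hS hA'U hperf
    obtain ⟨x, hx, y, hy, hne⟩ := hA.exists_not_comm (by simp)
    have hA0 : A = ⊥ := (Subgroup.map_eq_bot_iff_of_injective _ (MulEquiv.injective _)).1 hbot
    rw [hA0, Subgroup.mem_bot] at hx hy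
    apply hne
    rw [hx, hy]
  · exact Or.inr (Or.inr (Or.inr (Or.inr (Or.inr (Or.inr (Or.inr (Or.inr (Or.inr (Or.inr (Or.inl ⟨w, k, e, B, f₁',
      by omega, hk, hq, unitaryPow_of hS hs₁' h₁' hnd₁',
      tensorPower_of_pow (τ := fun x : F => x ^ q) (fun x => (hS.pow x).symm) hfs hc' hform', hle⟩))))))))))

/-- The structure theorem for subgroups of the unitary group. -/
theorem u_le_main (hS : HS F q σ) (h3 : 3 ≤ n) {H : Subgroup (GL (Fin n) F)} (hHU : H ≤ GU n F q) : UGLE n F q H := by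
  haveI : Nonempty (Fin n) := ⟨⟨0, by omega⟩⟩
  have h3' : 3 ≤ Fintype.card (Fin n) := by simp; omega
  by_cases hirr : Irr H
  swap
  · simp only [Irr] at hirr
    push Not at hirr
    obtain ⟨W, hW, h0, h1⟩ := hirr
    exact reducible_ugle hS h3 hHU hW h0 h1
  by_cases hd : ∀ M : Subgroup (GL (Fin n) F), NormalIn M H → M ≤ scalars (Fin n) F ∨ AbsIrr M
  swap
  · push Not at hd
    obtain ⟨M, hM, hMs, hMa⟩ := hd
    rcases normal_ugle hS h3 hHU hirr hM hMs hMa with h | ⟨w, e, P, f₁, f₂, hw, hle, hf₁, hf₂, hsplit⟩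
    · exact h
    · exact square_ugle hS h3 hHU hw (hle.trans (tensor_le_wreath e P)) hf₁ hf₂ hsplit
  have hHH : NormalIn H H := ⟨le_rfl, fun h hh x hx => H.mul_mem (H.mul_mem hh hx) (H.inv_mem hh)⟩
  have hHns : ¬ H ≤ scalars (Fin n) F := fun h => not_irr_of_le_scalars (by omega) h hirr
  obtain ⟨N, ⟨hN, hNns⟩, hmin₀⟩ := exists_minimal_subgroup
    {M : Subgroup (GL (Fin n) F) | NormalIn M H ∧ ¬ M ≤ scalars (Fin n) F} ⟨H, hHH, hHns⟩
  have hmin : ∀ M, NormalIn M H → ¬ M ≤ scalars (Fin n) F → M ≤ N → M = N :=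
    fun M h1 h2 h3 => hmin₀ M ⟨h1, h2⟩ h3
  have hNirr : AbsIrr N := (hd N hN).resolve_left hNns
  by_cases hc : ⁅N, N⁆ ≤ scalars (Fin n) F
  · exact xdata_ugle hS h3 hHU hN hNirr hc hd hmin
  · have hNperf : ⁅N, N⁆ = N := hmin _ hN.commutator hc (subgroup_commutator_le_self N)
    rcases core_or_factor hN hNirr hNperf hNns hmin with hC | ⟨T, hT⟩
    · exact core_ugle hS h3 hHU hN hC
    · exact factor_ugle hS h3 hHU hN hT

/-- The structure theorem for subgroups of the standard unitary group. -/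
theorem u_struct (hF : Fintype.card F = q ^ 2) (hn : 3 ≤ n) (H : Subgroup (GL (Fin n) F)) (hH : H ≤ GU n F q) :
    (∃ M : Subgroup (GL (Fin n) F), InUnitaryClass n F q M ∧ H ≤ M) ∨ InUnitaryResidualClass H := by
  obtain ⟨σ, hS⟩ := exists_hs hF
  rcases u_le_main hS hn hH with ⟨W, h0, hW, hle⟩ | ⟨W, h0, hW, hdim, hle⟩ | ⟨t, k, D, hD, hle⟩ |
    ⟨k, D, hk, hD, hts, hle⟩ | ⟨F₀, r, P, hr, hrodd, hcF, hrat, hle⟩ | ⟨F₀, P, hodd, hcF, hrat, hle⟩ |
    ⟨F₀, P, ζ, hev, hcF, hζ0, hζ, hrat, hiso, hle⟩ | ⟨r, R, p, e, k, h1, h5, h6, h7, h8, h9, hle⟩ |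
    ⟨r, K, hr, hrodd, hK, hadj, hle⟩ | ⟨n₁, n₂, e, P, f₁, f₂, h1, h2, h4, h5, hT, hle⟩ |
    ⟨k, t, e, P, f₁, h1, h2, h4, h5, hT, hle⟩ | hres
  · exact Or.inl ⟨_, Or.inl (Or.inl ⟨W, h0, hW, rfl⟩), le_inf hle hH⟩
  · exact Or.inl ⟨_, Or.inl (Or.inr (Or.inl ⟨W, h0, hW, hdim, rfl⟩)), le_inf hle hH⟩
  · exact Or.inl ⟨_, Or.inl (Or.inr (Or.inr (Or.inl ⟨t, k, D, hD, rfl⟩))), le_inf hle hH⟩
  · exact Or.inl ⟨_, Or.inl (Or.inr (Or.inr (Or.inr (Or.inl ⟨k, D, hk, hD, hts, rfl⟩)))), le_inf hle hH⟩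
  · exact Or.inl ⟨_, Or.inl (Or.inr (Or.inr (Or.inr (Or.inr (Or.inl ⟨F₀, r, P, hr, hrodd, hcF, hrat, rfl⟩))))),
      le_inf hle hH⟩
  · exact Or.inl ⟨_, Or.inl (Or.inr (Or.inr (Or.inr (Or.inr (Or.inr (Or.inl ⟨F₀, P, hodd, hcF, hrat, rfl⟩)))))),
      le_inf hle hH⟩
  · exact Or.inl ⟨_, Or.inl (Or.inr (Or.inr (Or.inr (Or.inr (Or.inr (Or.inr (Or.inl
      ⟨F₀, P, ζ, hev, hcF, hζ0, hζ, hrat, hiso, rfl⟩))))))), le_inf hle hH⟩
  · exact Or.inl ⟨_, Or.inl (Or.inr (Or.inr (Or.inr (Or.inr (Or.inr (Or.inr (Or.inr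
      ⟨r, R, p, e, k, h1, h5, h6, h7, h8, h9, rfl⟩))))))), le_inf hle hH⟩
  · exact Or.inl ⟨_, Or.inr (Or.inl ⟨r, K, hr, hrodd, hK, hadj, rfl⟩), le_inf hle hH⟩
  · exact Or.inl ⟨_, Or.inr (Or.inr (Or.inl ⟨n₁, n₂, e, P, f₁, f₂, h1, h2, h4, h5, hT, rfl⟩)), le_inf hle hH⟩
  · exact Or.inl ⟨_, Or.inr (Or.inr (Or.inr ⟨k, t, e, P, f₁, h1, h2, h4, h5, hT, rfl⟩)), le_inf hle hH⟩
  · exact Or.inr hres

end FactorU

end Cfsg.Agent.H28
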