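import Cfsg.Agent.Lib.H02.CoJ

set_option autoImplicit false
set_option linter.style.haveILetI false
set_option linter.unusedSectionVars false
set_option linter.unusedSimpArgs false
set_option maxRecDepth 100000

namespace Cfsg.Agent.H28

open Cfsg Cfsg.Agent.H27.Golay Cfsg.Agent.H26.Leech Cfsg.Agent.H02.CoA Cfsg.Agent.H02.CoB Cfsg.Agent.H02.CoJ

section Lee1

lemma sqNorm_add' (x y : GolayPt → ℤ) : sqNorm (x + y) = sqNorm x + sqNorm y + 2 * dotInt x y := by
  unfold sqNorm dotInt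
  rw [Finset.mul_sum, ← Finset.sum_add_distrib, ← Finset.sum_add_distrib]
  exact Finset.sum_congr rfl (fun i _ => by simp only [Pi.add_apply]; ring)

lemma sqNorm_sub' (x y : GolayPt → ℤ) : sqNorm (x - y) = sqNorm x + sqNorm y - 2 * dotInt x y := by
  unfold sqNorm dotInt
  rw [Finset.mul_sum, ← Finset.sum_add_distrib, ← Finset.sum_sub_distrib]
  exact Finset.sum_congr rfl (fun i _ => by simp only [Pi.sub_apply]; ring)

lemma sqNorm_nonneg' (x : GolayPt → ℤ) : 0 ≤ sqNorm x :=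
  Finset.sum_nonneg (fun i _ => sq_nonneg _)

lemma dot_dvd8 {x y : GolayPt → ℤ} (hx : x ∈ leechLattice) (hy : y ∈ leechLattice) : (8 : ℤ) ∣ dotInt x y := by
  have h1 := norm_dvd hx
  have h2 := norm_dvd hy
  have h3 := norm_dvd (add_mem hx hy)
  rw [sqNorm_add'] at h3
  omega

lemma dotInt_comm' (x y : GolayPt → ℤ) : dotInt x y = dotInt y x := by
  unfold dotInt
  exact Finset.sum_congr rfl (fun i _ => mul_comm _ _)

lemma dotInt_add_left' (x y z : GolayPt → ℤ) : dotInt (x + y) z = dotInt x z + dotInt y z := by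
  unfold dotInt
  rw [← Finset.sum_add_distrib]
  exact Finset.sum_congr rfl (fun i _ => by simp only [Pi.add_apply]; ring)

/-- Additive maps vanishing on minimal vectors vanish. -/
lemma hom_zero_of_min (f : leechLattice →+ ZMod 2)
    (h : ∀ x : leechLattice, sqNorm (x : GolayPt → ℤ) = 32 → f x = 0) (x : leechLattice) : f x = 0 := by
  have hx : x.1 ∈ AddSubgroup.closure MV := by
    rw [closure_MV]
    exact x.2
  have key : ∀ y (hy : y ∈ AddSubgroup.closure MV) (hy' : y ∈ leechLattice), f ⟨y, hy'⟩ = 0 := by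
    intro y hy
    induction hy using AddSubgroup.closure_induction with
    | mem y hm =>
      intro hy'
      exact h _ hm.2
    | zero =>
      intro hy'
      exact map_zero f
    | add a b ha hb iha ihb =>
      intro hy'
      have ha' : a ∈ leechLattice := by
        rw [← closure_MV]
        exact ha
      have hb' : b ∈ leechLattice := by
        rw [← closure_MV]
        exact hb
      have e := map_add f ⟨a, ha'⟩ ⟨b, hb'⟩
      rw [iha ha', ihb hb', add_zero] at e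
      exact e
    | neg a ha iha =>
      intro hy'
      have ha' : a ∈ leechLattice := by
        rw [← closure_MV]
        exact ha
      have e := map_neg f ⟨a, ha'⟩
      rw [iha ha', neg_zero] at e
      exact e
  exact key x.1 hx x.2

/-- The polar map. -/
def polQ (Q : leechLattice → ZMod 2) (u v : leechLattice) : ZMod 2 := Q (u + v) + Q u + Q v

/-- The reduced inner product. -/
def dotQ (u v : leechLattice) : ZMod 2 := ((dotInt (u : GolayPt → ℤ) (v : GolayPt → ℤ) / 8 : ℤ) : ZMod 2)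

/-- The reduced norm. -/
def normQ (v : leechLattice) : ZMod 2 := ((sqNorm (v : GolayPt → ℤ) / 16 : ℤ) : ZMod 2)

lemma dotQ_comm (u v : leechLattice) : dotQ u v = dotQ v u := by
  unfold dotQ
  rw [dotInt_comm']

lemma dotQ_add_left (u v w : leechLattice) : dotQ (u + v) w = dotQ u w + dotQ v w := by
  obtain ⟨a, ha⟩ := dot_dvd8 u.2 w.2
  obtain ⟨b, hb⟩ := dot_dvd8 v.2 w.2
  unfold dotQ
  have e : dotInt ((u + v : leechLattice) : GolayPt → ℤ) (w : GolayPt → ℤ) = 8 * (a + b) := by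
    show dotInt ((u : GolayPt → ℤ) + (v : GolayPt → ℤ)) (w : GolayPt → ℤ) = _
    rw [dotInt_add_left', ha, hb]
    ring
  rw [e, ha, hb, Int.mul_ediv_cancel_left _ (by norm_num), Int.mul_ediv_cancel_left _ (by norm_num),
    Int.mul_ediv_cancel_left _ (by norm_num)]
  push_cast
  ring

lemma normQ_add (u v : leechLattice) : normQ (u + v) = normQ u + normQ v + dotQ u v := by
  obtain ⟨a, ha⟩ := norm_dvd u.2
  obtain ⟨b, hb⟩ := norm_dvd v.2
  obtain ⟨c, hc⟩ := dot_dvd8 u.2 v.2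
  unfold normQ dotQ
  have e : sqNorm ((u + v : leechLattice) : GolayPt → ℤ) = 16 * (a + b + c) := by
    show sqNorm ((u : GolayPt → ℤ) + (v : GolayPt → ℤ)) = _
    rw [sqNorm_add', ha, hb, hc]
    ring
  rw [e, ha, hb, hc, Int.mul_ediv_cancel_left _ (by norm_num), Int.mul_ediv_cancel_left _ (by norm_num),
    Int.mul_ediv_cancel_left _ (by norm_num), Int.mul_ediv_cancel_left _ (by norm_num)]
  push_cast
  ring

lemma z2_aux7 : ∀ a b c d e f g : ZMod 2, a + b + c + d = e + f + g → a + e + d = f + b + d + (g + c + d) := by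
  decide

lemma polQ_add_left {Q : leechLattice → ZMod 2}
    (hquad : ∀ u v w : leechLattice, Q (u + v + w) + Q u + Q v + Q w = Q (u + v) + Q (u + w) + Q (v + w))
    (u v w : leechLattice) : polQ Q (u + v) w = polQ Q u w + polQ Q v w := by
  unfold polQ
  exact z2_aux7 _ _ _ _ _ _ _ (hquad u v w)

lemma polQ_comm (Q : leechLattice → ZMod 2) (u v : leechLattice) : polQ Q u v = polQ Q v u := by
  unfold polQ
  rw [add_comm u v]
  ring

lemma z2_four : ∀ a : ZMod 2, a + a + a + a = a + a + a → a = 0 := by decide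

lemma z2_ne : ∀ a : ZMod 2, a ≠ 0 → a = 1 := by decide

lemma z2_two (a : ZMod 2) : a + a = 0 := CharTwo.add_self_eq_zero a

lemma z2_eq_of_add : ∀ a b : ZMod 2, a + b = 0 → a = b := by decide

/-! Explicit vectors. -/

/-- `(4, 4)` on `∞, 2`. -/
def lx₀ : leechLattice := ⟨e4 2, mem_of_test (e4_ok 2).1⟩
/-- `(4, 4)` on `∞, 0`. -/
def lw₀ : leechLattice := ⟨e4 0, mem_of_test (e4_ok 0).1⟩
/-- `(4, 4)` on `∞, 3`. -/
def la₀ : leechLattice := ⟨e4 3, mem_of_test (e4_ok 3).1⟩
/-- `(4, 4)` on `∞, 4`. -/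
def lb₀ : leechLattice := ⟨e4 4, mem_of_test (e4_ok 4).1⟩
/-- An octad vector. -/
def lz₀ : leechLattice := ⟨vO 9347075, mem_of_test tA.1⟩
/-- `y₀`. -/
def ly₀ : leechLattice := lw₀ - lx₀
/-- `z₁`. -/
def lz₁ : leechLattice := la₀ - lb₀

lemma lw_eq : lx₀ + ly₀ = lw₀ := by
  unfold ly₀
  abel

lemma nx₀ : sqNorm (lx₀ : GolayPt → ℤ) = 32 := (e4_ok 2).2
lemma nw₀ : sqNorm (lw₀ : GolayPt → ℤ) = 32 := (e4_ok 0).2
lemma nz₀ : sqNorm (lz₀ : GolayPt → ℤ) = 32 := tA.2
lemma ny₀ : sqNorm (ly₀ : GolayPt → ℤ) = 32 := by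
  show sqNorm (e4 0 - e4 2) = 32
  decide +kernel
lemma nz₁ : sqNorm (lz₁ : GolayPt → ℤ) = 32 := by
  show sqNorm (e4 3 - e4 4) = 32
  decide +kernel
lemma d_xz₀ : dotInt (lx₀ : GolayPt → ℤ) (lz₀ : GolayPt → ℤ) = 8 := by
  show dotInt (e4 2) (vO 9347075) = 8
  decide +kernel
lemma d_yz₀ : dotInt (ly₀ : GolayPt → ℤ) (lz₀ : GolayPt → ℤ) = 8 := by
  show dotInt (e4 0 - e4 2) (vO 9347075) = 8
  decide +kernel
lemma d_wz₀ : dotInt (lw₀ : GolayPt → ℤ) (lz₀ : GolayPt → ℤ) = 16 := by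
  show dotInt (e4 0) (vO 9347075) = 16
  decide +kernel
lemma d_xz₁ : dotInt (lx₀ : GolayPt → ℤ) (lz₁ : GolayPt → ℤ) = 0 := by
  show dotInt (e4 2) (e4 3 - e4 4) = 0
  decide +kernel
lemma d_yz₁ : dotInt (ly₀ : GolayPt → ℤ) (lz₁ : GolayPt → ℤ) = 0 := by
  show dotInt (e4 0 - e4 2) (e4 3 - e4 4) = 0
  decide +kernel
lemma d_wz₁ : dotInt (lw₀ : GolayPt → ℤ) (lz₁ : GolayPt → ℤ) = 0 := by
  show dotInt (e4 0) (e4 3 - e4 4) = 0
  decide +kernel

/-- Uniqueness of the invariant quadratic form. -/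
theorem lee_unique (Q : leechLattice → ZMod 2) (hcoset : ∀ v w : leechLattice, Q (v + (w + w)) = Q v)
    (hquad : ∀ u v w : leechLattice, Q (u + v + w) + Q u + Q v + Q w = Q (u + v) + Q (u + w) + Q (v + w))
    (hinv : ∀ (g : Co0) (v : leechLattice), Q (g • v) = Q v) (hne : ∃ v : leechLattice, Q v ≠ 0)
    (v : leechLattice) : Q v = normQ v := by
  have h0 : Q 0 = 0 := by
    have := hquad 0 0 0
    simp only [add_zero] at this
    exact z2_four _ this
  have hsub : ∀ a b : leechLattice, Q (a + b) = Q (a - b) := by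
    intro a b
    have := hcoset (a - b) b
    rwa [show a - b + (b + b) = a + b by abel] at this
  have T32 : ∀ a b : leechLattice, sqNorm (a : GolayPt → ℤ) = 32 → sqNorm (b : GolayPt → ℤ) = 32 → Q a = Q b := by
    intro a b ha hb
    obtain ⟨g, hg⟩ := Cfsg.Agent.H02.CoD.transitive32 a b ha hb
    rw [← hg]
    exact (hinv g a).symm
  have T48 : ∀ a b : leechLattice, sqNorm (a : GolayPt → ℤ) = 48 → sqNorm (b : GolayPt → ℤ) = 48 → Q a = Q b := by
    intro a b ha hb
    obtain ⟨g, hg⟩ := Cfsg.Agent.H02.CoE.transitive48 a b ha hb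
    rw [← hg]
    exact (hinv g a).symm
  have T64 : ∀ a b : leechLattice, sqNorm (a : GolayPt → ℤ) = 64 → sqNorm (b : GolayPt → ℤ) = 64 → Q a = Q b := by
    intro a b ha hb
    obtain ⟨g, hg⟩ := exists_of_RR ((Cfsg.Agent.H02.CoF.main64 a.2 (by exact_mod_cast ha)).trans
      (Cfsg.Agent.H02.CoF.main64 b.2 (by exact_mod_cast hb)).symm)
    rw [← hg]
    exact (hinv g a).symm
  have Nsub : ∀ a b : leechLattice, sqNorm ((a - b : leechLattice) : GolayPt → ℤ) =
      sqNorm (a : GolayPt → ℤ) + sqNorm (b : GolayPt → ℤ) - 2 * dotInt (a : GolayPt → ℤ) (b : GolayPt → ℤ) :=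
    fun a b => sqNorm_sub' _ _
  have Nadd : ∀ a b : leechLattice, sqNorm ((a + b : leechLattice) : GolayPt → ℤ) =
      sqNorm (a : GolayPt → ℤ) + sqNorm (b : GolayPt → ℤ) + 2 * dotInt (a : GolayPt → ℤ) (b : GolayPt → ℤ) :=
    fun a b => sqNorm_add' _ _
  -- the three constants
  obtain ⟨α, hα⟩ : ∃ α, ∀ a : leechLattice, sqNorm (a : GolayPt → ℤ) = 32 → Q a = α :=
    ⟨Q lx₀, fun a ha => T32 a lx₀ ha nx₀⟩
  have n48 : sqNorm ((lx₀ - lz₀ : leechLattice) : GolayPt → ℤ) = 48 := by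
    rw [Nsub, nx₀, nz₀, d_xz₀]
    norm_num
  obtain ⟨β, hβ⟩ : ∃ β, ∀ a : leechLattice, sqNorm (a : GolayPt → ℤ) = 48 → Q a = β :=
    ⟨Q (lx₀ - lz₀), fun a ha => T48 a _ ha n48⟩
  have n64 : sqNorm ((lx₀ + lz₁ : leechLattice) : GolayPt → ℤ) = 64 := by
    rw [Nadd, nx₀, nz₁, d_xz₁]
    norm_num
  obtain ⟨γ, hγ⟩ : ∃ γ, ∀ a : leechLattice, sqNorm (a : GolayPt → ℤ) = 64 → Q a = γ :=
    ⟨Q (lx₀ + lz₁), fun a ha => T64 a _ ha n64⟩
  -- polar values
  have P0 : ∀ a b : leechLattice, sqNorm (a : GolayPt → ℤ) = 32 → sqNorm (b : GolayPt → ℤ) = 32 →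
      dotInt (a : GolayPt → ℤ) (b : GolayPt → ℤ) = 0 → polQ Q a b = γ := by
    intro a b ha hb hd
    unfold polQ
    rw [hγ _ (by rw [Nadd, ha, hb, hd]; norm_num), hα a ha, hα b hb, add_assoc, z2_two, add_zero]
  have P1 : ∀ a b : leechLattice, sqNorm (a : GolayPt → ℤ) = 32 → sqNorm (b : GolayPt → ℤ) = 32 →
      dotInt (a : GolayPt → ℤ) (b : GolayPt → ℤ) = 8 → polQ Q a b = β := by
    intro a b ha hb hd
    unfold polQ
    rw [hsub, hβ _ (by rw [Nsub, ha, hb, hd]; norm_num), hα a ha, hα b hb, add_assoc, z2_two, add_zero]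
  have P2 : ∀ a b : leechLattice, sqNorm (a : GolayPt → ℤ) = 32 → sqNorm (b : GolayPt → ℤ) = 32 →
      dotInt (a : GolayPt → ℤ) (b : GolayPt → ℤ) = 16 → polQ Q a b = α := by
    intro a b ha hb hd
    unfold polQ
    rw [hsub, hα _ (by rw [Nsub, ha, hb, hd]; norm_num), hα a ha, hα b hb, add_assoc, z2_two, add_zero]
  -- vanishing of α and γ
  have hγ0 : γ = 0 := by
    have h1 := polQ_add_left hquad lx₀ ly₀ lz₁
    rw [lw_eq, P0 _ _ nw₀ nz₁ d_wz₁, P0 _ _ nx₀ nz₁ d_xz₁, P0 _ _ ny₀ nz₁ d_yz₁, z2_two] at h1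
    exact h1
  have hα0 : α = 0 := by
    have h1 := polQ_add_left hquad lx₀ ly₀ lz₀
    rw [lw_eq, P2 _ _ nw₀ nz₀ d_wz₀, P1 _ _ nx₀ nz₀ d_xz₀, P1 _ _ ny₀ nz₀ d_yz₀, z2_two] at h1
    exact h1
  -- norms of lattice vectors
  have Qzero : ∀ a : leechLattice, sqNorm (a : GolayPt → ℤ) = 0 → Q a = 0 := by
    intro a ha
    have : a = 0 := by
      by_contra hne0
      have h1 : (a : GolayPt → ℤ) ≠ 0 := fun h => hne0 (Subtype.ext h)
      have h2 := min_norm a.2 h1
      omega
    rw [this, h0]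
  have no16 : ∀ a : leechLattice, sqNorm (a : GolayPt → ℤ) = 16 → False := by
    intro a ha
    by_cases h1 : (a : GolayPt → ℤ) = 0
    · rw [h1] at ha
      have : sqNorm (0 : GolayPt → ℤ) = 0 := by decide +kernel
      omega
    · have h2 := min_norm a.2 h1
      omega
  -- minimal vectors
  have Pmin : ∀ a b : leechLattice, sqNorm (a : GolayPt → ℤ) = 32 → sqNorm (b : GolayPt → ℤ) = 32 →
      polQ Q a b = β * dotQ a b := by
    intro a b ha hb
    obtain ⟨s, hs⟩ := dot_dvd8 a.2 b.2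
    have h1 := sqNorm_nonneg' ((a - b : leechLattice) : GolayPt → ℤ)
    have h2 := sqNorm_nonneg' ((a + b : leechLattice) : GolayPt → ℤ)
    have ns := Nsub a b
    have na := Nadd a b
    rw [ha, hb, hs] at ns na
    have hs1 : s ≤ 4 := by omega
    have hs2 : -4 ≤ s := by omega
    have hd : dotQ a b = ((s : ℤ) : ZMod 2) := by
      unfold dotQ
      rw [hs, Int.mul_ediv_cancel_left _ (by norm_num)]
    rw [hd]
    unfold polQ
    rw [hα a ha, hα b hb, hα0, add_zero, add_zero]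
    interval_cases s
    · -- s = -4
      rw [Qzero _ (by rw [na]; norm_num)]
      have : (((-4 : ℤ) : ℤ) : ZMod 2) = 0 := by decide
      rw [this, mul_zero]
    · exact (no16 _ (by rw [na]; norm_num)).elim
    · rw [hα _ (by rw [na]; norm_num), hα0]
      have : (((-2 : ℤ) : ℤ) : ZMod 2) = 0 := by decide
      rw [this, mul_zero]
    · rw [hβ _ (by rw [na]; norm_num)]
      have : (((-1 : ℤ) : ℤ) : ZMod 2) = 1 := by decide
      rw [this, mul_one]
    · rw [hγ _ (by rw [na]; norm_num), hγ0]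
      simp
    · rw [hsub, hβ _ (by rw [ns]; norm_num)]
      simp
    · rw [hsub, hα _ (by rw [ns]; norm_num), hα0]
      have : (((2 : ℤ) : ℤ) : ZMod 2) = 0 := by decide
      rw [this, mul_zero]
    · exact (no16 _ (by rw [ns]; norm_num)).elim
    · rw [hsub, Qzero _ (by rw [ns]; norm_num)]
      have : (((4 : ℤ) : ℤ) : ZMod 2) = 0 := by decide
      rw [this, mul_zero]
  -- bilinear extension
  have P3 : ∀ u b : leechLattice, sqNorm (b : GolayPt → ℤ) = 32 → polQ Q u b = β * dotQ u b := by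
    intro u b hb
    let f : leechLattice →+ ZMod 2 := AddMonoidHom.mk' (fun u => polQ Q u b + β * dotQ u b) (by
      intro x y
      show polQ Q (x + y) b + β * dotQ (x + y) b = _
      rw [polQ_add_left hquad, dotQ_add_left]
      ring)
    have h1 : f u = 0 := hom_zero_of_min f (fun x hx => by
      show polQ Q x b + β * dotQ x b = 0
      rw [Pmin x b hx hb]
      exact z2_two _) u
    exact z2_eq_of_add _ _ h1
  have P4 : ∀ u v : leechLattice, polQ Q u v = β * dotQ u v := by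
    intro u v
    let f : leechLattice →+ ZMod 2 := AddMonoidHom.mk' (fun v => polQ Q v u + β * dotQ v u) (by
      intro x y
      show polQ Q (x + y) u + β * dotQ (x + y) u = _
      rw [polQ_add_left hquad, dotQ_add_left]
      ring)
    have h1 : f v = 0 := hom_zero_of_min f (fun x hx => by
      show polQ Q x u + β * dotQ x u = 0
      rw [polQ_comm, P3 u x hx, dotQ_comm]
      exact z2_two _) v
    rw [polQ_comm, dotQ_comm]
    exact z2_eq_of_add _ _ h1
  -- the comparison with the norm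
  have P5 : ∀ u : leechLattice, Q u = β * normQ u := by
    intro u
    let f : leechLattice →+ ZMod 2 := AddMonoidHom.mk' (fun u => Q u + β * normQ u) (by
      intro x y
      show Q (x + y) + β * normQ (x + y) = _
      have h1 := P4 x y
      unfold polQ at h1
      rw [normQ_add]
      have two : (2 : ZMod 2) = 0 := rfl
      linear_combination h1 + (β * dotQ x y - Q x - Q y) * two)
    have h1 : f u = 0 := hom_zero_of_min f (fun x hx => by
      show Q x + β * normQ x = 0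
      have h2 : normQ x = 0 := by
        unfold normQ
        rw [hx]
        decide
      rw [h2, hα x hx, hα0]
      simp) u
    exact z2_eq_of_add _ _ h1
  have hβ1 : β = 1 := by
    apply z2_ne
    rintro rfl
    obtain ⟨w, hw⟩ := hne
    apply hw
    rw [P5 w, zero_mul]
  rw [P5 v, hβ1, one_mul]

end Lee1

end Cfsg.Agent.H28
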