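import Cfsg.Agent.Lib.H28.GLee1

set_option autoImplicit false
set_option linter.style.haveILetI false
set_option linter.unusedSectionVars false
set_option linter.unusedSimpArgs false
set_option linter.unusedVariables false
set_option maxRecDepth 100000

namespace Cfsg.Agent.H28

open Cfsg Cfsg.Agent.H27.Golay Cfsg.Agent.H26.Leech Cfsg.Agent.H02.CoA Cfsg.Agent.H02.CoB Cfsg.Agent.H02.CoJ Cfsg.Agent.H02

section Lee2

/-- Four at the point at infinity. -/
def d4v : GolayPt → ℤ := fun i => if i = none then 4 else 0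

lemma sum_d4v : ∑ i, d4v i = 4 := by decide +kernel

lemma e4_mem (j : ZMod 23) : e4 j ∈ leechLattice := mem_of_test (e4_ok j).1

lemma sum_on_code' {c : Finset GolayPt} (hc : c ∈ supports (golayCode : Set (GolayPt → ZMod 2)))
    {x : GolayPt → ℤ} {m : ℤ} (h1 : ∀ i, x i ≡ m [ZMOD 2]) :
    ∑ i ∈ c, x i ≡ 2 * ((c ∩ support₂ (hi x)).card : ℤ) [ZMOD 4] := by
  obtain ⟨w, hw, rfl⟩ := hc
  have hw4 : (4 : ℤ) ∣ ((support₂ w).card : ℤ) := by
    have hc : hammingNorm w = (support₂ w).card := rfl
    rcases Gol.golay_weights w hw with h | h | h | h | h <;> rw [← hc, h] <;> norm_num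
  have hstep : ∑ i ∈ support₂ w, x i ≡ ∑ i ∈ support₂ w, (m % 2 + 2 * LeechA.hiN (x i)) [ZMOD 4] := by
    unfold Int.ModEq
    rw [Finset.sum_int_mod (support₂ w) 4 x]
    conv_rhs => rw [Finset.sum_int_mod]
    congr 1
    apply Finset.sum_congr rfl
    intro i _
    exact LeechA.residue (x i) m (h1 i)
  refine hstep.trans ?_
  rw [Finset.sum_add_distrib, ← Finset.mul_sum, LeechA.sum_hiN, Finset.sum_const, nsmul_eq_mul]
  obtain ⟨k, hk⟩ := hw4
  rw [hk]
  unfold Int.ModEq
  have e : 4 * k * (m % 2) + 2 * ((support₂ w ∩ support₂ (hi x)).card : ℤ) =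
      2 * ((support₂ w ∩ support₂ (hi x)).card : ℤ) + 4 * (k * (m % 2)) := by ring
  rw [e]
  exact Int.add_mul_emod_self_left _ _ _

lemma exists_octad_two (i j : GolayPt) : ∃ O ∈ octads, i ∈ O ∧ j ∈ O := by
  classical
  obtain ⟨s, hs, hcard⟩ := Finset.exists_superset_card_eq (s := ({i, j} : Finset GolayPt)) (n := 5)
    (le_trans (Finset.card_le_two) (by norm_num)) (by
      rw [Fintype.card_option, ZMod.card]
      norm_num)
  obtain ⟨O, ⟨hO, hsO⟩, -⟩ := steiner_octads.2 s hcard
  exact ⟨O, hO, hsO (hs (by simp)), hsO (hs (by simp))⟩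

variable {M : AddSubgroup (GolayPt → ℤ)}

lemma dM_mem (hMle : M ≤ leechLattice)
    (hMg : ∀ (g : Co0) (v : leechLattice), (v : GolayPt → ℤ) ∈ M → ((g • v : leechLattice) : GolayPt → ℤ) ∈ M)
    {x : GolayPt → ℤ} (hx : x ∈ M) {c : Finset GolayPt} (hc : c ∈ supports (golayCode : Set (GolayPt → ZMod 2))) :
    (fun i => if i ∈ c then 2 * x i else 0) ∈ M := by
  have h1 := hMg (sgn c hc) ⟨x, hMle hx⟩ hx
  have e : (fun i => if i ∈ c then 2 * x i else 0) =
      x - ((sgn c hc • (⟨x, hMle hx⟩ : leechLattice) : leechLattice) : GolayPt → ℤ) := by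
    funext i
    have : ((sgn c hc • (⟨x, hMle hx⟩ : leechLattice) : leechLattice) : GolayPt → ℤ) i = if i ∈ c then -x i else x i := rfl
    rw [Pi.sub_apply, this]
    split_ifs <;> ring
  rw [e]
  exact sub_mem hx h1

lemma caseU (hM2 : ∀ v ∈ leechLattice, (2 : ℤ) • v ∈ M) {x y : GolayPt → ℤ} (hx : x ∈ M) (hxy : ∀ i, x i = 2 * y i)
    (hy : (fun i => y i + d4v i) ∈ leechLattice) : e8v ∈ M := by
  have h2 := hM2 _ hy
  have e : e8v = (2 : ℤ) • (fun i => y i + d4v i) - x := by
    funext i
    simp only [Pi.sub_apply, Pi.smul_apply, smul_eq_mul, hxy, e8v, d4v]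
    split_ifs <;> ring
  rw [e]
  exact sub_mem h2 hx

lemma caseF (hMle : M ≤ leechLattice)
    (hMg : ∀ (g : Co0) (v : leechLattice), (v : GolayPt → ℤ) ∈ M → ((g • v : leechLattice) : GolayPt → ℤ) ∈ M)
    (h : e8v ∈ M) : M = leechLattice := by
  have he : ((e8 none : leechLattice) : GolayPt → ℤ) = e8v := rfl
  have h64 : ∀ v : leechLattice, sqNorm (v : GolayPt → ℤ) = 64 → (v : GolayPt → ℤ) ∈ M := by
    intro v hv
    obtain ⟨g, hg⟩ := exists_of_RR (v := e8 none) (w := v)
      ((Cfsg.Agent.H02.CoF.main64 (e8 none).2 (by rw [sqNorm_e8]; norm_num)).trans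
        (Cfsg.Agent.H02.CoF.main64 v.2 (by exact_mod_cast hv)).symm)
    rw [← hg]
    exact hMg g _ (by rw [he]; exact h)
  have hA : (e4 0 - e4 1 + e4 2 - e4 3) ∈ M := by
    refine h64 ⟨e4 0 - e4 1 + e4 2 - e4 3, sub_mem (add_mem (sub_mem (e4_mem 0) (e4_mem 1)) (e4_mem 2)) (e4_mem 3)⟩ ?_
    show sqNorm (e4 0 - e4 1 + e4 2 - e4 3) = 64
    decide +kernel
  have hB : (-e4 0 + e4 1 - e4 2 + e4 4) ∈ M := by
    refine h64 ⟨-e4 0 + e4 1 - e4 2 + e4 4, add_mem (sub_mem (add_mem (neg_mem (e4_mem 0)) (e4_mem 1)) (e4_mem 2)) (e4_mem 4)⟩ ?_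
    show sqNorm (-e4 0 + e4 1 - e4 2 + e4 4) = 64
    decide +kernel
  have hm : e4 4 - e4 3 ∈ M := by
    have e : e4 4 - e4 3 = (e4 0 - e4 1 + e4 2 - e4 3) + (-e4 0 + e4 1 - e4 2 + e4 4) := by abel
    rw [e]
    exact add_mem hA hB
  have hm32 : sqNorm (e4 4 - e4 3) = 32 := by decide +kernel
  apply le_antisymm hMle
  rw [← closure_MV, AddSubgroup.closure_le]
  intro z hz
  obtain ⟨g, hg⟩ := Cfsg.Agent.H02.CoD.transitive32 (⟨e4 4 - e4 3, sub_mem (e4_mem 4) (e4_mem 3)⟩ : leechLattice) ⟨z, hz.1⟩ hm32 hz.2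
  have := hMg g ⟨e4 4 - e4 3, sub_mem (e4_mem 4) (e4_mem 3)⟩ hm
  rw [hg] at this
  exact this

lemma caseV (hM2 : ∀ v ∈ leechLattice, (2 : ℤ) • v ∈ M) (hMle : M ≤ leechLattice)
    (hMg : ∀ (g : Co0) (v : leechLattice), (v : GolayPt → ℤ) ∈ M → ((g • v : leechLattice) : GolayPt → ℤ) ∈ M)
    {x y : GolayPt → ℤ} (hx : x ∈ M) (hxy : ∀ i, x i = 2 * y i) {m : ℤ} (hpar : ∀ i, y i ≡ m [ZMOD 2])
    (hH : hi y ∉ golayCode) : e8v ∈ M := by
  classical
  obtain ⟨c, hc, hcH⟩ : ∃ c ∈ golayCode, ∑ i, c i * hi y i ≠ 0 := by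
    by_contra hcon
    push Not at hcon
    exact hH (Stn.golay_selfDual hcon)
  have hC : support₂ c ∈ supports (golayCode : Set (GolayPt → ZMod 2)) := ⟨c, hc, rfl⟩
  have hodd : Odd ((support₂ c ∩ support₂ (hi y)).card) := by
    have h1 := Stn.dot_chi (support₂ c) (support₂ (hi y))
    rw [Stn.chi_support, Stn.chi_support] at h1
    rw [h1] at hcH
    rw [← Nat.not_even_iff_odd]
    intro hev
    exact hcH ((ZMod.natCast_eq_zero_iff_even).mpr hev)
  have hsum := sum_on_code' hC hpar
  refine caseU hM2 (y := fun i => if i ∈ support₂ c then 2 * y i else 0) (dM_mem hMle hMg hx hC) ?_ ?_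
  · intro i
    by_cases h : i ∈ support₂ c <;> simp only [h, if_true, if_false, hxy] <;> ring
  · rw [mem_leechLattice_iff, mem_leechSet_iff]
    refine ⟨0, ?_, ?_, ?_⟩
    · intro i
      unfold Int.ModEq d4v
      split_ifs <;> omega
    · rw [Finset.sum_add_distrib, sum_d4v, Finset.sum_ite_mem, Finset.univ_inter, ← Finset.mul_sum]
      obtain ⟨l, hl⟩ := hodd
      rw [hl] at hsum
      unfold Int.ModEq at hsum ⊢
      push_cast at hsum
      omega
    · have hm01 : m % 2 = 0 ∨ m % 2 = 1 := by omega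
      rcases hm01 with hm0 | hm1
      · have e : hi (fun i => (if i ∈ support₂ c then 2 * y i else 0) + d4v i) = 0 := by
          funext i
          have hi2 : y i % 2 = 0 := by
            have := hpar i
            unfold Int.ModEq at this
            omega
          simp only [hi, hiZ, Pi.zero_apply, d4v]
          split_ifs <;> first | rfl | omega
        rw [e]
        exact zero_mem _
      · have e : hi (fun i => (if i ∈ support₂ c then 2 * y i else 0) + d4v i) = c := by
          funext i
          have hi2 : y i % 2 = 1 := by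
            have := hpar i
            unfold Int.ModEq at this
            omega
          have hc01 : c i = 0 ∨ c i = 1 := Cfsg.Agent.H02.CoB.zmod2_cases _
          have hmem : i ∈ support₂ c ↔ c i ≠ 0 := by
            simp [support₂]
          simp only [hi, hiZ, d4v]
          rcases hc01 with h0 | h1
          · have : i ∉ support₂ c := by
              rw [hmem]
              simpa using h0
            rw [h0]
            simp only [this, if_false]
            split_ifs <;> first | rfl | omega
          · have : i ∈ support₂ c := by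
              rw [hmem, h1]
              exact one_ne_zero
            rw [h1]
            simp only [this, if_true]
            split_ifs <;> first | rfl | omega
        rw [e]
        exact hc

lemma caseNU (hM2 : ∀ v ∈ leechLattice, (2 : ℤ) • v ∈ M) (hMle : M ≤ leechLattice)
    (hMg : ∀ (g : Co0) (v : leechLattice), (v : GolayPt → ℤ) ∈ M → ((g • v : leechLattice) : GolayPt → ℤ) ∈ M)
    {x y : GolayPt → ℤ} (hx : x ∈ M) (hxy : ∀ i, x i = 2 * y i) {i j : GolayPt} (hi1 : y i % 2 = 1) (hj0 : y j % 2 = 0) :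
    e8v ∈ M := by
  classical
  obtain ⟨O, hO, hiO, hjO⟩ := exists_octad_two i j
  have hO' : O ∈ supports (golayCode : Set (GolayPt → ZMod 2)) := hO.1
  refine caseV hM2 hMle hMg (y := fun k => if k ∈ O then 2 * y k else 0) (m := 0) (dM_mem hMle hMg hx hO') ?_ ?_ ?_
  · intro k
    by_cases h : k ∈ O <;> simp only [h, if_true, if_false, hxy] <;> ring
  · intro k
    unfold Int.ModEq
    split_ifs <;> omega
  · intro hin
    have hS : support₂ (hi (fun k => if k ∈ O then 2 * y k else 0)) ∈ supports (golayCode : Set (GolayPt → ZMod 2)) :=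
      ⟨_, hin, rfl⟩
    have hw := supports_weights hS
    set S := support₂ (hi (fun k => if k ∈ O then 2 * y k else 0)) with hSdef
    have hmemS : ∀ k, k ∈ S ↔ ((if k ∈ O then 2 * y k else 0) % 4 = 2 ∨ (if k ∈ O then 2 * y k else 0) % 4 = 3) := by
      intro k
      rw [hSdef, mem_support_hi]
    have hiS : i ∈ S := by
      rw [hmemS, if_pos hiO]
      omega
    have hjS : j ∉ S := by
      rw [hmemS, if_pos hjO]
      omega
    have hSO : S ⊆ O.erase j := by
      intro k hk
      rw [Finset.mem_erase]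
      refine ⟨fun h => hjS (h ▸ hk), ?_⟩
      by_contra hkO
      rw [hmemS, if_neg hkO] at hk
      omega
    have hc1 : S.card ≤ 7 := by
      have h1 := Finset.card_le_card hSO
      rw [Finset.card_erase_of_mem hjO, hO.2] at h1
      omega
    rcases hw with h | h
    · rw [h] at hiS
      simp at hiS
    · omega

lemma caseOdd (hM2 : ∀ v ∈ leechLattice, (2 : ℤ) • v ∈ M) (hMle : M ≤ leechLattice)
    (hMg : ∀ (g : Co0) (v : leechLattice), (v : GolayPt → ℤ) ∈ M → ((g • v : leechLattice) : GolayPt → ℤ) ∈ M)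
    {x : GolayPt → ℤ} (hx : x ∈ M) (hodd : ∀ i, x i % 2 = 1) : e8v ∈ M := by
  classical
  obtain ⟨O, hO, hiO, -⟩ := exists_octad_two none none
  have hO' : O ∈ supports (golayCode : Set (GolayPt → ZMod 2)) := hO.1
  obtain ⟨j, hj⟩ : ∃ j, j ∉ O := by
    by_contra hcon
    push Not at hcon
    have h1 : O = Finset.univ := Finset.eq_univ_iff_forall.2 hcon
    have h2 := hO.2
    rw [h1, Finset.card_univ, Fintype.card_option, ZMod.card] at h2
    omega
  refine caseNU hM2 hMle hMg (y := fun k => if k ∈ O then x k else 0) (i := none) (j := j) (dM_mem hMle hMg hx hO') ?_ ?_ ?_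
  · intro k
    by_cases h : k ∈ O <;> simp [h]
  · simp only [hiO, if_true]
    exact hodd _
  · simp only [hj, if_false]
    rfl

/-- Irreducibility. -/
theorem leech_irr (M : AddSubgroup (GolayPt → ℤ)) (hM2 : ∀ v ∈ leechLattice, (2 : ℤ) • v ∈ M) (hMle : M ≤ leechLattice)
    (hMg : ∀ (g : Co0) (v : leechLattice), (v : GolayPt → ℤ) ∈ M → ((g • v : leechLattice) : GolayPt → ℤ) ∈ M) :
    (∀ x ∈ M, ∃ w ∈ leechLattice, x = (2 : ℤ) • w) ∨ M = leechLattice := by
  classical
  by_cases h : ∀ x ∈ M, ∃ w ∈ leechLattice, x = (2 : ℤ) • w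
  · exact Or.inl h
  right
  push Not at h
  obtain ⟨x, hx, hnot⟩ := h
  apply caseF hMle hMg
  rcases even_or_odd (mem_leechLattice_iff.1 (hMle hx)) with ⟨he, h8, hhi⟩ | ⟨ho, h8, hhi⟩
  · let y : GolayPt → ℤ := fun i => x i / 2
    have hxy : ∀ i, x i = 2 * y i := by
      intro i
      have := he i
      simp only [y]
      omega
    by_cases hunif : ∃ i j, y i % 2 = 1 ∧ y j % 2 = 0
    · obtain ⟨i, j, hi1, hj0⟩ := hunif
      exact caseNU hM2 hMle hMg hx hxy hi1 hj0
    push Not at hunif
    have hpar : ∀ i, y i ≡ y none [ZMOD 2] := by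
      intro i
      unfold Int.ModEq
      have h1 := hunif i none
      have h2 := hunif none i
      omega
    by_cases hH : hi y ∈ golayCode
    · have hyL : y ∉ leechLattice := by
        intro hy
        refine hnot y hy ?_
        funext i
        simp only [Pi.smul_apply, smul_eq_mul, hxy]
      have hsx : ∑ i, x i = 2 * ∑ i, y i := by
        rw [Finset.mul_sum]
        exact Finset.sum_congr rfl (fun i _ => hxy i)
      have hns : ¬ (∑ i, y i ≡ 4 * y none [ZMOD 8]) := by
        intro hs
        apply hyL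
        rw [mem_leechLattice_iff, mem_leechSet_iff]
        exact ⟨y none, hpar, hs, hH⟩
      apply caseU hM2 hx hxy
      rw [mem_leechLattice_iff, mem_leechSet_iff]
      refine ⟨y none, ?_, ?_, ?_⟩
      · intro i
        have := hpar i
        unfold Int.ModEq d4v at *
        split_ifs <;> omega
      · rw [Finset.sum_add_distrib, sum_d4v]
        rw [hsx] at h8
        unfold Int.ModEq at *
        omega
      · have e : hi (fun i => y i + d4v i) = hi y := by
          funext i
          have e1 : (y i + d4v i) % 4 = y i % 4 := by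
            unfold d4v
            split_ifs <;> omega
          show hiZ (y i + d4v i) = hiZ (y i)
          unfold hiZ
          simp only [e1]
        rw [e]
        exact hH
    · exact caseV hM2 hMle hMg hx hxy hpar hH
  · exact caseOdd hM2 hMle hMg hx ho

/-! The kernel. -/

lemma sqNorm_two (w : GolayPt → ℤ) : sqNorm ((2 : ℕ) • w) = 4 * sqNorm w := by
  unfold sqNorm
  rw [Finset.mul_sum]
  exact Finset.sum_congr rfl (fun i _ => by simp only [Pi.smul_apply, nsmul_eq_mul]; push_cast; ring)

lemma cong_min (x y w : leechLattice) (hx : sqNorm (x : GolayPt → ℤ) = 32) (hy : sqNorm (y : GolayPt → ℤ) = 32)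
    (h : (y : GolayPt → ℤ) - (x : GolayPt → ℤ) = (2 : ℕ) • (w : GolayPt → ℤ)) : y = x ∨ y = -x := by
  let w' : leechLattice := w + x
  have e1 : (y : GolayPt → ℤ) + (x : GolayPt → ℤ) = (2 : ℕ) • (w' : GolayPt → ℤ) := by
    funext i
    have := congrFun h i
    simp only [Pi.sub_apply, Pi.smul_apply, nsmul_eq_mul, Pi.add_apply] at this ⊢
    have e2 : (w' : GolayPt → ℤ) i = (w : GolayPt → ℤ) i + (x : GolayPt → ℤ) i := rfl
    rw [e2]
    push_cast at this ⊢
    linarith
  have n1 := sqNorm_two (w : GolayPt → ℤ)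
  have n2 := sqNorm_two (w' : GolayPt → ℤ)
  rw [← h, sqNorm_sub', hx, hy] at n1
  rw [← e1, sqNorm_add', hx, hy] at n2
  by_cases h0 : (w : GolayPt → ℤ) = 0
  · left
    apply Subtype.ext
    rw [h0, smul_zero] at h
    exact sub_eq_zero.1 h
  by_cases h0' : (w' : GolayPt → ℤ) = 0
  · right
    apply Subtype.ext
    rw [h0', smul_zero] at e1
    exact eq_neg_of_add_eq_zero_left e1
  have m1 := min_norm w.2 h0
  have m2 := min_norm w'.2 h0'
  omega

lemma dot_iso (g : Co0) (a b : leechLattice) :
    dotInt ((g • a : leechLattice) : GolayPt → ℤ) ((g • b : leechLattice) : GolayPt → ℤ) =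
      dotInt (a : GolayPt → ℤ) (b : GolayPt → ℤ) := by
  have h1 := g.2.2 (a + b)
  have h2 := g.2.1 a b
  rw [h2] at h1
  have h3 := g.2.2 a
  have h4 := g.2.2 b
  have e1 : sqNorm (((g.1 a + g.1 b : leechLattice)) : GolayPt → ℤ) = sqNorm ((g.1 a : leechLattice) : GolayPt → ℤ) +
      sqNorm ((g.1 b : leechLattice) : GolayPt → ℤ) + 2 * dotInt ((g.1 a : leechLattice) : GolayPt → ℤ) ((g.1 b : leechLattice) : GolayPt → ℤ) :=
    sqNorm_add' _ _
  have e2 : sqNorm (((a + b : leechLattice)) : GolayPt → ℤ) = sqNorm (a : GolayPt → ℤ) +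
      sqNorm (b : GolayPt → ℤ) + 2 * dotInt (a : GolayPt → ℤ) (b : GolayPt → ℤ) :=
    sqNorm_add' _ _
  show dotInt ((g.1 a : leechLattice) : GolayPt → ℤ) ((g.1 b : leechLattice) : GolayPt → ℤ) = _
  rw [e1, e2, h3, h4] at h1
  omega

/-- Pairing with `e4 j`. -/
lemma dot_e4 (v : GolayPt → ℤ) (j : ZMod 23) : dotInt v (e4 j) = 4 * v none + 4 * v (some j) := by
  unfold dotInt
  rw [Fintype.sum_option]
  have h1 : ∀ a : ZMod 23, v (some a) * e4 j (some a) = if a = j then 4 * v (some j) else 0 := by
    intro a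
    by_cases h : a = j
    · subst h
      simp [e4]
      ring
    · simp [e4, h]
  simp only [h1]
  rw [Finset.sum_ite_eq' Finset.univ j]
  simp [e4]
  ring

/-- Pairing with `e8v - e4 j`. -/
lemma dot_e4' (v : GolayPt → ℤ) (j : ZMod 23) : dotInt v (e8v - e4 j) = 4 * v none - 4 * v (some j) := by
  unfold dotInt
  rw [Fintype.sum_option]
  have h1 : ∀ a : ZMod 23, v (some a) * (e8v - e4 j) (some a) = if a = j then -4 * v (some j) else 0 := by
    intro a
    by_cases h : a = j
    · subst h
      simp [e4, e8v]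
      ring
    · simp [e4, e8v, h]
  simp only [h1]
  rw [Finset.sum_ite_eq' Finset.univ j]
  simp [e4, e8v]
  ring

/-- The kernel of the action modulo twice the lattice. -/
theorem leech_kernel (g : Co0)
    (hg : ∀ v : leechLattice, ∃ w : leechLattice, ((g • v : leechLattice) : GolayPt → ℤ) - (v : GolayPt → ℤ) = (2 : ℕ) • (w : GolayPt → ℤ)) :
    g ∈ Subgroup.center Co0 := by
  classical
  -- minimal vectors go to plus or minus themselves
  have hS : ∀ v : leechLattice, sqNorm (v : GolayPt → ℤ) = 32 → g • v = v ∨ g • v = -v := by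
    intro v hv
    obtain ⟨w, hw⟩ := hg v
    exact cong_min v (g • v) w hv ((g.2.2 v).trans hv) hw
  let r : leechLattice := ⟨e4 0, e4_mem 0⟩
  have hr : sqNorm (r : GolayPt → ℤ) = 32 := (e4_ok 0).2
  -- the general claim
  have key : ∀ ε : ℤ, (ε = 1 ∨ ε = -1) → ((g • r : leechLattice) : GolayPt → ℤ) = ε • (r : GolayPt → ℤ) →
      ∀ v : leechLattice, ((g • v : leechLattice) : GolayPt → ℤ) = ε • (v : GolayPt → ℤ) := by
    intro ε hε hεr
    have step : ∀ a b : leechLattice, sqNorm (b : GolayPt → ℤ) = 32 →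
        dotInt (a : GolayPt → ℤ) (b : GolayPt → ℤ) ≠ 0 →
        ((g • a : leechLattice) : GolayPt → ℤ) = ε • (a : GolayPt → ℤ) →
        ((g • b : leechLattice) : GolayPt → ℤ) = ε • (b : GolayPt → ℤ) := by
      intro a b hb hd ha
      have hdot := dot_iso g a b
      rw [ha] at hdot
      have hmul : ∀ (u w : GolayPt → ℤ) (c : ℤ), dotInt (c • u) w = c * dotInt u w := by
        intro u w c
        unfold dotInt
        rw [Finset.mul_sum]
        exact Finset.sum_congr rfl (fun i _ => by simp only [Pi.smul_apply, smul_eq_mul]; ring)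
      have hmul2 : ∀ (u w : GolayPt → ℤ) (c : ℤ), dotInt u (c • w) = c * dotInt u w := by
        intro u w c
        unfold dotInt
        rw [Finset.mul_sum]
        exact Finset.sum_congr rfl (fun i _ => by simp only [Pi.smul_apply, smul_eq_mul]; ring)
      rcases hS b hb with h | h
      · rw [h, hmul] at hdot
        have hε1 : ε = 1 := by
          rcases hε with rfl | rfl
          · rfl
          · exfalso
            apply hd
            omega
        rw [h, hε1, one_smul]
      · have e : ((-b : leechLattice) : GolayPt → ℤ) = (-1 : ℤ) • (b : GolayPt → ℤ) := by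
          funext i
          simp
        rw [h, e, hmul, hmul2] at hdot
        have hε1 : ε = -1 := by
          rcases hε with rfl | rfl
          · exfalso
            apply hd
            omega
          · rfl
        rw [h, hε1, e]
    have h4 : ∀ j : ZMod 23, ((g • (⟨e4 j, e4_mem j⟩ : leechLattice) : leechLattice) : GolayPt → ℤ) = ε • e4 j := by
      intro j
      refine step r ⟨e4 j, e4_mem j⟩ (e4_ok j).2 ?_ hεr
      show dotInt (e4 0) (e4 j) ≠ 0
      revert j
      decide +kernel
    have hm4 : ∀ j : ZMod 23, e8v - e4 j ∈ leechLattice := by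
      intro j
      refine sub_mem ?_ (e4_mem j)
      exact (e8 none).2
    have h4' : ∀ j : ZMod 23, ((g • (⟨e8v - e4 j, hm4 j⟩ : leechLattice) : leechLattice) : GolayPt → ℤ) = ε • (e8v - e4 j) := by
      intro j
      refine step ⟨e4 (j + 1), e4_mem _⟩ ⟨e8v - e4 j, hm4 j⟩ ?_ ?_ (h4 (j + 1))
      · show sqNorm (e8v - e4 j) = 32
        revert j
        decide +kernel
      · show dotInt (e4 (j + 1)) (e8v - e4 j) ≠ 0
        revert j
        decide +kernel
    have hmin : ∀ v : leechLattice, sqNorm (v : GolayPt → ℤ) = 32 →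
        ((g • v : leechLattice) : GolayPt → ℤ) = ε • (v : GolayPt → ℤ) := by
      intro v hv
      have hv0 : (v : GolayPt → ℤ) ≠ 0 := by
        intro h0
        rw [h0] at hv
        have : sqNorm (0 : GolayPt → ℤ) = 0 := by decide +kernel
        omega
      obtain ⟨i, hi0⟩ : ∃ i, (v : GolayPt → ℤ) i ≠ 0 := by
        by_contra hcon
        push Not at hcon
        exact hv0 (funext hcon)
      have hcomm : ∀ (a b : GolayPt → ℤ), dotInt a b = dotInt b a := dotInt_comm'
      by_cases hinf : (v : GolayPt → ℤ) none = 0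
      · cases i with
        | none => exact absurd hinf hi0
        | some j =>
          refine step ⟨e4 j, e4_mem j⟩ v hv ?_ (h4 j)
          show dotInt (e4 j) (v : GolayPt → ℤ) ≠ 0
          rw [hcomm, dot_e4, hinf]
          omega
      · by_cases hz : (v : GolayPt → ℤ) none + (v : GolayPt → ℤ) (some 0) = 0
        · refine step ⟨e8v - e4 0, hm4 0⟩ v hv ?_ (h4' 0)
          show dotInt (e8v - e4 0) (v : GolayPt → ℤ) ≠ 0
          rw [hcomm, dot_e4']
          omega
        · refine step ⟨e4 0, e4_mem 0⟩ v hv ?_ (h4 0)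
          show dotInt (e4 0) (v : GolayPt → ℤ) ≠ 0
          rw [hcomm, dot_e4]
          omega
    -- closure
    have hcl : ∀ y (hy : y ∈ AddSubgroup.closure MV) (hy' : y ∈ leechLattice),
        ((g • (⟨y, hy'⟩ : leechLattice) : leechLattice) : GolayPt → ℤ) = ε • y := by
      intro y hy
      induction hy using AddSubgroup.closure_induction with
      | mem y hm =>
        intro hy'
        exact hmin ⟨y, hy'⟩ hm.2
      | zero =>
        intro hy'
        have e : (⟨0, hy'⟩ : leechLattice) = 0 := rfl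
        rw [e, smul_zero]
        have e2 : g • (0 : leechLattice) = 0 := by
          have := g.2.1 0 0
          rw [add_zero] at this
          show g.1 0 = 0
          exact left_eq_add.1 this
        rw [e2]
        rfl
      | add a b ha hb iha ihb =>
        intro hy'
        have ha' : a ∈ leechLattice := by
          rw [← closure_MV]
          exact ha
        have hb' : b ∈ leechLattice := by
          rw [← closure_MV]
          exact hb
        have e := g.2.1 ⟨a, ha'⟩ ⟨b, hb'⟩
        have e3 := iha ha'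
        have e4' := ihb hb'
        rw [smul_add, ← e3, ← e4']
        exact congrArg Subtype.val e
      | neg a ha iha =>
        intro hy'
        have ha' : a ∈ leechLattice := by
          rw [← closure_MV]
          exact ha
        have e3 := iha ha'
        have e := g.2.1 ⟨a, ha'⟩ ⟨-a, hy'⟩
        have e0 : (⟨a, ha'⟩ : leechLattice) + ⟨-a, hy'⟩ = 0 := by
          apply Subtype.ext
          exact add_neg_cancel a
        rw [e0] at e
        have e2 : g.1 (0 : leechLattice) = 0 := by
          have := g.2.1 0 0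
          rw [add_zero] at this
          exact left_eq_add.1 this
        rw [e2] at e
        have e5 := congrArg Subtype.val e
        have e6 : (g.1 ⟨a, ha'⟩ : GolayPt → ℤ) + (g.1 ⟨-a, hy'⟩ : GolayPt → ℤ) = 0 := e5.symm
        have e7 : (g.1 ⟨a, ha'⟩ : GolayPt → ℤ) = ε • a := e3
        rw [e7] at e6
        show (g.1 ⟨-a, hy'⟩ : GolayPt → ℤ) = ε • -a
        rw [smul_neg]
        exact eq_neg_of_add_eq_zero_right e6
    intro v
    exact hcl v.1 (by rw [closure_MV]; exact v.2) v.2
  rw [Subgroup.mem_center_iff]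
  rcases hS r hr with h | h
  · -- plus
    have h1 := key 1 (Or.inl rfl) (by rw [h, one_smul])
    have : g = 1 := by
      apply Subtype.ext
      apply Equiv.ext
      intro v
      apply Subtype.ext
      have := h1 v
      rw [one_smul] at this
      exact this
    rw [this]
    intro h'
    rw [mul_one, one_mul]
  · have e : ((-r : leechLattice) : GolayPt → ℤ) = (-1 : ℤ) • (r : GolayPt → ℤ) := by
      funext i
      simp
    have h1 := key (-1) (Or.inr rfl) (by rw [h, e])
    have : g = negC := by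
      apply Subtype.ext
      apply Equiv.ext
      intro v
      apply Subtype.ext
      have e2 := h1 v
      rw [negC_apply]
      show ((g • v : leechLattice) : GolayPt → ℤ) = _
      rw [e2]
      funext i
      simp
    rw [this]
    exact fun h => negC_central h

end Lee2

end Cfsg.Agent.H28
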