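import Cfsg.Agent.Lib.H28.GSL4d

set_option autoImplicit false
set_option linter.style.haveILetI false
set_option linter.unusedSectionVars false
set_option linter.unusedSimpArgs false

namespace Cfsg.Agent.H28

open scoped MatrixGroups Matrix commutatorElement Kronecker
open Cfsg Cfsg.Geo

section F4Field

variable {F : Type*} [Field F] [Fintype F] {E : Type*} [Field E] [Fintype E]

lemma card4_two (hF : Fintype.card F = 4) : (2 : F) = 0 := by
  obtain ⟨p, hchar, n, hpp, hn⟩ := FiniteField.card' F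
  rw [hF] at hn
  have hp2 : p = 2 := by
    have h6 : p ∣ 2 ^ 2 := by
      rw [show 2 ^ 2 = 4 by norm_num, hn]
      exact dvd_pow_self p n.pos.ne'
    exact (Nat.prime_dvd_prime_iff_eq hpp Nat.prime_two).1 (hpp.dvd_of_dvd_pow h6)
  subst hp2
  haveI := hchar
  exact_mod_cast CharP.cast_eq_zero F 2

lemma card4_pow (hF : Fintype.card F = 4) (a : F) : a ^ 4 = a := by
  have := FiniteField.pow_card a
  rwa [hF] at this

lemma card4_cube (hF : Fintype.card F = 4) (a : F) (ha : a ≠ 0) : a ^ 3 = 1 := by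
  have := FiniteField.pow_card_sub_one_eq_one a ha
  rw [hF] at this
  simpa using this

lemma card4_exists (hF : Fintype.card F = 4) : ∃ w : F, w ^ 2 + w + 1 = 0 := by
  have h2 : 2 < Fintype.card F := by omega
  obtain ⟨a, b, c, hab, hac, hbc⟩ := Fintype.two_lt_card_iff.1 h2
  have hex : ∃ w : F, w ≠ 0 ∧ w ≠ 1 := by
    by_cases ha0 : a = 0
    · by_cases hb1 : b = 1
      · refine ⟨c, ?_, ?_⟩
        · rw [← ha0]; exact fun h => hac h.symm
        · rw [← hb1]; exact fun h => hbc h.symm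
      · exact ⟨b, by rw [← ha0]; exact fun h => hab h.symm, hb1⟩
    · by_cases ha1 : a = 1
      · by_cases hb0 : b = 0
        · refine ⟨c, ?_, ?_⟩
          · rw [← hb0]; exact fun h => hbc h.symm
          · rw [← ha1]; exact fun h => hac h.symm
        · exact ⟨b, hb0, by rw [← ha1]; exact fun h => hab h.symm⟩
      · exact ⟨a, ha0, ha1⟩
  obtain ⟨w, hw0, hw1⟩ := hex
  refine ⟨w, ?_⟩
  have h3 := card4_cube hF w hw0
  have h4 : (w - 1) * (w ^ 2 + w + 1) = 0 := by linear_combination h3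
  exact (mul_eq_zero.1 h4).resolve_left (sub_ne_zero.2 hw1)

lemma exists_x7 (hE : Fintype.card E = 64) (h2 : (2 : E) = 0) : ∃ x : E, x ^ 3 = x + 1 := by
  classical
  haveI : Fact (Nat.Prime 7) := ⟨by norm_num⟩
  have hc : 7 ∣ Fintype.card Eˣ := by
    rw [Fintype.card_units, hE]
    norm_num
  obtain ⟨u, hu⟩ := exists_prime_orderOf_dvd_card 7 hc
  have h7 : (u : E) ^ 7 = 1 := by
    have := pow_orderOf_eq_one u
    rw [hu] at this
    have h3 := congrArg Units.val this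
    simpa using h3
  have hu1 : (u : E) ≠ 1 := by
    intro h
    have : u = 1 := Units.ext h
    rw [this, orderOf_one] at hu
    omega
  set x : E := (u : E) with hx
  have hneg : ∀ y : E, -y = y := fun y => by linear_combination (-y) * h2
  have hprod : (x - 1) * ((x ^ 3 + x + 1) * (x ^ 3 + x ^ 2 + 1)) = 0 := by
    linear_combination h7 + (x ^ 4 - x ^ 3) * h2
  rcases mul_eq_zero.1 hprod with h | h
  · exact absurd (sub_eq_zero.1 h) hu1
  rcases mul_eq_zero.1 h with h | h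
  · exact ⟨x, by linear_combination h - (x + 1) * h2⟩
  · refine ⟨x ^ 3, ?_⟩
    linear_combination (x ^ 2) * h7 - h + (x ^ 2) * h2

variable {ρ : E →+* Matrix (Fin 3) (Fin 3) F} {emb : F →+* E}

/-- The base vector. -/
def v0 (F : Type*) [Field F] : Fin 3 → F := Pi.single 0 1

lemma v0_ne : v0 F ≠ 0 := by
  intro h
  have := congrFun h 0
  simp [v0] at this

lemma rho_ne {z : E} (hz : z ≠ 0) : ρ z *ᵥ v0 F ≠ 0 := by
  intro h
  apply v0_ne (F := F)
  have h1 : ρ z⁻¹ * ρ z = 1 := by rw [← map_mul, inv_mul_cancel₀ hz, map_one]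
  calc v0 F = (ρ z⁻¹ * ρ z) *ᵥ v0 F := by rw [h1, Matrix.one_mulVec]
    _ = 0 := by rw [← Matrix.mulVec_mulVec, h, Matrix.mulVec_zero]

/-- The matrix with columns given by powers of an element. -/
noncomputable def Bmat (ρ : E →+* Matrix (Fin 3) (Fin 3) F) (w : E) : Matrix (Fin 3) (Fin 3) F :=
  Matrix.of fun i j => (ρ (w ^ (j : ℕ)) *ᵥ v0 F) i

lemma Bmat_mulVec (hemb : ∀ a, ρ (emb a) = a • (1 : Matrix (Fin 3) (Fin 3) F)) (w : E) (a : Fin 3 → F) :
    Bmat ρ w *ᵥ a = ρ (emb (a 0) + emb (a 1) * w + emb (a 2) * w ^ 2) *ᵥ v0 F := by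
  funext i
  simp only [map_add, map_mul, hemb, Matrix.add_mulVec, Matrix.smul_mul, one_mul, Matrix.smul_mulVec,
    Pi.add_apply, Pi.smul_apply, smul_eq_mul]
  simp only [Matrix.mulVec, dotProduct, Bmat, Matrix.of_apply, Fin.sum_univ_three, map_pow]
  simp [Matrix.one_apply, v0]
  ring

lemma Bmat_aux (hemb : ∀ a, ρ (emb a) = a • (1 : Matrix (Fin 3) (Fin 3) F)) {w : E}
    (hind : ∀ a b c : F, emb a + emb b * w + emb c * w ^ 2 = 0 → a = 0 ∧ b = 0 ∧ c = 0) {a : Fin 3 → F}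
    (ha' : Bmat ρ w *ᵥ a = 0) : a = 0 := by
  rw [Bmat_mulVec hemb] at ha'
  by_contra hne
  have h0 : emb (a 0) + emb (a 1) * w + emb (a 2) * w ^ 2 = 0 := by
    by_contra h
    exact rho_ne h ha'
  obtain ⟨h1, h2, h3⟩ := hind _ _ _ h0
  apply hne
  funext i
  fin_cases i
  · exact h1
  · exact h2
  · exact h3

lemma Bmat_unit (hemb : ∀ a, ρ (emb a) = a • (1 : Matrix (Fin 3) (Fin 3) F)) {w : E}
    (hind : ∀ a b c : F, emb a + emb b * w + emb c * w ^ 2 = 0 → a = 0 ∧ b = 0 ∧ c = 0) :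
    IsUnit (Bmat ρ w) := by
  have hinj : Function.Injective (Bmat ρ w).mulVecLin := by
    rw [injective_iff_map_eq_zero]
    intro a ha
    have ha' : Bmat ρ w *ᵥ a = 0 := ha
    exact Bmat_aux hemb hind ha'
  exact Matrix.mulVec_injective_iff_isUnit.1 hinj

/-- The determinant of an element of the field whose cube lies in the base field. -/
lemma det_of_cube (hemb : ∀ a, ρ (emb a) = a • (1 : Matrix (Fin 3) (Fin 3) F)) {w : E} {ε : F} (hw : w ^ 3 = emb ε)
    (hind : ∀ a b c : F, emb a + emb b * w + emb c * w ^ 2 = 0 → a = 0 ∧ b = 0 ∧ c = 0) :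
    (ρ w).det = ε := by
  have hu := Bmat_unit hemb hind
  let C : Matrix (Fin 3) (Fin 3) F := !![0, 0, ε; 1, 0, 0; 0, 1, 0]
  have hrel : ρ w * Bmat ρ w = Bmat ρ w * C := by
    ext i j
    have h1 : ∀ k : ℕ, (ρ w * Matrix.of fun i j : Fin 3 => (ρ (w ^ (j : ℕ)) *ᵥ v0 F) i) i j =
        (ρ (w ^ ((j : ℕ) + 1)) *ᵥ v0 F) i := by
      intro _
      rw [pow_succ', map_mul, ← Matrix.mulVec_mulVec]
      simp only [Matrix.mul_apply, Matrix.mulVec, dotProduct, Matrix.of_apply]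
    have h1' := h1 0
    change (ρ w * Bmat ρ w) i j = _ at h1'
    rw [h1']
    simp only [Matrix.mul_apply, Fin.sum_univ_three, Bmat, Matrix.of_apply, C]
    fin_cases j
    · simp
    · simp
    · simp only [Fin.reduceFinMk, Fin.isValue, Matrix.of_apply, Matrix.cons_val]
      have e3 : (2 : ℕ) + 1 = 3 := rfl
      simp [hw, hemb, Matrix.smul_mulVec, mul_comm]
  have hdet := congrArg Matrix.det hrel
  rw [Matrix.det_mul, Matrix.det_mul] at hdet
  have hd0 : (Bmat ρ w).det ≠ 0 := ((Matrix.isUnit_iff_isUnit_det _).1 hu).ne_zero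
  have hC : C.det = ε := by
    simp [C, Matrix.det_fin_three]
  rw [hC, mul_comm (Bmat ρ w).det] at hdet
  exact mul_right_cancel₀ hd0 hdet

lemma two_E (hF : Fintype.card F = 4) (emb : F →+* E) : (2 : E) = 0 := by
  calc (2 : E) = emb 2 := (map_ofNat emb 2).symm
    _ = emb 0 := by rw [card4_two hF]
    _ = 0 := map_zero emb

lemma cube_root_in (hF : Fintype.card F = 4) (emb : F →+* E) {c : E} (hc : c ^ 3 = 1) : ∃ γ : F, c = emb γ := by
  obtain ⟨w, hw⟩ := card4_exists hF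
  have h2 := card4_two hF
  have hw3 : w ^ 3 = 1 := by linear_combination (w - 1) * hw
  have hE : emb w ^ 2 + emb w + 1 = 0 := by
    have := congrArg emb hw
    simpa using this
  have hE3 : emb w ^ 3 = 1 := by
    have := congrArg emb hw3
    simpa using this
  have hprod : (c - 1) * ((c - emb w) * (c - emb w ^ 2)) = 0 := by
    linear_combination hc + (-c ^ 2 + c) * hE + (c - 1) * hE3
  rcases mul_eq_zero.1 hprod with h | h
  · exact ⟨1, by rw [map_one]; exact sub_eq_zero.1 h⟩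
  rcases mul_eq_zero.1 h with h | h
  · exact ⟨w, sub_eq_zero.1 h⟩
  · exact ⟨w ^ 2, by rw [map_pow]; exact sub_eq_zero.1 h⟩

lemma ind_of_not_quad {w : E} (hW : ∀ t : F, w ≠ emb t) (hq : ∀ α β : F, w ^ 2 ≠ emb β * w + emb α) :
    ∀ a b c : F, emb a + emb b * w + emb c * w ^ 2 = 0 → a = 0 ∧ b = 0 ∧ c = 0 := by
  intro a b c h
  have hinj : Function.Injective emb := emb.injective
  have hc : c = 0 := by
    by_contra hc
    apply hq (-a / c) (-b / c)
    have hc' : emb c ≠ 0 := (map_ne_zero emb).2 hc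
    simp only [map_div₀, map_neg]
    field_simp
    linear_combination h
  subst hc
  have hb : b = 0 := by
    by_contra hb
    apply hW (-a / b)
    have hb' : emb b ≠ 0 := (map_ne_zero emb).2 hb
    simp only [map_div₀, map_neg]
    field_simp
    simp only [map_zero, zero_mul, add_zero] at h
    linear_combination h
  subst hb
  refine ⟨?_, rfl, rfl⟩
  simp only [map_zero, zero_mul, add_zero] at h
  exact (map_eq_zero emb).1 h

lemma not_in_of_x (hF : Fintype.card F = 4) {x : E} (hx : x ^ 3 = x + 1) (t : F) : x ≠ emb t := by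
  intro h
  by_cases ht : t = 0
  · rw [h, ht, map_zero] at hx
    simp at hx
  · have h3 := card4_cube hF t ht
    have h4 : emb t ^ 3 = 1 := by
      have := congrArg emb h3
      simpa using this
    rw [h, h4] at hx
    have h5 : emb t = 0 := by linear_combination -hx
    exact ht ((map_eq_zero emb).1 h5)

lemma ind_of_x (hF : Fintype.card F = 4) {x : E} (hx : x ^ 3 = x + 1) :
    ∀ a b c : F, emb a + emb b * x + emb c * x ^ 2 = 0 → a = 0 ∧ b = 0 ∧ c = 0 := by
  have hW := not_in_of_x (emb := emb) hF hx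
  have h2F := card4_two hF
  refine ind_of_not_quad hW fun α β hq => ?_
  have h1 : emb (β ^ 2 + α - 1) * x = emb (1 - α * β) := by
    simp only [map_add, map_sub, map_mul, map_pow, map_one]
    linear_combination hx - x * hq - (emb β) * hq
  by_cases h3 : β ^ 2 + α - 1 = 0
  · rw [h3, map_zero, zero_mul] at h1
    have h4 : 1 - α * β = 0 := ((map_eq_zero emb).1 h1.symm)
    have h5 : β ^ 3 + β + 1 = 0 := by
      have h6 : α = 1 - β ^ 2 := by linear_combination h3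
      rw [h6] at h4
      linear_combination h4 + β * h2F
    by_cases hβ : β = 0
    · rw [hβ] at h5
      simp at h5
    · have h7 := card4_cube hF β hβ
      rw [h7] at h5
      apply hβ
      linear_combination h5 - h2F
  · apply hW ((1 - α * β) / (β ^ 2 + α - 1))
    have h3' : emb (β ^ 2 + α - 1) ≠ 0 := (map_ne_zero emb).2 h3
    rw [map_div₀, eq_div_iff h3', mul_comm]
    exact h1

/-- The norm of an element of determinant one. -/
lemma det_one_pow (hF : Fintype.card F = 4) (hE : Fintype.card E = 64)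
    (hemb : ∀ a, ρ (emb a) = a • (1 : Matrix (Fin 3) (Fin 3) F)) {k : E} (hk : k ≠ 0) (hdet : (ρ k).det = 1) :
    k ^ 21 = 1 := by
  have h2F := card4_two hF
  have h63 : k ^ 63 = 1 := by
    have := FiniteField.pow_card_sub_one_eq_one k hk
    rw [hE] at this
    simpa using this
  by_contra hne
  set w := k ^ 7 with hw
  have hc3 : (w ^ 3) ^ 3 = 1 := by
    rw [hw, ← pow_mul, ← pow_mul]
    exact h63
  obtain ⟨ε, hε⟩ := cube_root_in hF emb hc3
  have hw21 : w ^ 3 = k ^ 21 := by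
    rw [hw, ← pow_mul]
  have hε1 : ε ≠ 1 := by
    rintro rfl
    apply hne
    rw [← hw21, hε, map_one]
  have hε0 : ε ≠ 0 := by
    rintro rfl
    rw [hw21, map_zero] at hε
    exact pow_ne_zero _ hk hε
  have hW : ∀ t : F, w ≠ emb t := by
    intro t ht
    have h3 : (emb t) ^ 3 = emb ε := by rw [← ht, hε]
    by_cases ht0 : t = 0
    · rw [ht0, map_zero, zero_pow (by norm_num)] at h3
      exact hε0 ((map_eq_zero emb).1 h3.symm)
    · have h7 := card4_cube hF t ht0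
      rw [← map_pow, h7] at h3
      exact hε1 (emb.injective h3).symm
  have hind : ∀ a b c : F, emb a + emb b * w + emb c * w ^ 2 = 0 → a = 0 ∧ b = 0 ∧ c = 0 := by
    refine ind_of_not_quad hW fun α β hq => ?_
    have h1 : emb (β ^ 2 + α) * w = emb (ε - α * β) := by
      simp only [map_add, map_sub, map_mul, map_pow]
      linear_combination hε - w * hq - (emb β) * hq
    by_cases h3 : β ^ 2 + α = 0
    · rw [h3, map_zero, zero_mul] at h1
      have h4 : ε - α * β = 0 := ((map_eq_zero emb).1 h1.symm)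
      have h5 : ε = β ^ 3 := by
        have h6 : α = -β ^ 2 := by linear_combination h3
        rw [h6] at h4
        linear_combination h4 + (-β ^ 3) * h2F
      by_cases hβ : β = 0
      · rw [hβ] at h5
        simp at h5
        exact hε0 h5
      · rw [card4_cube hF β hβ] at h5
        exact hε1 h5
    · apply hW ((ε - α * β) / (β ^ 2 + α))
      have h3' : emb (β ^ 2 + α) ≠ 0 := (map_ne_zero emb).2 h3
      rw [map_div₀, eq_div_iff h3', mul_comm]
      exact h1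
  have hd := det_of_cube hemb hε hind
  rw [hw, map_pow, Matrix.det_pow, hdet, one_pow] at hd
  exact hε1 hd.symm

/-- The elements of the subfield with eight elements. -/
lemma sub8 (hF : Fintype.card F = 4) {x z : E} (hx : x ^ 3 = x + 1) (hz : z ^ 8 = z) :
    ∃ a b c : F, a ^ 2 = a ∧ b ^ 2 = b ∧ c ^ 2 = c ∧ z = emb a + emb b * x + emb c * x ^ 2 := by
  have h2 := two_E hF emb
  have hx4 : x ^ 4 = x ^ 2 + x := by linear_combination x * hx
  have hx5 : x ^ 5 = x ^ 2 + x + 1 := by linear_combination x * hx4 + hx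
  have hA : (z + x) * ((z + x ^ 2) * (z + x ^ 2 + x)) = z ^ 3 + z + 1 := by
    linear_combination z * 3 * hx + z * hx4 + hx5 + hx4 + (z ^ 2 * (x + x ^ 2) + z * (x ^ 2 + 2 * x + 1) + (x ^ 2 + x)) * h2
  have hB : (z + x + 1) * ((z + x ^ 2 + 1) * (z + x ^ 2 + x + 1)) = z ^ 3 + z ^ 2 + 1 := by
    linear_combination (x ^ 2 + x + 1) * z ^ 2 * h2 + z * (hx4 + 3 * hx) + z * (3 * x ^ 2 + 4 * x + 3) * h2 + hx5 + 2 * hx4 +
      3 * hx + (3 * x ^ 2 + 4 * x + 2) * h2
  have hprod : z * ((z + 1) * ((z ^ 3 + z + 1) * (z ^ 3 + z ^ 2 + 1))) = 0 := by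
    linear_combination hz + (z ^ 7 + z ^ 6 + 2 * z ^ 5 + 2 * z ^ 4 + z ^ 3 + z ^ 2 + z) * h2
  have h0 : (0 : F) ^ 2 = 0 := by norm_num
  have h1 : (1 : F) ^ 2 = 1 := by norm_num
  rcases mul_eq_zero.1 hprod with h | h
  · exact ⟨0, 0, 0, h0, h0, h0, by simp [h]⟩
  rcases mul_eq_zero.1 h with h | h
  · refine ⟨1, 0, 0, h1, h0, h0, ?_⟩
    simp only [map_zero, map_one]
    linear_combination h - h2
  rcases mul_eq_zero.1 h with h | h
  · rw [← hA] at h
    rcases mul_eq_zero.1 h with h | h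
    · refine ⟨0, 1, 0, h0, h1, h0, ?_⟩
      simp only [map_zero, map_one]
      linear_combination h - x * h2
    rcases mul_eq_zero.1 h with h | h
    · refine ⟨0, 0, 1, h0, h0, h1, ?_⟩
      simp only [map_zero, map_one]
      linear_combination h - x ^ 2 * h2
    · refine ⟨0, 1, 1, h0, h1, h1, ?_⟩
      simp only [map_zero, map_one]
      linear_combination h - (x ^ 2 + x) * h2
  · rw [← hB] at h
    rcases mul_eq_zero.1 h with h | h
    · refine ⟨1, 1, 0, h1, h1, h0, ?_⟩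
      simp only [map_zero, map_one]
      linear_combination h - (x + 1) * h2
    rcases mul_eq_zero.1 h with h | h
    · refine ⟨1, 0, 1, h1, h0, h1, ?_⟩
      simp only [map_zero, map_one]
      linear_combination h - (x ^ 2 + 1) * h2
    · refine ⟨1, 1, 1, h1, h1, h1, ?_⟩
      simp only [map_zero, map_one]
      linear_combination h - (x ^ 2 + x + 1) * h2

lemma det_sq_of_entries (hF : Fintype.card F = 4) (A : Matrix (Fin 3) (Fin 3) F) (hA : ∀ i j, (A i j) ^ 2 = A i j) :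
    A.det ^ 2 = A.det := by
  obtain ⟨p, hchar, n, hpp, hn⟩ := FiniteField.card' F
  rw [hF] at hn
  have hp2 : p = 2 := by
    have h6 : p ∣ 2 ^ 2 := by
      rw [show 2 ^ 2 = 4 by norm_num, hn]
      exact dvd_pow_self p n.pos.ne'
    exact (Nat.prime_dvd_prime_iff_eq hpp Nat.prime_two).1 (hpp.dvd_of_dvd_pow h6)
  subst hp2
  haveI := hchar
  haveI : Fact (Nat.Prime 2) := ⟨Nat.prime_two⟩
  have h1 := RingHom.map_det (frobenius F 2) A
  rw [frobenius_def] at h1
  rw [h1]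
  congr 1
  ext i j
  simp only [RingHom.mapMatrix_apply, Matrix.map_apply, frobenius_def]
  exact hA i j

lemma pow8_of_rel (h2 : (2 : E) = 0) {y : E} (hy : y ^ 3 = y + 1) : y ^ 8 = y := by
  have h4 : y ^ 4 = y ^ 2 + y := by linear_combination y * hy
  have h8 : y ^ 8 = (y ^ 4) ^ 2 := by ring
  rw [h8, h4]
  linear_combination h4 + (y ^ 3 + y ^ 2) * h2

/-- Normalisers of a cubic field extension over the field with four elements are rational over the prime field. -/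
theorem rational_e (hF : Fintype.card F = 4) (hE : Fintype.card E = 64)
    (hemb : ∀ a, ρ (emb a) = a • (1 : Matrix (Fin 3) (Fin 3) F)) :
    ∃ P : GL (Fin 3) F, ∀ g : GL (Fin 3) F, (g : Matrix (Fin 3) (Fin 3) F).det = 1 →
      (∀ z : E, ∃ z' : E, (g : Matrix (Fin 3) (Fin 3) F) * ρ z * ((g⁻¹ : GL (Fin 3) F) : Matrix (Fin 3) (Fin 3) F) = ρ z') →
      ∃ μ : Fˣ, ∀ i j, ((μ : F) * (((P⁻¹ : GL (Fin 3) F) : Matrix (Fin 3) (Fin 3) F) * (g : Matrix (Fin 3) (Fin 3) F) *
        (P : Matrix (Fin 3) (Fin 3) F)) i j) ^ 2 =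
        (μ : F) * (((P⁻¹ : GL (Fin 3) F) : Matrix (Fin 3) (Fin 3) F) * (g : Matrix (Fin 3) (Fin 3) F) *
        (P : Matrix (Fin 3) (Fin 3) F)) i j := by
  have h2E := two_E hF emb
  obtain ⟨x, hx⟩ := exists_x7 hE h2E
  have hind := ind_of_x (emb := emb) hF hx
  have hu := Bmat_unit hemb hind
  have hinjρ : Function.Injective ρ := ρ.injective
  let P : GL (Fin 3) F := hu.unit
  have hPval : (P : Matrix (Fin 3) (Fin 3) F) = Bmat ρ x := IsUnit.unit_spec hu
  have hPv : ∀ a : Fin 3 → F, (P : Matrix (Fin 3) (Fin 3) F) *ᵥ a =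
      ρ (emb (a 0) + emb (a 1) * x + emb (a 2) * x ^ 2) *ᵥ v0 F := by
    intro a
    rw [hPval]
    exact Bmat_mulVec hemb x a
  have hPcol : ∀ j : Fin 3, (P : Matrix (Fin 3) (Fin 3) F) *ᵥ (Pi.single j 1) = ρ (x ^ (j : ℕ)) *ᵥ v0 F := by
    intro j
    rw [hPval, Matrix.mulVec_single_one]
    funext i
    simp [Bmat]
  have hsurj : ∀ v : Fin 3 → F, ∃ z : E, v = ρ z *ᵥ v0 F := by
    intro v
    set a : Fin 3 → F := ((P⁻¹ : GL (Fin 3) F) : Matrix (Fin 3) (Fin 3) F) *ᵥ v with ha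
    refine ⟨emb (a 0) + emb (a 1) * x + emb (a 2) * x ^ 2, ?_⟩
    rw [← hPv, ha, mul_inv_mulVec]
  have hcoords : ∀ w : E, w ^ 8 = w → ∃ a : Fin 3 → F, (∀ i, (a i) ^ 2 = a i) ∧
      ρ w *ᵥ v0 F = (P : Matrix (Fin 3) (Fin 3) F) *ᵥ a := by
    intro w hw
    obtain ⟨a, b, c, ha, hb, hc, hz⟩ := sub8 (emb := emb) hF hx hw
    refine ⟨![a, b, c], ?_, ?_⟩
    · intro i
      fin_cases i
      · exact ha
      · exact hb
      · exact hc
    · rw [hPv, hz]
      simp
  have hent : ∀ M : Matrix (Fin 3) (Fin 3) F, (∀ j : Fin 3, ∃ w : E, w ^ 8 = w ∧ M *ᵥ (ρ (x ^ (j : ℕ)) *ᵥ v0 F) = ρ w *ᵥ v0 F) →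
      ∀ i j, ((((P⁻¹ : GL (Fin 3) F) : Matrix (Fin 3) (Fin 3) F) * M * (P : Matrix (Fin 3) (Fin 3) F)) i j) ^ 2 =
        (((P⁻¹ : GL (Fin 3) F) : Matrix (Fin 3) (Fin 3) F) * M * (P : Matrix (Fin 3) (Fin 3) F)) i j := by
    intro M hM i j
    obtain ⟨w, hw, hMw⟩ := hM j
    obtain ⟨a, ha, hwa⟩ := hcoords w hw
    have h1 : (((P⁻¹ : GL (Fin 3) F) : Matrix (Fin 3) (Fin 3) F) * M * (P : Matrix (Fin 3) (Fin 3) F)) i j = a i := by
      have e1 : (((P⁻¹ : GL (Fin 3) F) : Matrix (Fin 3) (Fin 3) F) * M * (P : Matrix (Fin 3) (Fin 3) F)) i j =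
          ((((P⁻¹ : GL (Fin 3) F) : Matrix (Fin 3) (Fin 3) F) * M * (P : Matrix (Fin 3) (Fin 3) F)) *ᵥ Pi.single j 1) i := by
        rw [Matrix.mulVec_single_one]
        rfl
      rw [e1, ← Matrix.mulVec_mulVec, ← Matrix.mulVec_mulVec, hPcol, hMw, hwa, inv_mul_mulVec]
    rw [h1]
    exact ha i
  refine ⟨P, fun g hdet hnorm => ?_⟩
  choose τ hτ using hnorm
  have hgiv : ((g⁻¹ : GL (Fin 3) F) : Matrix (Fin 3) (Fin 3) F) * (g : Matrix (Fin 3) (Fin 3) F) = 1 := inv_val_one_val g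
  have hrel : ∀ z, (g : Matrix (Fin 3) (Fin 3) F) * ρ z = ρ (τ z) * (g : Matrix (Fin 3) (Fin 3) F) := by
    intro z
    rw [← hτ, mul_assoc _ _ (g : Matrix (Fin 3) (Fin 3) F), hgiv, mul_one]
  set y := τ x with hy
  have hpow : ∀ j : ℕ, (g : Matrix (Fin 3) (Fin 3) F) * ρ (x ^ j) = ρ (y ^ j) * (g : Matrix (Fin 3) (Fin 3) F) := by
    intro j
    induction j with
    | zero => simp
    | succ n ih =>
      rw [pow_succ, map_mul, ← mul_assoc, ih, mul_assoc, hrel x, ← mul_assoc, pow_succ, map_mul]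
  have hy3 : y ^ 3 = y + 1 := by
    apply hinjρ
    have h1 : ρ (y ^ 3) * (g : Matrix (Fin 3) (Fin 3) F) = ρ (y + 1) * (g : Matrix (Fin 3) (Fin 3) F) := by
      rw [← hpow 3, hx, map_add, map_add, map_one, mul_add, add_mul, hrel x, mul_one, one_mul]
    have h2 := congrArg (· * ((g⁻¹ : GL (Fin 3) F) : Matrix (Fin 3) (Fin 3) F)) h1
    simpa [mul_assoc, one_val_inv_val] using h2
  have hy8 := pow8_of_rel h2E hy3
  have hpow8 : ∀ j : ℕ, (y ^ j) ^ 8 = y ^ j := by
    intro j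
    rw [← pow_mul, mul_comm, pow_mul, hy8]
  obtain ⟨k₀, hk₀⟩ := hsurj ((g : Matrix (Fin 3) (Fin 3) F) *ᵥ v0 F)
  have hk0 : k₀ ≠ 0 := by
    rintro rfl
    rw [map_zero, Matrix.zero_mulVec] at hk₀
    apply v0_ne (F := F)
    have h1 := inv_mul_mulVec g (v0 F)
    rw [hk₀, Matrix.mulVec_zero] at h1
    exact h1.symm
  have hgx : ∀ j : ℕ, (g : Matrix (Fin 3) (Fin 3) F) *ᵥ (ρ (x ^ j) *ᵥ v0 F) = ρ (y ^ j * k₀) *ᵥ v0 F := by
    intro j
    rw [Matrix.mulVec_mulVec, hpow, ← Matrix.mulVec_mulVec, hk₀, Matrix.mulVec_mulVec, map_mul]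
  have hinv1 : ρ k₀⁻¹ * ρ k₀ = 1 := by rw [← map_mul, inv_mul_cancel₀ hk0, map_one]
  -- the determinant
  have hdetk : (ρ k₀).det = 1 := by
    set T : Matrix (Fin 3) (Fin 3) F := ρ k₀⁻¹ * (g : Matrix (Fin 3) (Fin 3) F) with hT
    have hTv : ∀ j : Fin 3, ∃ w : E, w ^ 8 = w ∧ T *ᵥ (ρ (x ^ (j : ℕ)) *ᵥ v0 F) = ρ w *ᵥ v0 F := by
      intro j
      refine ⟨y ^ (j : ℕ), hpow8 _, ?_⟩
      rw [hT, ← Matrix.mulVec_mulVec, hgx, Matrix.mulVec_mulVec, ← map_mul]
      congr 2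
      field_simp
    have hA := hent T hTv
    have hsq := det_sq_of_entries hF _ hA
    have hd : (((P⁻¹ : GL (Fin 3) F) : Matrix (Fin 3) (Fin 3) F) * T * (P : Matrix (Fin 3) (Fin 3) F)).det = T.det := by
      rw [Matrix.det_mul, Matrix.det_mul, mul_comm (Matrix.det _) T.det, mul_assoc, ← Matrix.det_mul, inv_val_one_val,
        Matrix.det_one, mul_one]
    rw [hd] at hsq
    have hTd : T.det = (ρ k₀⁻¹).det := by
      rw [hT, Matrix.det_mul, hdet, mul_one]
    have hprod : (ρ k₀⁻¹).det * (ρ k₀).det = 1 := by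
      rw [← Matrix.det_mul, hinv1, Matrix.det_one]
    rw [hTd] at hsq
    have hne : (ρ k₀⁻¹).det ≠ 0 := left_ne_zero_of_mul_eq_one hprod
    have h1 : (ρ k₀⁻¹).det = 1 := by
      have h3 : (ρ k₀⁻¹).det * ((ρ k₀⁻¹).det - 1) = 0 := by linear_combination hsq
      exact sub_eq_zero.1 ((mul_eq_zero.1 h3).resolve_left hne)
    rw [h1, one_mul] at hprod
    exact hprod
  have h21 := det_one_pow hF hE hemb hk0 hdetk
  have hc3 : (k₀ ^ 7) ^ 3 = 1 := by
    rw [← pow_mul]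
    exact h21
  obtain ⟨γ, hγ⟩ := cube_root_in hF emb hc3
  have hγ0 : γ ≠ 0 := by
    rintro rfl
    rw [map_zero] at hγ
    exact pow_ne_zero _ hk0 hγ
  have hf8 : (k₀ ^ 15) ^ 8 = k₀ ^ 15 := by
    have e : (k₀ ^ 15) ^ 8 = k₀ ^ 15 * (k₀ ^ 21) ^ 5 := by ring
    rw [e, h21, one_pow, mul_one]
  have hk₀eq : k₀ = emb γ * k₀ ^ 15 := by
    rw [← hγ]
    have e : k₀ ^ 7 * k₀ ^ 15 = k₀ * k₀ ^ 21 := by ring
    rw [e, h21, mul_one]
  refine ⟨Units.mk0 γ⁻¹ (inv_ne_zero hγ0), fun i j => ?_⟩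
  simp only [Units.val_mk0]
  have hγi : γ⁻¹ * γ = 1 := inv_mul_cancel₀ hγ0
  have hM : ∀ j : Fin 3, ∃ w : E, w ^ 8 = w ∧ (γ⁻¹ • (g : Matrix (Fin 3) (Fin 3) F)) *ᵥ (ρ (x ^ (j : ℕ)) *ᵥ v0 F) = ρ w *ᵥ v0 F := by
    intro j
    refine ⟨y ^ (j : ℕ) * k₀ ^ 15, ?_, ?_⟩
    · rw [mul_pow, hpow8, hf8]
    · rw [Matrix.smul_mulVec, hgx]
      conv_lhs => rw [hk₀eq]
      have e : y ^ (j : ℕ) * (emb γ * k₀ ^ 15) = emb γ * (y ^ (j : ℕ) * k₀ ^ 15) := by ring
      rw [e, map_mul, hemb, Matrix.smul_mul, one_mul, Matrix.smul_mulVec, smul_smul, hγi, one_smul]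
  have h1 := hent _ hM i j
  have e : (((P⁻¹ : GL (Fin 3) F) : Matrix (Fin 3) (Fin 3) F) * (γ⁻¹ • (g : Matrix (Fin 3) (Fin 3) F)) * (P : Matrix (Fin 3) (Fin 3) F)) i j =
      γ⁻¹ * (((P⁻¹ : GL (Fin 3) F) : Matrix (Fin 3) (Fin 3) F) * (g : Matrix (Fin 3) (Fin 3) F) * (P : Matrix (Fin 3) (Fin 3) F)) i j := by
    rw [Matrix.mul_smul, Matrix.smul_mul]
    rfl
  rw [e] at h1
  exact h1

end F4Field

end Cfsg.Agent.H28
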