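import Cfsg.Agent.Lib.H28.GSL3a

set_option autoImplicit false
set_option linter.style.haveILetI false
set_option linter.unusedSectionVars false
set_option linter.unusedSimpArgs false

namespace Cfsg.Agent.H28

open scoped MatrixGroups Matrix commutatorElement Kronecker
open Cfsg Cfsg.Geo

section SL3Main

variable {F : Type*} [Field F] [Fintype F]

/-- Over the field with four elements, the normaliser of a cubic field lies in a subfield group. -/
theorem field_q4 (hF : Fintype.card F = 4) {K : Subalgebra F (Matrix (Fin 3) (Fin 3) F)} (hK : IsFieldSubalgebra 3 K)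
    {H : Subgroup (GL (Fin 3) F)} (hH : IsMaximalIn (specialLinear (Fin 3) F) H)
    (hE : H = subalgebraNormalizer K ⊓ specialLinear (Fin 3) F) :
    ∃ (F₀ : Subfield F) (r : ℕ) (P : GL (Fin 3) F), r.Prime ∧ Fintype.card F = Nat.card F₀ ^ r ∧
      H = subfieldSubgroup F₀ P ⊓ specialLinear (Fin 3) F := by
  classical
  obtain ⟨p, hchar, n, hpp, hn⟩ := FiniteField.card' F
  have hp2 : p = 2 := by
    rw [hF] at hn
    have h6 : p ∣ 2 ^ 2 := by
      rw [show 2 ^ 2 = 4 by norm_num, hn]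
      exact dvd_pow_self p n.pos.ne'
    exact (Nat.prime_dvd_prime_iff_eq hpp Nat.prime_two).1 (hpp.dvd_of_dvd_pow h6)
  subst hp2
  haveI := hchar
  haveI : Fact (Nat.Prime 2) := ⟨Nat.prime_two⟩
  have hcard4 : Fintype.card F = 2 ^ 2 := by rw [hF]; norm_num
  have hcard4' : Fintype.card F = (2 ^ 1) ^ 2 := by rw [hF]; norm_num
  have hF₀ := card_fixedSub (F := F) 2 1 2 (by norm_num) (by norm_num) hcard4'
  have hne := fixedSub_ne_top (F := F) 2 1 2 (by norm_num) (by norm_num) hcard4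
  have hIF : IsField K :=
    { exists_pair_ne := ⟨0, 1, zero_ne_one⟩
      mul_comm := fun a b => Subtype.ext (hK.comm a a.2 b b.2)
      mul_inv_cancel := fun {a} ha => by
        obtain ⟨y, hy, hxy⟩ := hK.inv a a.2 (fun h => ha (Subtype.ext h))
        exact ⟨⟨y, hy⟩, Subtype.ext hxy⟩ }
  letI : Field K := hIF.toField
  haveI : Fintype K := Fintype.ofFinite K
  have hcardK : Fintype.card K = 64 := by
    have h1 := Module.natCard_eq_pow_finrank (K := F) (V := K)
    rw [hK.finrank_eq, Nat.card_eq_fintype_card, Nat.card_eq_fintype_card, hF] at h1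
    rw [h1]
    norm_num
  let ρ : K →+* Matrix (Fin 3) (Fin 3) F :=
    { toFun := Subtype.val
      map_one' := rfl
      map_mul' := fun _ _ => rfl
      map_zero' := rfl
      map_add' := fun _ _ => rfl }
  let emb : F →+* K :=
    { toFun := fun a => ⟨algebraMap F (Matrix (Fin 3) (Fin 3) F) a, K.algebraMap_mem a⟩
      map_one' := Subtype.ext (map_one _)
      map_mul' := fun a b => Subtype.ext (map_mul _ a b)
      map_zero' := Subtype.ext (map_zero _)
      map_add' := fun a b => Subtype.ext (map_add _ a b) }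
  have hemb : ∀ a, ρ (emb a) = a • (1 : Matrix (Fin 3) (Fin 3) F) := fun a => Algebra.algebraMap_eq_smul_one a
  obtain ⟨P, hP⟩ := rational_e (ρ := ρ) (emb := emb) hF hcardK hemb
  have hle : H ≤ subfieldSubgroup (fixedSub F 2 1) P := by
    intro g hg
    rw [hE] at hg
    obtain ⟨hgN, hgS⟩ := hg
    have hdet : (g : Matrix (Fin 3) (Fin 3) F).det = 1 := by
      have h5 : (Matrix.GeneralLinearGroup.det g : Fˣ) = 1 := hgS
      have := congrArg Units.val h5
      simpa using this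
    obtain ⟨μ, hμ⟩ := hP g hdet (fun z => ⟨⟨_, (hgN z.1).1 z.2⟩, rfl⟩)
    refine mem_subfieldSubgroup.2 ⟨μ, fun i j => (mem_fixedSub 2 1).2 ?_⟩
    rw [pow_one]
    exact hμ i j
  refine ⟨fixedSub F 2 1, 2, P, Nat.prime_two, ?_, eq_inf_of_max hH hle (not_sl_le_subfield hne P (by simp))⟩
  rw [hF₀, hF]
  norm_num

/-- The clauses of the statement on maximal subgroups of the special linear group in dimension three. -/
def SL3Concl (H : Subgroup (GL (Fin 3) F)) : Prop :=
    (∃ W : Submodule F (Fin 3 → F), W ≠ ⊥ ∧ W ≠ ⊤ ∧ H = subspaceStabilizer W ⊓ specialLinear (Fin 3) F) ∨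
    (5 ≤ Fintype.card F ∧ ∃ D : Fin 3 → Submodule F (Fin 3 → F), IsMDecomposition 1 D ∧ H = decompositionStabilizer D ⊓ specialLinear (Fin 3) F) ∨
    (Fintype.card F ≠ 4 ∧ ∃ K : Subalgebra F (Matrix (Fin 3) (Fin 3) F), IsFieldSubalgebra 3 K ∧ H = subalgebraNormalizer K ⊓ specialLinear (Fin 3) F) ∨
    (∃ (F₀ : Subfield F) (r : ℕ) (P : GL (Fin 3) F), r.Prime ∧ Fintype.card F = Nat.card F₀ ^ r ∧ H = subfieldSubgroup F₀ P ⊓ specialLinear (Fin 3) F) ∨
    (∃ (p : ℕ) (R : Subgroup (GL (Fin 3) F)), p.Prime ∧ Fintype.card F = p ∧ p % 3 = 1 ∧ IsLinearSymplecticTypeData 3 R ∧ H = subgroupNormalizer R ⊓ specialLinear (Fin 3) F) ∨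
    (Odd (Fintype.card F) ∧ ∃ Q : (Fin 3 → F) → F, IsNondegenerateQuadraticForm Q ∧ H = quadSimilarityGroup Q ⊓ specialLinear (Fin 3) F) ∨
    (∃ (σ : F ≃+* F) (f : (Fin 3 → F) → (Fin 3 → F) → F), IsUnitaryForm σ f ∧ H = similarityGroup f ⊓ specialLinear (Fin 3) F) ∨
    InLinearResidualClass H

lemma residue_three {p e : ℕ} (hodd : Odd e) (hne : 3 ≠ p) (hmin : IsMinimalFieldFor 3 p e F) :
    p.Prime ∧ Fintype.card F = p ∧ p % 3 = 1 := by
  obtain ⟨hp, hchar, hcard, hdvd, hd⟩ := hmin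
  have hp3 : p % 3 ≠ 0 := by
    intro h
    exact hne ((Nat.prime_dvd_prime_iff_eq Nat.prime_three hp).1 (Nat.dvd_of_mod_eq_zero h))
  have hsq : 3 ∣ p ^ 2 - 1 := by
    have h1 : p ^ 2 % 3 = 1 := by
      rw [Nat.pow_mod]
      have : p % 3 = 1 ∨ p % 3 = 2 := by omega
      rcases this with h | h <;> rw [h]
    have h2 : 1 ≤ p ^ 2 := Nat.one_le_pow _ _ hp.pos
    omega
  have he1 : e = 1 := by
    by_contra hne1
    obtain ⟨c, hc⟩ := hodd
    have he3 : 2 < e := by omega
    exact hd 2 (by norm_num) he3 hsq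
  subst he1
  rw [pow_one] at hcard hdvd
  refine ⟨hp, hcard, ?_⟩
  have := hp.two_le
  omega

/-- The classification of maximal subgroups of the special linear group in dimension three. -/
theorem sl3_main {H : Subgroup (GL (Fin 3) F)} (hH : IsMaximalIn (specialLinear (Fin 3) F) H) : SL3Concl H := by
  have h := main_sl (ι := Fin 3) (F := F) (t := 3) (by simp) Nat.prime_three (by decide) hH
  rcases h with h | h | ⟨K, hK, hE⟩ | h | ⟨⟨p, e, hodd, hne, hmin⟩, R, hR, hE⟩ | h | h | h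
  · exact Or.inl h
  · exact Or.inr (Or.inl h)
  · by_cases hq : Fintype.card F = 4
    · exact Or.inr (Or.inr (Or.inr (Or.inl (field_q4 hq hK hH hE))))
    · exact Or.inr (Or.inr (Or.inl ⟨hq, K, hK, hE⟩))
  · exact Or.inr (Or.inr (Or.inr (Or.inl h)))
  · obtain ⟨hp, hq, hp1⟩ := residue_three hodd hne hmin
    exact Or.inr (Or.inr (Or.inr (Or.inr (Or.inl ⟨p, R, hp, hq, hp1, hR, hE⟩))))
  · exact Or.inr (Or.inr (Or.inr (Or.inr (Or.inr (Or.inl h)))))
  · exact Or.inr (Or.inr (Or.inr (Or.inr (Or.inr (Or.inr (Or.inl h))))))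
  · exact Or.inr (Or.inr (Or.inr (Or.inr (Or.inr (Or.inr (Or.inr h))))))

end SL3Main

end Cfsg.Agent.H28
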