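import Cfsg.Agent.Lib.H28.GSU4a

set_option autoImplicit false
set_option linter.style.haveILetI false
set_option linter.unusedSectionVars false
set_option linter.unusedSimpArgs false

namespace Cfsg.Agent.H28

open scoped MatrixGroups Matrix commutatorElement Kronecker
open Cfsg Cfsg.Geo

section SL4Proper

variable {F : Type*} [Field F] [Fintype F]

/-- In dimension four the special linear group does not normalise a group with central commutators. -/
theorem not_sl_le_normalizer_ab4 {R : Subgroup (GL (Fin 4) F)} (hRa : AbsIrr R)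
    (hcomm : ⁅R, R⁆ ≤ scalars (Fin 4) F) :
    ¬ specialLinear (Fin 4) F ≤ subgroupNormalizer R := by
  intro hle
  set u : Fin 4 → F := Pi.single 0 1 with hu
  have hu0 : u ≠ 0 := by
    intro h
    have := congrFun h 0
    simp [hu] at this
  -- an element moving the line of `u`
  obtain ⟨x, hx, hxu⟩ : ∃ x ∈ R, ∃ j : Fin 4, j ≠ 0 ∧ ((x : Matrix (Fin 4) (Fin 4) F) *ᵥ u) j ≠ 0 := by
    by_contra hcon
    push Not at hcon
    have hinv : Inv (R : Set (GL (Fin 4) F)) (Submodule.span F {u}) := by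
      intro g hg v hv
      obtain ⟨c, rfl⟩ := Submodule.mem_span_singleton.1 hv
      rw [Matrix.mulVec_smul]
      refine Submodule.smul_mem _ _ (Submodule.mem_span_singleton.2 ⟨((g : Matrix (Fin 4) (Fin 4) F) *ᵥ u) 0, ?_⟩)
      funext j
      by_cases hj : j = 0
      · subst hj
        simp [hu]
      · rw [hcon g hg j hj]
        simp [hu, hj]
    rcases hRa.irr _ hinv with h | h
    · rw [Submodule.span_singleton_eq_bot] at h
      exact hu0 h
    · have h1 := finrank_span_singleton (K := F) hu0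
      rw [h, finrank_top] at h1
      simp at h1
  obtain ⟨j, hj0, hj⟩ := hxu
  set u' : Fin 4 → F := (x : Matrix (Fin 4) (Fin 4) F) *ᵥ u with hu'
  set w₀ : Fin 4 → F := ((x⁻¹ : GL (Fin 4) F) : Matrix (Fin 4) (Fin 4) F) *ᵥ u with hw₀
  have hxw₀ : (x : Matrix (Fin 4) (Fin 4) F) *ᵥ w₀ = u := mul_inv_mulVec x u
  have hw₀j : ∃ j' : Fin 4, j' ≠ 0 ∧ w₀ j' ≠ 0 := by
    by_contra hcon
    push Not at hcon
    have hw : w₀ = (w₀ 0) • u := by
      funext l
      by_cases hl : l = 0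
      · subst hl
        simp [hu]
      · rw [hcon l hl]
        simp [hu, hl]
    have h1 : u = (w₀ 0) • u' := by
      conv_lhs => rw [← hxw₀, hw, Matrix.mulVec_smul]
    have hc0 : w₀ 0 ≠ 0 := by
      intro h
      rw [h, zero_smul] at h1
      exact hu0 h1
    apply hj
    have h2 : u' = (w₀ 0)⁻¹ • u := by
      rw [h1, smul_smul, inv_mul_cancel₀ hc0, one_smul]
    rw [h2]
    simp [hu, hj0]
  obtain ⟨j', hj'0, hj'⟩ := hw₀j
  -- a linear form vanishing on `u` but on neither of the other vectors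
  obtain ⟨a, hau, hA0, hB0⟩ : ∃ a : Fin 4 → F, a ⬝ᵥ u = 0 ∧ a ⬝ᵥ u' ≠ 0 ∧ a ⬝ᵥ w₀ ≠ 0 := by
    have hs : ∀ l : Fin 4, l ≠ 0 → ∀ v : Fin 4 → F, (Pi.single l 1 : Fin 4 → F) ⬝ᵥ v = v l := fun l _ v => by simp
    have hsu : ∀ l : Fin 4, l ≠ 0 → (Pi.single l 1 : Fin 4 → F) ⬝ᵥ u = 0 := fun l hl => by
      rw [hs l hl]
      simp [hu, hl]
    by_cases h1 : (Pi.single j 1 : Fin 4 → F) ⬝ᵥ w₀ = 0
    · by_cases h2 : (Pi.single j' 1 : Fin 4 → F) ⬝ᵥ u' = 0
      · refine ⟨Pi.single j 1 + Pi.single j' 1, ?_, ?_, ?_⟩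
        · rw [add_dotProduct, hsu j hj0, hsu j' hj'0, add_zero]
        · rw [add_dotProduct, h2, add_zero, hs j hj0]
          exact hj
        · rw [add_dotProduct, h1, zero_add, hs j' hj'0]
          exact hj'
      · exact ⟨Pi.single j' 1, hsu j' hj'0, h2, by rw [hs j' hj'0]; exact hj'⟩
    · exact ⟨Pi.single j 1, hsu j hj0, by rw [hs j hj0]; exact hj, h1⟩
  set t : GL (Fin 4) F := tv u a hau with ht
  have htN := hle (tv_mem u a hau)
  have htR : ∀ x ∈ R, t * x * t⁻¹ ∈ R := fun x hx => (Subgroup.mem_normalizer_iff.1 htN x).1 hx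
  have htv : ∀ v, (t : Matrix (Fin 4) (Fin 4) F) *ᵥ v = v + (a ⬝ᵥ v) • u := fun v => tv_mulVec u a hau v
  have htv' : ∀ v, ((t⁻¹ : GL (Fin 4) F) : Matrix (Fin 4) (Fin 4) F) *ᵥ v = v - (a ⬝ᵥ v) • u := by
    intro v
    have h1 : (t : Matrix (Fin 4) (Fin 4) F) *ᵥ (v - (a ⬝ᵥ v) • u) = v := by
      rw [htv]
      have e1 : a ⬝ᵥ (v - (a ⬝ᵥ v) • u) = a ⬝ᵥ v := by
        rw [dotProduct_sub, dotProduct_smul, hau, smul_zero, sub_zero]
      rw [e1]
      abel
    conv_lhs => rw [← h1]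
    rw [inv_mul_mulVec]
  set A : F := a ⬝ᵥ u' with hA
  set B : F := a ⬝ᵥ w₀ with hB
  set c : GL (Fin 4) F := t * x * t⁻¹ * x⁻¹ with hc
  have hcR : c ∈ R := R.mul_mem (htR x hx) (R.inv_mem hx)
  have hcv : ∀ v, (c : Matrix (Fin 4) (Fin 4) F) *ᵥ v = (t : Matrix (Fin 4) (Fin 4) F) *ᵥ
      ((x : Matrix (Fin 4) (Fin 4) F) *ᵥ (((t⁻¹ : GL (Fin 4) F) : Matrix (Fin 4) (Fin 4) F) *ᵥ
        (((x⁻¹ : GL (Fin 4) F) : Matrix (Fin 4) (Fin 4) F) *ᵥ v))) := by
    intro v
    simp only [hc, Units.val_mul, Matrix.mulVec_mulVec, Matrix.mul_assoc]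
  have hcu' : (c : Matrix (Fin 4) (Fin 4) F) *ᵥ u' = u' + A • u := by
    rw [hcv, hu', inv_mul_mulVec, htv', hau, zero_smul, sub_zero, htv]
  have hcu : (c : Matrix (Fin 4) (Fin 4) F) *ᵥ u = (1 - A * B) • u + (-B) • u' := by
    rw [hcv, ← hw₀, htv', Matrix.mulVec_sub, Matrix.mulVec_smul, hxw₀, ← hu', ← hB, htv]
    have e1 : a ⬝ᵥ (u - B • u') = -(B * A) := by
      rw [dotProduct_sub, dotProduct_smul, hau, smul_eq_mul, zero_sub]
    rw [e1]
    module
  have hind : ∀ α β : F, α • u + β • u' = 0 → α = 0 ∧ β = 0 := by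
    intro α β h
    have h1 : a ⬝ᵥ (α • u + β • u') = a ⬝ᵥ (0 : Fin 4 → F) := by rw [h]
    rw [dotProduct_add, dotProduct_smul, dotProduct_smul, hau, dotProduct_zero, smul_eq_mul, smul_eq_mul, mul_zero, zero_add] at h1
    have hβ : β = 0 := (mul_eq_zero.1 h1).resolve_right hA0
    refine ⟨?_, hβ⟩
    rw [hβ, zero_smul, add_zero] at h
    exact (smul_eq_zero.1 h).resolve_right hu0
  have hcZ : c ∉ scalars (Fin 4) F := by
    intro hz
    obtain ⟨γ, hγ⟩ := exists_sc hz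
    have h1 := hcu'
    rw [hγ, sc_val, Matrix.smul_mulVec, Matrix.one_mulVec] at h1
    have h2 := hind A (1 - (γ : F)) (by rw [sub_smul, one_smul]; linear_combination (norm := module) -h1)
    exact hA0 h2.1
  obtain ⟨y, hy, hyc⟩ : ∃ y ∈ R, c * y ≠ y * c := by
    by_contra hcon
    push Not at hcon
    exact hcZ (hRa.mem_scalars c hcon)
  obtain ⟨γ, hγ⟩ := exists_sc (hcomm (Subgroup.commutator_mem_commutator hcR hy))
  have hγ1 : γ ≠ 1 := by
    rintro rfl
    rw [sc_one, commutatorElement_eq_one_iff_mul_comm] at hγ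
    exact hyc hγ
  have hγ1' : (γ : F) ≠ 1 := fun h => hγ1 (Units.ext h)
  have hrel : c * y = sc γ * (y * c) := by
    rw [← hγ]
    group
  have hcyu : ∀ v ∈ fixSp c, (c : Matrix (Fin 4) (Fin 4) F) *ᵥ ((y : Matrix (Fin 4) (Fin 4) F) *ᵥ v) =
      (γ : F) • ((y : Matrix (Fin 4) (Fin 4) F) *ᵥ v) := by
    intro v hv
    have hv' : (c : Matrix (Fin 4) (Fin 4) F) *ᵥ v = v := hv
    rw [Matrix.mulVec_mulVec, ← Units.val_mul, hrel, Units.val_mul, sc_val, Matrix.smul_mul, one_mul,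
      Matrix.smul_mulVec, Units.val_mul, ← Matrix.mulVec_mulVec, hv']
  have hdisj : fixSp c ⊓ (fixSp c).map (Matrix.toLin' (y : Matrix (Fin 4) (Fin 4) F)) = ⊥ := by
    rw [eq_bot_iff]
    rintro v ⟨hv1, v', hv', rfl⟩
    have h1 := hcyu v' hv'
    have h2 : (Matrix.toLin' (y : Matrix (Fin 4) (Fin 4) F)) v' ∈ fixSp c := hv1
    rw [Matrix.toLin'_apply] at h2
    have h3 : (c : Matrix (Fin 4) (Fin 4) F) *ᵥ ((y : Matrix (Fin 4) (Fin 4) F) *ᵥ v') =
      (y : Matrix (Fin 4) (Fin 4) F) *ᵥ v' := h2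
    rw [h3] at h1
    have h4 : ((γ : F) - 1) • ((y : Matrix (Fin 4) (Fin 4) F) *ᵥ v') = 0 := by
      rw [sub_smul, ← h1, one_smul, sub_self]
    rcases smul_eq_zero.1 h4 with h5 | h5
    · exact absurd (sub_eq_zero.1 h5) hγ1'
    · rw [Submodule.mem_bot, Matrix.toLin'_apply]
      exact h5
  have hcdim : Fintype.card (Fin 4) ≤ Module.finrank F (fixSp c) + 2 * 1 :=
    fix_comm_ge (finrank_fix_tv hau)
  have hcard4 : Fintype.card (Fin 4) = 4 := Fintype.card_fin 4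
  rw [hcard4] at hcdim
  have hsup : fixSp c ⊔ (fixSp c).map (Matrix.toLin' (y : Matrix (Fin 4) (Fin 4) F)) = ⊤ := by
    have h1 := Submodule.finrank_sup_add_finrank_inf_eq (fixSp c)
      ((fixSp c).map (Matrix.toLin' (y : Matrix (Fin 4) (Fin 4) F)))
    rw [finrank_map_gl, hdisj, finrank_bot] at h1
    have h2 : Module.finrank F (fixSp c ⊔ (fixSp c).map (Matrix.toLin' (y : Matrix (Fin 4) (Fin 4) F)) :
        Submodule F (Fin 4 → F)) ≤ 4 := by
      have := Submodule.finrank_le (fixSp c ⊔ (fixSp c).map (Matrix.toLin' (y : Matrix (Fin 4) (Fin 4) F)))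
      simpa using this
    apply Submodule.eq_top_of_finrank_eq
    simp only [Module.finrank_fintype_fun_eq_card, hcard4]
    omega
  have hutop : u ∈ fixSp c ⊔ (fixSp c).map (Matrix.toLin' (y : Matrix (Fin 4) (Fin 4) F)) := by
    rw [hsup]
    trivial
  obtain ⟨p, hp, r, ⟨v, hv, rfl⟩, hpr⟩ := Submodule.mem_sup.1 hutop
  have hcp : (c : Matrix (Fin 4) (Fin 4) F) *ᵥ p = p := hp
  have hcr : (c : Matrix (Fin 4) (Fin 4) F) *ᵥ ((Matrix.toLin' (y : Matrix (Fin 4) (Fin 4) F)) v) =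
      (γ : F) • ((Matrix.toLin' (y : Matrix (Fin 4) (Fin 4) F)) v) := by
    rw [Matrix.toLin'_apply]
    exact hcyu v hv
  set r : Fin 4 → F := (Matrix.toLin' (y : Matrix (Fin 4) (Fin 4) F)) v with hr
  have hcc : (c : Matrix (Fin 4) (Fin 4) F) *ᵥ ((c : Matrix (Fin 4) (Fin 4) F) *ᵥ u) -
      (1 + (γ : F)) • ((c : Matrix (Fin 4) (Fin 4) F) *ᵥ u) + (γ : F) • u = 0 := by
    rw [← hpr]
    simp only [Matrix.mulVec_add, Matrix.mulVec_smul, hcp, hcr]
    module
  rw [hcu, Matrix.mulVec_add, Matrix.mulVec_smul, Matrix.mulVec_smul, hcu, hcu'] at hcc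
  have h3 := hind ((1 - A * B) * (1 - A * B) + (-B) * A - (1 + (γ : F)) * (1 - A * B) + (γ : F))
    ((1 - A * B) * (-B) + (-B) - (1 + (γ : F)) * (-B)) (by linear_combination (norm := module) hcc)
  have h4 : (1 - A * B) - (γ : F) = 0 := by
    have h5 : (-B) * ((1 - A * B) - (γ : F)) = 0 := by linear_combination h3.2
    exact (mul_eq_zero.1 h5).resolve_left (neg_ne_zero.2 hB0)
  have h5 : A * B = 0 := by
    have h6 := h3.1
    have h7 : (γ : F) = 1 - A * B := (sub_eq_zero.1 h4).symm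
    rw [h7] at h6
    linear_combination -h6
  exact (mul_ne_zero hA0 hB0) h5

end SL4Proper

section SLField4

variable {ι : Type} [Fintype ι] [DecidableEq ι] {F : Type*} [Field F] [Fintype F] [Nonempty ι]
variable {H N R : Subgroup (GL ι F)} {ζ : F} {m : ℕ}

/-- The field analysis for a monomial subgroup of the linear group. -/
theorem xdata_sl_gen (hH : IsMaximalIn (specialLinear ι F) H) (h5 : 3 ≤ Fintype.card ι) (hnot : ¬ specialLinear ι F ≤ subgroupNormalizer R) (hX : XData H N R ζ m)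
    (hm1 : 1 < m) (hm3 : ∀ a : ℕ, 1 ≤ a → a.Coprime m → m ∣ a - 1 ∨ m ∣ a + 1) {r t : ℕ} (hr : r.Prime)
    (hmt : m = r ^ t) :
    SLConclG ι F H ∨ ((∃ p : ℕ, p.Prime ∧ Fintype.card F = p ∧ r ≠ p ∧ CharP F p ∧ m ∣ p - 1) ∧
      H = subgroupNormalizer R ⊓ specialLinear ι F) := by
  have hm0 : 0 < m := by omega
  obtain ⟨P, hP⟩ := exists_mono_basis hX.absIrr hX.commR hm0 hX.prim hX.exp
  obtain ⟨p, hchar, n, hpp, hn⟩ := FiniteField.card' F
  haveI := hchar
  haveI : Fact p.Prime := ⟨hpp⟩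
  set e : ℕ := (n : ℕ) with he
  have he0 : 0 < e := n.pos
  have hprim := hX.prim
  have hζ0 : ζ ≠ 0 := hprim.ne_zero hm0.ne'
  have hrp : r ≠ p := by
    rintro rfl
    have h1 : ζ ^ r ^ t = 1 := by rw [← hmt]; exact hprim.pow_eq_one
    have h2 : (ζ - 1) ^ r ^ t = 0 := by rw [sub_pow_char_pow, h1, one_pow, sub_self]
    have h3 : ζ = 1 := sub_eq_zero.1 ((pow_eq_zero_iff (pow_ne_zero _ hr.ne_zero)).1 h2)
    exact hprim.ne_one hm1 h3
  have hcop : p.Coprime m := by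
    rw [hmt]
    exact Nat.Coprime.pow_right _ ((Nat.coprime_primes hpp hr).2 hrp.symm)
  have hle := hX.le_normalizer
  have hNR := normalIn_normalizer R
  have hpowk : ∀ k, m ∣ p ^ k - 1 → ζ ^ p ^ k = ζ := by
    intro k hk
    obtain ⟨b, hb⟩ := hk
    have hpos : 1 ≤ p ^ k := Nat.one_le_pow _ _ hpp.pos
    have e1 : p ^ k = m * b + 1 := by omega
    rw [e1, pow_succ, pow_mul, hprim.pow_eq_one, one_pow, one_mul]
  by_cases hk : ∃ k, 0 < k ∧ k < e ∧ m ∣ p ^ k - 1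
  · left
    obtain ⟨k, hk0, hke, hkd⟩ := hk
    have hne := fixedSub_ne_top (F := F) p k e hk0 hke hn
    have hζmem : ζ ∈ fixedSub F p k := (mem_fixedSub p k).2 (hpowk k hkd)
    have hB : ∀ g ∈ R, ∀ i j, (((P⁻¹ : GL ι F) : Matrix ι ι F) * (g : Matrix ι ι F) *
        (((P⁻¹)⁻¹ : GL ι F) : Matrix ι ι F)) i j ∈ fixedSub F p k := by
      intro g hg i j
      rw [inv_inv]
      obtain ⟨π, d', hm⟩ := hP g hg
      rw [hm]
      split_ifs
      · exact (fixedSub F p k).pow_mem hζmem _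
      · exact (fixedSub F p k).zero_mem
    obtain ⟨F₁, r', τ, h01, hr', hcard, hτ⟩ := exists_prime_index_subfield hne
    have hle' := le_subfield_of_realisable hNR hX.absIrr τ hτ (B := P⁻¹) (fun g hg i j => h01 (hB g hg i j))
    exact Or.inr (Or.inr (Or.inr (Or.inr (Or.inl ⟨F₁, r', (P⁻¹)⁻¹, hr', hcard, eq_inf_of_max hH (hle.trans hle')
      (not_sl_le_subfield (ne_top_of_card_pow hr' hcard) _ (by omega))⟩))))
  push Not at hk
  have hdvd : m ∣ p ^ e - 1 := by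
    apply hprim.dvd_of_pow_eq_one
    rw [← hn]
    exact FiniteField.pow_card_sub_one_eq_one ζ hζ0
  have hk2 : ∀ a : ℕ, 0 < a → a < e → m ∣ p ^ a + 1 := by
    intro a ha0 hae
    have h1 : (p ^ a).Coprime m := Nat.Coprime.pow_left _ hcop
    rcases hm3 _ (Nat.one_le_pow _ _ hpp.pos) h1 with h | h
    · exact absurd h (hk a ha0 hae)
    · exact h
  rcases Nat.even_or_odd e with heven | hodde
  · -- the unitary case
    left
    obtain ⟨m', hm'⟩ := heven
    have hm0' : 0 < m' := by omega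
    have hcard : Fintype.card F = p ^ (2 * m') := by rw [hn, hm', two_mul]
    obtain ⟨σ, hσ, hσ1, hσ2⟩ := exists_involution (F := F) p m' hm0' hcard
    have hdm : m ∣ p ^ m' + 1 := hk2 m' hm0' (by omega)
    have hcσ : ∀ a : ℕ, ζ ^ a * σ (ζ ^ a) = 1 := by
      intro a
      obtain ⟨b, hb⟩ := hdm
      rw [hσ, ← pow_mul, ← pow_add, show a + a * p ^ m' = (p ^ m' + 1) * a by ring, hb, mul_assoc, pow_mul,
        hprim.pow_eq_one, one_pow]
    have hfix : ∀ g ∈ R, ∀ u v, stdForm σ P ((g : Matrix ι ι F) *ᵥ u) ((g : Matrix ι ι F) *ᵥ v) =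
        stdForm σ P u v := by
      intro g hg u v
      obtain ⟨π, d', hm''⟩ := IsMono.gen (hP g hg)
      exact stdForm_mono hm'' (fun i => hcσ _) u v
    have hle' := le_sim_of_fixes hNR hX.absIrr (stdForm_sesq σ P) (stdForm_nondeg_left σ P) hfix
    exact Or.inr (Or.inr (Or.inr (Or.inr (Or.inr (Or.inr (Or.inr (Or.inl ⟨σ, _, stdForm_unitary P hσ1 hσ2,
      eq_inf_of_max hH (hle.trans hle') (not_sl_le_sim (stdForm_sesq σ P) (stdForm_nondeg_right σ P) (by omega))⟩)))))))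
  · -- the prime field case
    right
    have he1 : e = 1 := by
      by_contra hne1
      have he3 : 2 < e := by
        obtain ⟨c, hc⟩ := hodde
        omega
      have h1 : m ∣ p ^ 1 + 1 := hk2 1 one_pos (by omega)
      apply hk 2 (by norm_num) he3
      have h2 : p ^ 2 - 1 = (p - 1) * (p + 1) := by
        have h3 := hpp.one_lt
        obtain ⟨u, hu⟩ : ∃ u, p = u + 1 := ⟨p - 1, by omega⟩
        subst hu
        simp only [Nat.add_sub_cancel]
        ring_nf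
        omega
      rw [h2]
      rw [pow_one] at h1
      exact Dvd.dvd.mul_left h1 _
    rw [he1, pow_one] at hn
    refine ⟨⟨p, hpp, hn, hrp, hchar, ?_⟩, eq_inf_of_max hH hle hnot⟩
    rw [he1, pow_one] at hdvd
    exact hdvd


end SLField4

end Cfsg.Agent.H28
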