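import Cfsg.Agent.Lib.H28.GSL4a
import Cfsg.Agent.Lib.H28.GSp4a

set_option autoImplicit false
set_option linter.style.haveILetI false
set_option linter.unusedSectionVars false
set_option linter.unusedSimpArgs false

namespace Cfsg.Agent.H28

open scoped MatrixGroups Matrix commutatorElement Kronecker
open Cfsg Cfsg.Geo

section SL4Pair

variable {F : Type*} [Field F]

/-- An explicit ordering of the four pairs. -/
def eps4 : Fin 4 ≃ Fin 2 × Fin 2 where
  toFun := ![(0, 0), (0, 1), (1, 0), (1, 1)]
  invFun p := ![![0, 1], ![2, 3]] p.1 p.2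
  left_inv := by decide
  right_inv := by decide

/-- The determinant of a block monomial matrix with two blocks of size two. -/
lemma det_two_blocks (M : Matrix (Fin 2 × Fin 2) (Fin 2 × Fin 2) F) (π : Equiv.Perm (Fin 2))
    (c : Fin 2 → Matrix (Fin 2) (Fin 2) F) (h : ∀ i a b, M (π i, b) (i, a) = c i b a)
    (h0 : ∀ i i' a b, i' ≠ π i → M (i', b) (i, a) = 0) : M.det = (c 0).det * (c 1).det := by
  let ε : Fin 4 ≃ Fin 2 × Fin 2 := eps4
  have hε : M.det = (M.submatrix ε ε).det := (Matrix.det_submatrix_equiv_self ε M).symm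
  have e0 : ε 0 = (0, 0) := rfl
  have e1 : ε 1 = (0, 1) := rfl
  have e2 : ε 2 = (1, 0) := rfl
  have e3 : ε 3 = (1, 1) := rfl
  rw [hε, Matrix.det_succ_row_zero, Matrix.det_fin_two, Matrix.det_fin_two]
  simp only [Fin.sum_univ_four, Matrix.det_fin_three]
  have hs0 : (Fin.succ (0 : Fin 3) : Fin 4) = 1 := rfl
  have hs1 : (Fin.succ (1 : Fin 3) : Fin 4) = 2 := rfl
  have hs2 : (Fin.succ (2 : Fin 3) : Fin 4) = 3 := rfl
  rcases perm_two_cases π with rfl | rfl
  · have z1 : ∀ a b, M (1, b) (0, a) = 0 := fun a b => h0 0 1 a b (by simp)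
    have z2 : ∀ a b, M (0, b) (1, a) = 0 := fun a b => h0 1 0 a b (by simp)
    have d0 : ∀ a b, M (0, b) (0, a) = c 0 b a := fun a b => h 0 a b
    have d1 : ∀ a b, M (1, b) (1, a) = c 1 b a := fun a b => h 1 a b
    simp [Matrix.submatrix_apply, Fin.succAbove, e0, e1, e2, e3, z1, z2, d0, d1, hs0, hs1, hs2]
    ring
  · have z1 : ∀ a b, M (0, b) (0, a) = 0 := fun a b => h0 0 0 a b (by simp)
    have z2 : ∀ a b, M (1, b) (1, a) = 0 := fun a b => h0 1 1 a b (by simp)
    have d0 : ∀ a b, M (1, b) (0, a) = c 0 b a := fun a b => h 0 a b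
    have d1 : ∀ a b, M (0, b) (1, a) = c 1 b a := fun a b => h 1 a b
    simp [Matrix.submatrix_apply, Fin.succAbove, e0, e1, e2, e3, z1, z2, d0, d1, hs0, hs1, hs2]
    ring

end SL4Pair

section SL4Pair2

variable {ι : Type} [Fintype ι] [DecidableEq ι] {F : Type*} [Field F]

/-- If all the blocks have the same determinant, the form is multiplied by that determinant. -/
lemma blockSymp_sim {t : ℕ} {e : ι ≃ Fin t × Fin 2} {P : GL ι F} {g : GL ι F} {π : Equiv.Perm (Fin t)}
    {c : Fin t → Matrix (Fin 2) (Fin 2) F}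
    (hc : ∀ x i b, XC e P ((g : Matrix ι ι F) *ᵥ x) (π i) b = ∑ a, c i b a * XC e P x i a) {δ : F}
    (hdet : ∀ i, (c i).det = δ) (u v : ι → F) :
    blockSymp e P ((g : Matrix ι ι F) *ᵥ u) ((g : Matrix ι ι F) *ᵥ v) = δ * blockSymp e P u v := by
  simp only [blockSymp]
  rw [← Equiv.sum_comp π, Finset.mul_sum]
  refine Finset.sum_congr rfl fun i _ => ?_
  have hd := hdet i
  rw [Matrix.det_fin_two] at hd
  simp only [hc, Fin.sum_univ_two]
  rw [← hd]
  ring

/-- Over a field in which every non-zero element has square one, the determinant-one stabiliser of a pair of planes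
consists of similarities of a symplectic form. -/
theorem pair_small_sim (hq : ∀ c : F, c ≠ 0 → c * c = 1) {D : Fin 2 → Submodule F (Fin 4 → F)}
    (hD : IsMDecomposition 2 D) :
    ∃ f : (Fin 4 → F) → (Fin 4 → F) → F, IsSymplecticForm f ∧
      decompositionStabilizer D ⊓ specialLinear (Fin 4) F ≤ similarityGroup f := by
  classical
  obtain ⟨e, P, h1, h3⟩ := exists_block_frame hD
  refine ⟨blockSymp e P, blockSymp_symplectic e P, ?_⟩
  rintro g ⟨⟨π, hπ⟩, hgS⟩
  have hg : ∀ i, ∀ x ∈ D i, (g : Matrix (Fin 4) (Fin 4) F) *ᵥ x ∈ D (π i) := by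
    intro i x hx
    rw [← hπ i]
    exact ⟨x, hx, rfl⟩
  obtain ⟨c, hc0, hc⟩ := block_action h1 h3 g π hg
  let T : Matrix (Fin 4) (Fin 4) F := ((P⁻¹ : GL (Fin 4) F) : Matrix (Fin 4) (Fin 4) F) * (g : Matrix (Fin 4) (Fin 4) F) * (P : Matrix (Fin 4) (Fin 4) F)
  let M : Matrix (Fin 2 × Fin 2) (Fin 2 × Fin 2) F := T.submatrix e.symm e.symm
  have hMv : ∀ i' a' i a, M (i', a') (i, a) = XC e P ((g : Matrix (Fin 4) (Fin 4) F) *ᵥ VC e P i a) i' a' := by
    intro i' a' i a
    simp only [M, T, Matrix.submatrix_apply, XC, VC, Matrix.mulVec_mulVec, Matrix.mul_assoc]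
    rw [Matrix.mulVec_single_one]
    simp [Matrix.mul_assoc]
  have hdetM : M.det = (c 0).det * (c 1).det := by
    refine det_two_blocks M π c (fun i a b => ?_) (fun i i' a b hi => ?_)
    · rw [hMv, hc]
      rw [Finset.sum_eq_single a]
      · rw [XC_VC]
        simp
      · intro a' _ ha'
        rw [XC_VC, if_neg (fun h => ha' h.2), mul_zero]
      · simp
    · rw [hMv]
      exact h3 (π i) _ (hg i _ (h1 i a)) i' hi b
  have hdetg : (g : Matrix (Fin 4) (Fin 4) F).det = 1 := by
    have h5 : (Matrix.GeneralLinearGroup.det g : Fˣ) = 1 := hgS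
    have := congrArg Units.val h5
    simpa using this
  have hdetT : T.det = 1 := by
    simp only [T]
    rw [Matrix.det_mul, Matrix.det_mul, hdetg, mul_one, ← Matrix.det_mul, inv_val_one_val, Matrix.det_one]
  have hMdet : M.det = 1 := by
    simp only [M]
    rw [Matrix.det_submatrix_equiv_self, hdetT]
  have hprod : (c 0).det * (c 1).det = 1 := by rw [← hdetM, hMdet]
  have hsq1 := hq _ (hc0 1)
  have heq : (c 1).det = (c 0).det := by
    calc (c 1).det = ((c 0).det * (c 1).det) * (c 1).det := by rw [hprod, one_mul]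
      _ = (c 0).det * ((c 1).det * (c 1).det) := by ring
      _ = (c 0).det := by rw [hsq1, mul_one]
  refine ⟨Units.mk0 _ (hc0 0), fun u v => ?_⟩
  rw [Units.val_mk0]
  refine blockSymp_sim hc (fun i => ?_) u v
  fin_cases i
  · rfl
  · exact heq

end SL4Pair2

section SL4Tensor

variable {ι : Type} [Fintype ι] [DecidableEq ι] {F : Type*} [Field F] [Fintype F]

/-- The symmetric form attached to a tensor decomposition of two planes. -/
noncomputable def F22 (e : ι ≃ Fin 2 × Fin 2) (P : GL ι F) (z z' : ι → F) : F :=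
  XC e P z 0 0 * XC e P z' 1 1 + XC e P z' 0 0 * XC e P z 1 1 - XC e P z 0 1 * XC e P z' 1 0 -
    XC e P z' 0 1 * XC e P z 1 0

lemma F22_bil (e : ι ≃ Fin 2 × Fin 2) (P : GL ι F) : IsBilinearForm (F22 e P) where
  add_left x y v := by
    simp only [F22, XC_add]
    ring
  smul_left c x v := by
    simp only [F22, XC_smul]
    ring
  add_right v x y := by
    simp only [F22, XC_add]
    ring
  smul_right c v x := by
    simp only [F22, XC_smul]
    ring

lemma F22_symm (e : ι ≃ Fin 2 × Fin 2) (P : GL ι F) (z z' : ι → F) : F22 e P z z' = F22 e P z' z := by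
  simp only [F22]
  ring

lemma F22_nd (e : ι ≃ Fin 2 × Fin 2) (P : GL ι F) (x : ι → F) (hx : x ≠ 0) : ∃ v, F22 e P x v ≠ 0 := by
  have h0 : ∃ i j, XC e P x i j ≠ 0 := by
    by_contra h
    push Not at h
    exact hx (eq_zero_of_XC e P x h)
  obtain ⟨i, j, hij⟩ := h0
  fin_cases i <;> fin_cases j
  · refine ⟨VC e P 1 1, ?_⟩
    simpa [F22, XC_VC] using hij
  · refine ⟨VC e P 1 0, ?_⟩
    simpa [F22, XC_VC] using hij
  · refine ⟨VC e P 0 1, ?_⟩
    simpa [F22, XC_VC] using hij
  · refine ⟨VC e P 0 0, ?_⟩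
    simpa [F22, XC_VC] using hij

lemma F22_pure (e : ι ≃ Fin 2 × Fin 2) (P : GL ι F) (x u y v : Fin 2 → F) :
    F22 e P (pureV e P x u) (pureV e P y v) = (x 0 * y 1 - x 1 * y 0) * (u 0 * v 1 - u 1 * v 0) := by
  simp only [F22, XC_pureV]
  ring

lemma cross_mulVec (A : Matrix (Fin 2) (Fin 2) F) (x y : Fin 2 → F) :
    (A *ᵥ x) 0 * (A *ᵥ y) 1 - (A *ᵥ x) 1 * (A *ᵥ y) 0 = A.det * (x 0 * y 1 - x 1 * y 0) := by
  rw [Matrix.det_fin_two]
  simp only [Matrix.mulVec, dotProduct, Fin.sum_univ_two]
  ring

lemma gl_det_val (A : GL (Fin 2) F) :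
    ((Matrix.GeneralLinearGroup.det A : Fˣ) : F) = (A : Matrix (Fin 2) (Fin 2) F).det := by
  simp

lemma F22_comp_bil (e : ι ≃ Fin 2 × Fin 2) (P : GL ι F) (M : Matrix ι ι F) :
    IsBilinearForm (fun z z' => F22 e P (M *ᵥ z) (M *ᵥ z')) := by
  have hb := F22_bil e P
  exact
    { add_left := fun x y v => by simp only [Matrix.mulVec_add, hb.add_left]
      smul_left := fun c x v => by simp only [Matrix.mulVec_smul, hb.smul_left]
      add_right := fun v x y => by simp only [Matrix.mulVec_add, hb.add_right]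
      smul_right := fun c v x => by simp only [Matrix.mulVec_smul, hb.smul_right] }

lemma F22_scale_bil (e : ι ≃ Fin 2 × Fin 2) (P : GL ι F) (κ : F) :
    IsBilinearForm (fun z z' => κ * F22 e P z z') := by
  have hb := F22_bil e P
  exact
    { add_left := fun x y v => by simp only [hb.add_left]; ring
      smul_left := fun c x v => by simp only [hb.smul_left]; ring
      add_right := fun v x y => by simp only [hb.add_right]; ring
      smul_right := fun c v x => by simp only [hb.smul_right]; ring }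

/-- The tensor wreath product of two planes consists of similarities of the form. -/
theorem F22_sim {e : ι ≃ Fin 2 × Fin 2} {P : GL ι F} :
    tensorWreathSubgroup 2 2 (eTwo e) P ≤ similarityGroup (F22 e P) := by
  intro g hg
  have hext : ∀ κ : F, (∀ x u y v, F22 e P ((g : Matrix ι ι F) *ᵥ pureV e P x u) ((g : Matrix ι ι F) *ᵥ pureV e P y v) =
      κ * F22 e P (pureV e P x u) (pureV e P y v)) → ∀ z z', F22 e P ((g : Matrix ι ι F) *ᵥ z) ((g : Matrix ι ι F) *ᵥ z') =
        κ * F22 e P z z' := by
    intro κ h z z'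
    exact sesq_ext_pure' (σ := RingEquiv.refl F) (sesq_of_bilinear (F22_comp_bil e P _))
      (sesq_of_bilinear (F22_scale_bil e P κ)) h z z'
  rcases wreath_cases hg with h | ⟨A, B, hAB⟩
  · obtain ⟨A, B, hAB⟩ := mem_tensor_iff.1 h
    refine ⟨Matrix.GeneralLinearGroup.det A * Matrix.GeneralLinearGroup.det B, hext _ fun x u y v => ?_⟩
    rw [pure_of_conj e P hAB, pure_of_conj e P hAB, F22_pure, F22_pure, cross_mulVec, cross_mulVec,
      Units.val_mul, gl_det_val, gl_det_val]
    ring
  · refine ⟨Matrix.GeneralLinearGroup.det A * Matrix.GeneralLinearGroup.det B, hext _ fun x u y v => ?_⟩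
    rw [hAB, hAB, F22_pure, F22_pure, cross_mulVec, cross_mulVec, Units.val_mul, gl_det_val, gl_det_val]
    ring

/-- The tensor wreath product of two planes in dimension four. -/
theorem tensor22_sl4 {e : Fin 4 ≃ Fin 2 × Fin 2} {P : GL (Fin 4) F} {H : Subgroup (GL (Fin 4) F)}
    (hH : IsMaximalIn (specialLinear (Fin 4) F) H) (hle : H ≤ tensorWreathSubgroup 2 2 (eTwo e) P) :
    SLConclG (Fin 4) F H := by
  have hfb := F22_bil e P
  have hs := F22_symm e P
  have hnd := F22_nd e P
  have hsim : H ≤ similarityGroup (F22 e P) := hle.trans F22_sim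
  by_cases h2 : (2 : F) = 0
  · have hneg : ∀ x : F, -x = x := fun x => by linear_combination (-x) * h2
    have hf : IsSymplecticForm (F22 e P) :=
      { bilinear := hfb
        skew := fun v w => by rw [hneg, hs]
        alternating := fun v => by
          simp only [F22]
          linear_combination (XC e P v 0 0 * XC e P v 1 1 - XC e P v 0 1 * XC e P v 1 0) * h2
        nondegenerate := fun v hv => by
          obtain ⟨w, hw⟩ := hnd v hv
          exact ⟨⟨w, by rwa [hs]⟩, ⟨w, hw⟩⟩ }
    exact Or.inr (Or.inr (Or.inr (Or.inr (Or.inr (Or.inr (Or.inl ⟨_, hf,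
      eq_inf_of_max hH hsim (not_sl_le_sim (sesq_of_bilinear hfb)
        (fun v hv => (hf.nondegenerate v hv).1) (by simp))⟩))))))
  · let Q : (Fin 4 → F) → F := fun x => F22 e P x x
    have hpol : ∀ x y, QuadraticMap.polar Q x y = 2 * F22 e P x y := by
      intro x y
      simp only [QuadraticMap.polar, Q, hfb.add_left, hfb.add_right]
      rw [hs y x]
      ring
    have hQ : IsNondegenerateQuadraticForm Q :=
      { smul := fun c v => by
          simp only [Q, hfb.smul_left, hfb.smul_right]
          ring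
        polar_bilinear :=
          { add_left := fun x y v => by
              rw [hpol, hpol, hpol, hfb.add_left]
              ring
            smul_left := fun c x v => by
              rw [hpol, hpol, hfb.smul_left]
              ring
            add_right := fun v x y => by
              rw [hpol, hpol, hpol, hfb.add_right]
              ring
            smul_right := fun c v x => by
              rw [hpol, hpol, hfb.smul_right]
              ring }
        nondegenerate := fun v hv => by
          obtain ⟨w, hw⟩ := hnd v hv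
          refine ⟨⟨w, ?_⟩, ⟨w, ?_⟩⟩
          · rw [hpol, hs w v]
            exact mul_ne_zero h2 hw
          · rw [hpol]
            exact mul_ne_zero h2 hw }
    have hle' : H ≤ quadSimilarityGroup Q := by
      intro g hg
      obtain ⟨κ, hκ⟩ := hsim hg
      exact ⟨κ, fun v => hκ v v⟩
    exact Or.inr (Or.inr (Or.inr (Or.inr (Or.inr (Or.inl ⟨odd_of_two_ne_zero h2, Q, hQ,
      eq_inf_of_max hH hle' (not_sl_le_quadSim hQ (by simp))⟩)))))

end SL4Tensor

end Cfsg.Agent.H28
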