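import Cfsg.Agent.Lib.H28.GSU4h

set_option autoImplicit false
set_option linter.style.haveILetI false
set_option linter.unusedSectionVars false
set_option linter.unusedSimpArgs false

namespace Cfsg.Agent.H28

open scoped MatrixGroups Matrix commutatorElement Kronecker
open Cfsg Cfsg.Geo

section R4e

/-- The elementary-transformation criterion for characteristic abelian subgroups. -/
theorem hchar_gen {ι : Type} [Fintype ι] [DecidableEq ι] [Nonempty ι] {F : Type*} [Field F] [Fintype F] {R : Subgroup (GL ι F)} (hsg : ∀ x ∈ R, ∀ y ∈ R, x ∈ sgn y) (hneg : (-1 : GL ι F) ∈ R) (h2 : (2 : F) ≠ 0)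
    (hy : ∀ x ∈ R, x ∉ scalars ι F → ∃ y ∈ R, y * y = -1 ∧ x * y = -(y * x)) :
    ∀ A : Subgroup R, A.Characteristic → IsMulCommutative A → A.map R.subtype ≤ scalars ι F := by
  intro A hA hAb
  rintro _ ⟨x, hxA, rfl⟩
  by_contra hns
  obtain ⟨y, hyR, hyy, hxy⟩ := hy x x.2 hns
  have hyym : (y : Matrix ι ι F) * y = -1 := by
    have := congrArg Units.val hyy
    simpa using this
  have htwo : ∀ (c : F), c ≠ 0 → c⁻¹ • (c • (1 : Matrix ι ι F)) = 1 := fun c hc => by
    rw [smul_smul, inv_mul_cancel₀ hc, one_smul]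
  have hinv1 : ((1 : Matrix ι ι F) + y) * ((2 : F)⁻¹ • (1 - (y : Matrix ι ι F))) = 1 := by
    have h3 : ((1 : Matrix ι ι F) + y) * (1 - y) = (2 : F) • 1 := by
      rw [add_mul, mul_sub, mul_sub, hyym, two_smul]
      simp only [one_mul, mul_one]
      abel
    rw [Matrix.mul_smul, h3, htwo _ h2]
  have hinv2 : ((2 : F)⁻¹ • (1 - (y : Matrix ι ι F))) * ((1 : Matrix ι ι F) + y) = 1 := by
    have h3 : ((1 : Matrix ι ι F) - y) * (1 + y) = (2 : F) • 1 := by
      rw [sub_mul, mul_add, mul_add, hyym, two_smul]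
      simp only [one_mul, mul_one]
      abel
    rw [Matrix.smul_mul, h3, htwo _ h2]
  let h : GL ι F := ⟨1 + (y : Matrix ι ι F), (2 : F)⁻¹ • (1 - (y : Matrix ι ι F)), hinv1, hinv2⟩
  have hval : (h : Matrix ι ι F) = 1 + y := rfl
  -- conjugation by `h`
  have hcomm : ∀ t : GL ι F, t * y = y * t → t * h = h * t := by
    intro t ht
    apply Units.ext
    rw [Units.val_mul, Units.val_mul, hval, mul_add, add_mul, mul_one, one_mul, ← Units.val_mul, ← Units.val_mul, ht]
  have hanti1 : ∀ t : GL ι F, t * y = -(y * t) → h * t = y * t * h := by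
    intro t ht
    apply Units.ext
    have hm : (t : Matrix ι ι F) * y = -(y * t) := by
      have := congrArg Units.val ht
      simpa using this
    rw [Units.val_mul, Units.val_mul, Units.val_mul, hval, add_mul, mul_add, one_mul, mul_one, mul_assoc, hm, mul_neg,
      ← mul_assoc, hyym]
    simp [add_comm]
  have hanti2 : ∀ t : GL ι F, t * y = -(y * t) → t * h = h * (-(y * t)) := by
    intro t ht
    apply Units.ext
    have hm : (t : Matrix ι ι F) * y = -(y * t) := by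
      have := congrArg Units.val ht
      simpa using this
    rw [Units.val_mul, Units.val_mul, Units.val_neg, Units.val_mul, hval, mul_add, add_mul, mul_one, one_mul, hm, mul_neg,
      ← mul_assoc, hyym]
    simp [add_comm, sub_eq_add_neg]
  have hh : ∀ t ∈ R, h * t * h⁻¹ ∈ R := by
    intro t ht
    rcases hsg _ ht _ hyR with h1 | h1
    · have h3 : h * t * h⁻¹ = t := by
        rw [← hcomm t h1]
        group
      rwa [h3]
    · have h3 : h * t * h⁻¹ = y * t := by
        rw [hanti1 t h1]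
        group
      rw [h3]
      exact R.mul_mem hyR ht
  have hh' : ∀ t ∈ R, h⁻¹ * t * h ∈ R := by
    intro t ht
    rcases hsg _ ht _ hyR with h1 | h1
    · have h3 : h⁻¹ * t * h = t := by
        rw [mul_assoc, hcomm t h1]
        group
      rwa [h3]
    · have h3 : h⁻¹ * t * h = -(y * t) := by
        rw [mul_assoc, hanti2 t h1, inv_mul_cancel_left]
      rw [h3, ← neg_one_mul]
      exact R.mul_mem hneg (R.mul_mem hyR ht)
  have h5 := char_conj hA hh hh' hxA
  have h6 : h * (x : GL ι F) * h⁻¹ = y * x := by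
    rw [hanti1 _ hxy]
    group
  rw [h6] at h5
  obtain ⟨w, hwA, hw⟩ := h5
  -- `y` lies in `A`
  have hyA : (⟨y, hyR⟩ : R) ∈ A := by
    have h7 : (⟨y, hyR⟩ : R) = w * x⁻¹ := by
      apply Subtype.ext
      have h8 : (w : GL ι F) = y * x := hw
      simp [h8]
    rw [h7]
    exact A.mul_mem hwA (A.inv_mem hxA)
  have h9 : (⟨x, hxA⟩ : A) * ⟨⟨y, hyR⟩, hyA⟩ = ⟨⟨y, hyR⟩, hyA⟩ * ⟨x, hxA⟩ := hAb.is_comm.comm _ _
  have h10 := congrArg (fun t : A => ((t : R) : GL ι F)) h9
  simp only [Subgroup.coe_mul] at h10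
  have h11 : (y * (x : GL ι F)) = -(y * x) := by
    rw [h10] at hxy
    exact hxy
  apply sc_neg_one_ne (ι := ι) h2
  rw [sc_neg_one_eq]
  calc (-1 : GL ι F) = (y * (x : GL ι F))⁻¹ * (-(y * x)) := by rw [mul_neg, inv_mul_cancel]
    _ = 1 := by rw [← h11, inv_mul_cancel]


variable {F : Type*} [Field F] [Fintype F] {q : ℕ} {σ : F ≃+* F}

/-- A frame gives an orthonormal basis. -/
lemma exists_frame_basis (hS : HS F q σ) {D : Fin 4 → Submodule F (Fin 4 → F)}
    (hD : IsNondegenerateMDecomposition (hermForm 4 F q) 1 D) :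
    ∃ Q : GL (Fin 4) F, Q ∈ GU 4 F q ∧ ∀ j, (Q : Matrix (Fin 4) (Fin 4) F) *ᵥ Pi.single j 1 ∈ D j := by
  classical
  have hf := herm_eform (n := 4) hS
  have hs := hf.sesq
  have hex : ∀ j, ∃ w ∈ D j, hermForm 4 F q w w = 1 := by
    intro j
    obtain ⟨v, hv, hvv⟩ := exists_orthonormal_family hS hf 1 (D j) (hD.decomp.finrank_eq j) (hD.nondegenerate j)
    exact ⟨v 0, hv 0, by simpa using hvv 0 0⟩
  choose w hw hww using hex
  have hv : ∀ i j, hermForm 4 F q (w i) (w j) = if i = j then 1 else 0 := by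
    intro i j
    by_cases hij : i = j
    · subst hij
      simp [hww]
    · rw [if_neg hij]
      exact hD.orthogonal i j hij _ (hw i) _ (hw j)
  let M : Matrix (Fin 4) (Fin 4) F := Matrix.of fun i j => w j i
  have hM : ∀ a : Fin 4 → F, M *ᵥ a = a 0 • w 0 + a 1 • w 1 + a 2 • w 2 + a 3 • w 3 := by
    intro a
    funext i
    simp [Matrix.mulVec, dotProduct, M, Fin.sum_univ_four, mul_comm]
  have hform : ∀ a b, hermForm 4 F q (M *ᵥ a) (M *ᵥ b) = hermForm 4 F q a b := by
    intro a b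
    rw [hM, hM, herm_eq hS a b, Fin.sum_univ_four]
    simp only [hs.add_left, hs.add_right, hs.smul_left, hs.smul_right, hv]
    simp
  have hinj : Function.Injective M.mulVecLin := by
    rw [injective_iff_map_eq_zero]
    intro a ha
    have ha' : M *ᵥ a = 0 := ha
    by_contra hne
    obtain ⟨y, hy⟩ := hf.nd a hne
    apply hy
    rw [← hform, ha', hs.zero_left]
  have hunit : IsUnit M := Matrix.mulVec_injective_iff_isUnit.1 hinj
  refine ⟨hunit.unit, fun a b => ?_, fun j => ?_⟩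
  · change hermForm 4 F q ((hunit.unit : Matrix (Fin 4) (Fin 4) F) *ᵥ a) ((hunit.unit : Matrix (Fin 4) (Fin 4) F) *ᵥ b) = _
    rw [IsUnit.unit_spec]
    exact hform a b
  · rw [IsUnit.unit_spec, Matrix.mulVec_single_one]
    exact hw j

/-- An element of the stabiliser of a frame normalises the group of order 64. -/
lemma frame_element (hS : HS F 3 σ) {D : Fin 4 → Submodule F (Fin 4 → F)}
    (hD : IsNondegenerateMDecomposition (hermForm 4 F 3) 1 D) {Q : GL (Fin 4) F} (hQ : Q ∈ GU 4 F 3)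
    (hQD : ∀ j, (Q : Matrix (Fin 4) (Fin 4) F) *ᵥ Pi.single j 1 ∈ D j) {g : GL (Fin 4) F} (hgU : g ∈ GU 4 F 3)
    (hgS : g ∈ specialLinear (Fin 4) F) (hgD : g ∈ decompositionStabilizer D) :
    Q⁻¹ * g * Q ∈ subgroupNormalizer (R0 F 3) := by
  classical
  have hf := herm_eform (n := 4) hS
  have hs := hf.sesq
  obtain ⟨π, hπ⟩ := hgD
  set w : Fin 4 → Fin 4 → F := fun j => (Q : Matrix (Fin 4) (Fin 4) F) *ᵥ Pi.single j 1 with hwdef
  have hww : ∀ j, hermForm 4 F 3 (w j) (w j) = 1 := by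
    intro j
    simp only [hwdef]
    rw [gu_isom hQ, herm_eq hS, Finset.sum_eq_single j]
    · simp
    · intro b _ hb
      simp [hb]
    · simp
  have hw0 : ∀ j, w j ≠ 0 := by
    intro j h0
    have h1 := hww j
    rw [h0, hs.zero_left] at h1
    exact zero_ne_one h1
  have hex : ∀ j, ∃ c : F, c • w (π j) = (g : Matrix (Fin 4) (Fin 4) F) *ᵥ w j := by
    intro j
    have hmem : (g : Matrix (Fin 4) (Fin 4) F) *ᵥ w j ∈ D (π j) := by
      rw [← hπ j]
      exact ⟨w j, hQD j, by rw [Matrix.toLin'_apply]⟩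
    have hne : (⟨w (π j), hQD (π j)⟩ : D (π j)) ≠ 0 := fun h => hw0 (π j) (congrArg Subtype.val h)
    obtain ⟨c, hc⟩ := (finrank_eq_one_iff_of_nonzero' _ hne).1 (hD.decomp.finrank_eq (π j)) ⟨_, hmem⟩
    exact ⟨c, congrArg Subtype.val hc⟩
  choose c hc using hex
  have hgw0 : ∀ j, (g : Matrix (Fin 4) (Fin 4) F) *ᵥ w j ≠ 0 := by
    intro j h0
    apply hw0 j
    have h1 := inv_mul_mulVec g (w j)
    rw [h0, Matrix.mulVec_zero] at h1
    exact h1.symm
  have hc0 : ∀ j, c j ≠ 0 := by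
    intro j h0
    apply hgw0 j
    rw [← hc, h0, zero_smul]
  let d : Fin 4 → Fˣ := fun j => Units.mk0 (c j) (hc0 j)
  have hdv : ∀ j, (d j : F) = c j := fun j => rfl
  have hM : Q⁻¹ * g * Q = monoGL π d := by
    apply Units.ext
    rw [monoGL_val]
    ext a b
    have h1 : (((Q⁻¹ * g * Q : GL (Fin 4) F) : Matrix (Fin 4) (Fin 4) F) *ᵥ Pi.single b 1) a =
        ((Q⁻¹ * g * Q : GL (Fin 4) F) : Matrix (Fin 4) (Fin 4) F) a b := by
      rw [Matrix.mulVec_single_one]
      rfl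
    rw [← h1]
    simp only [Units.val_mul, ← Matrix.mulVec_mulVec]
    have h2 : (g : Matrix (Fin 4) (Fin 4) F) *ᵥ ((Q : Matrix (Fin 4) (Fin 4) F) *ᵥ Pi.single b 1) = c b • w (π b) :=
      (hc b).symm
    rw [h2, Matrix.mulVec_smul, inv_mul_mulVec, monoM_apply]
    by_cases hab : a = π b
    · subst hab
      simp [hdv]
    · simp [hab]
  have hc4 : ∀ j, (d j : F) ^ 4 = 1 := by
    intro j
    rw [← norm_pow4 hS, hdv]
    have h1 := gu_isom hgU (w j) (w j)
    rw [← hc, hs.smul_left, hs.smul_right, hww, hww, mul_one] at h1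
    exact h1
  have hdet : ((Q⁻¹ * g * Q : GL (Fin 4) F) : Matrix (Fin 4) (Fin 4) F).det = 1 := by
    have h1 : (Matrix.GeneralLinearGroup.det g : Fˣ) = 1 := hgS
    have h2 : (g : Matrix (Fin 4) (Fin 4) F).det = 1 := by
      have := congrArg Units.val h1
      simpa using this
    simp only [Units.val_mul]
    rw [Matrix.det_mul, Matrix.det_mul, h2, mul_one, ← Matrix.det_mul, ← Units.val_mul, inv_mul_cancel]
    simp
  rw [hM, monoGL_val, monoM_det, Fin.prod_univ_four] at hdet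
  have hp : ((d 0 : F) * d 1 * d 2 * d 3) ^ 2 = 1 := by
    rcases Int.units_eq_one_or (Equiv.Perm.sign π) with h | h <;> rw [h] at hdet
    · simp only [Units.val_one, Int.cast_one, one_mul] at hdet
      rw [hdet, one_pow]
    · simp only [Units.val_neg, Units.val_one, Int.cast_neg, Int.cast_one] at hdet
      have : (d 0 : F) * d 1 * d 2 * d 3 = -1 := by linear_combination -hdet
      rw [this]
      norm_num
  rw [hM]
  exact mono_norm hS π hc4 hp

/-- The outcome for a frame over the field with nine elements. -/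
theorem frame_q3 (hS : HS F 3 σ) {H : Subgroup (GL (Fin 4) F)} (hH : IsMaximalIn (GSU 4 F 3) H)
    {D : Fin 4 → Submodule F (Fin 4 → F)} (hD : IsNondegenerateMDecomposition (hermForm 4 F 3) 1 D)
    (hle : H ≤ decompositionStabilizer D) :
    ∃ R : Subgroup (GL (Fin 4) F), IsSymplecticTypeGroup 2 R ∧ ActsAbsolutelyIrreducibly (matrixSet R) ∧
      R ≤ similarityGroup (hermForm 4 F 3) ∧ Nat.card R = 64 ∧ Nat.card (Subgroup.center R) = 4 ∧
      H = subgroupNormalizer R ⊓ (GU 4 F 3 ⊓ specialLinear (Fin 4) F) := by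
  obtain ⟨i, hi⟩ := exists_sqrt_neg_one hS
  obtain ⟨Q, hQ, hQD⟩ := exists_frame_basis hS hD
  have h2 := two_ne_zero_F3 hS
  have hX₀ := R0_xbase hS hi
  have hX := hX₀.conj Q
  set R : Subgroup (GL (Fin 4) F) := conjSub Q (R0 F 3) with hR
  have hconj : ∀ x, Q * (Q⁻¹ * x * Q) * Q⁻¹ = x := fun x => by group
  have hRU : R ≤ GU 4 F 3 := by
    intro x hx
    have h1 := (mem_R0.1 (mem_conjSub.1 hx)).1
    have h3 := (GU 4 F 3).mul_mem ((GU 4 F 3).mul_mem hQ h1) ((GU 4 F 3).inv_mem hQ)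
    rwa [hconj] at h3
  have hsim : R ≤ similarityGroup (hermForm 4 F 3) := by
    intro x hx
    exact ⟨1, fun u v => by rw [Units.val_one, one_mul]; exact gu_isom (hRU hx) u v⟩
  have hN : H ≤ subgroupNormalizer R := by
    intro g hg
    have hM := frame_element hS hD hQ hQD (hH.1.le hg).1 (hH.1.le hg).2 (hle hg)
    refine Subgroup.mem_normalizer_iff.2 fun x => ?_
    rw [hR, mem_conjSub, mem_conjSub]
    have e : Q⁻¹ * (g * x * g⁻¹) * Q = (Q⁻¹ * g * Q) * (Q⁻¹ * x * Q) * (Q⁻¹ * g * Q)⁻¹ := by group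
    rw [e]
    exact Subgroup.mem_normalizer_iff.1 hM _
  have hsgn : ∀ x ∈ R, ∀ y ∈ R, x ∈ sgn y := by
    intro x hx y hy
    have h1 := conj_mem_sgn (R0_sgn hS (mem_conjSub.1 hx) (mem_conjSub.1 hy))
    rwa [hconj] at h1
  have hneg₀ : (-1 : GL (Fin 4) F) ∈ R0 F 3 := by
    rw [← sc_neg_one_eq]
    refine (hX₀.scal (-1)).2 ?_
    simp only [Units.val_neg, Units.val_one]
    norm_num
  have hneg : (-1 : GL (Fin 4) F) ∈ R := by
    rw [hR, mem_conjSub]
    have e : Q⁻¹ * (-1 : GL (Fin 4) F) * Q = -1 := by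
      rw [mul_neg, mul_one, neg_mul, inv_mul_cancel]
    rw [e]
    exact hneg₀
  have hy : ∀ x ∈ R, x ∉ scalars (Fin 4) F → ∃ y ∈ R, y * y = -1 ∧ x * y = -(y * x) := by
    intro x hx hns
    have hns₀ : Q⁻¹ * x * Q ∉ scalars (Fin 4) F := by
      intro hz
      obtain ⟨c, hc⟩ := exists_sc hz
      apply hns
      have h3 := hconj x
      rw [hc, ← sc_central] at h3
      rw [← h3]
      simpa using sc_mem c
    obtain ⟨y₀, hy₀, hyy, hxy⟩ := R0_anti hS hi (mem_conjSub.1 hx) hns₀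
    refine ⟨Q * y₀ * Q⁻¹, ?_, ?_, ?_⟩
    · rw [hR, mem_conjSub]
      have e : Q⁻¹ * (Q * y₀ * Q⁻¹) * Q = y₀ := by group
      rw [e]
      exact hy₀
    · calc Q * y₀ * Q⁻¹ * (Q * y₀ * Q⁻¹) = Q * (y₀ * y₀) * Q⁻¹ := by group
        _ = -1 := by
          rw [hyy, mul_neg, mul_one, neg_mul, mul_inv_cancel]
    · have e1 : x * (Q * y₀ * Q⁻¹) = Q * ((Q⁻¹ * x * Q) * y₀) * Q⁻¹ := by group
      have e2 : Q * y₀ * Q⁻¹ * x = Q * (y₀ * (Q⁻¹ * x * Q)) * Q⁻¹ := by group
      rw [e1, hxy, e2, mul_neg, neg_mul]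
  refine ⟨R, hX.symp (hchar_gen hsgn hneg h2 hy) Nat.prime_two (t := 2) (by norm_num) (by norm_num), hX.absR, hsim,
    ?_, hX.card_center (by norm_num), eq_inf_of_max hH hN (not_gsu_le_normalizer_ab4 hS hX.absR hX.comm hsim)⟩
  rw [hX.card_eq (by norm_num)]
  simp

end R4e

end Cfsg.Agent.H28
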