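import Cfsg.Agent.Lib.H28.GSL4b
import Cfsg.Agent.Lib.H28.GSU4i

set_option autoImplicit false
set_option linter.style.haveILetI false
set_option linter.unusedSectionVars false
set_option linter.unusedSimpArgs false

namespace Cfsg.Agent.H28

open scoped MatrixGroups Matrix commutatorElement Kronecker
open Cfsg Cfsg.Geo

section R5a

variable {F : Type*} [Field F] [Fintype F]

/-- The elements commuting up to sign with the generators. -/
def R5 (F : Type*) [Field F] [Fintype F] : Subgroup (GL (Fin 4) F) :=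
  sgn (tA F) ⊓ sgn (tB F) ⊓ sgn (tC F) ⊓ sgn (tD F)

lemma mem_R5 {x : GL (Fin 4) F} :
    x ∈ R5 F ↔ x ∈ sgn (tA F) ∧ x ∈ sgn (tB F) ∧ x ∈ sgn (tC F) ∧ x ∈ sgn (tD F) := by
  simp only [R5, Subgroup.mem_inf]
  tauto

lemma mem_R5' {x : GL (Fin 4) F} : x ∈ R5 F ↔ ∀ t ∈ gens4 F, x ∈ sgn t := by
  rw [mem_R5]
  constructor
  · rintro ⟨h1, h2, h3, h4⟩ t ht
    rcases mem_gens4.1 ht with rfl | rfl | rfl | rfl <;> assumption
  · intro h
    exact ⟨h _ (mem_gens4.2 (by simp)), h _ (mem_gens4.2 (by simp)), h _ (mem_gens4.2 (by simp)),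
      h _ (mem_gens4.2 (by simp))⟩

lemma tA_mem_R5 : tA F ∈ R5 F :=
  mem_R5.2 ⟨Or.inl rfl, Or.inl tA_tB, Or.inl tA_tC, Or.inr tA_tD⟩

lemma tB_mem_R5 : tB F ∈ R5 F :=
  mem_R5.2 ⟨Or.inl tA_tB.symm, Or.inl rfl, Or.inr tB_tC, Or.inl tB_tD⟩

lemma tC_mem_R5 : tC F ∈ R5 F :=
  mem_R5.2 ⟨Or.inl tA_tC.symm, Or.inr (anti_symm tB_tC), Or.inl rfl, Or.inl tC_tD⟩

lemma tD_mem_R5 : tD F ∈ R5 F :=
  mem_R5.2 ⟨Or.inr (anti_symm tA_tD), Or.inl tB_tD.symm, Or.inl tC_tD.symm, Or.inl rfl⟩

lemma gens4_sub5 : gens4 F ⊆ R5 F := by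
  intro t ht
  rcases mem_gens4.1 ht with rfl | rfl | rfl | rfl
  · exact tA_mem_R5
  · exact tB_mem_R5
  · exact tC_mem_R5
  · exact tD_mem_R5

/-- All non-zero elements of the field with five elements are fourth roots of unity. -/
lemma pow4_F5 (hq : Fintype.card F = 5) (c : Fˣ) : (c : F) ^ 4 = 1 := by
  have := FiniteField.pow_card_sub_one_eq_one (c : F) c.ne_zero
  rw [hq] at this
  simpa using this

lemma two_ne_zero_F5 (hq : Fintype.card F = 5) : (2 : F) ≠ 0 := by
  apply two_ne_zero_of_odd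
  rw [hq]
  decide

/-- The exponent. -/
lemma R5_exp (hS : Fintype.card F = 5) (h2 : (2 : F) ≠ 0) {x : GL (Fin 4) F} (hx : x ∈ R5 F) : x ^ 4 = 1 := by
  classical
  obtain ⟨hxA, hxB, hxC, hxD⟩ := mem_R5.1 hx
  obtain ⟨u, hu, hu1, hu2⟩ := pair_reduce hxA hxD tA_tD
  have huR : u ∈ R5 F := by
    rcases hu with rfl | rfl | rfl | rfl
    · exact (R5 F).one_mem
    · exact tD_mem_R5
    · exact tA_mem_R5
    · exact (R5 F).mul_mem (tD_mem_R5) (tA_mem_R5)
  have hx₁R := (R5 F).mul_mem hx huR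
  obtain ⟨-, hx₁B, hx₁C, -⟩ := mem_R5.1 hx₁R
  obtain ⟨v, hv, hv1, hv2⟩ := pair_reduce hx₁B hx₁C tB_tC
  have hvR : v ∈ R5 F := by
    rcases hv with rfl | rfl | rfl | rfl
    · exact (R5 F).one_mem
    · exact tC_mem_R5
    · exact tB_mem_R5
    · exact (R5 F).mul_mem (tC_mem_R5) (tB_mem_R5)
  have hvA : v * tA F = tA F * v := by
    rcases hv with rfl | rfl | rfl | rfl
    · simp
    · exact tA_tC.symm
    · exact tA_tB.symm
    · rw [mul_assoc, tA_tB.symm, ← mul_assoc, tA_tC.symm, mul_assoc]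
  have hvD : v * tD F = tD F * v := by
    rcases hv with rfl | rfl | rfl | rfl
    · simp
    · exact tC_tD
    · exact tB_tD
    · rw [mul_assoc, tB_tD, ← mul_assoc, tC_tD, mul_assoc]
  set z := x * u * v with hz
  have hcomm : ∀ t ∈ gens4 F, z * t = t * z := by
    intro t ht
    rcases mem_gens4.1 ht with rfl | rfl | rfl | rfl
    · rw [hz, mul_assoc, hvA, ← mul_assoc, hu1, mul_assoc]
    · exact hv1
    · exact hv2
    · rw [hz, mul_assoc, hvD, ← mul_assoc, hu2, mul_assoc]
  have hzs := scalar_of_comm_gens (adjoin_gens4 h2) hcomm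
  obtain ⟨s, hs⟩ := exists_sc hzs
  have hzR : z ∈ R5 F := (R5 F).mul_mem hx₁R hvR
  have hs4 : (s : F) ^ 4 = 1 := pow4_F5 hS s
  have hs4' : s ^ 4 = 1 := Units.ext (by simpa using hs4)
  have hu4 : u ^ 4 = 1 := by
    apply pow_four_of_sq
    rcases hu with rfl | rfl | rfl | rfl
    · simp
    · exact Or.inl tD_sq
    · exact Or.inl tA_sq
    · right
      calc tD F * tA F * (tD F * tA F) = tD F * (tA F * tD F) * tA F := by simp only [mul_assoc]
        _ = -1 := by
          rw [tA_tD, mul_neg, neg_mul, ← mul_assoc, tD_sq, one_mul, tA_sq]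
  have hv4 : v ^ 4 = 1 := by
    apply pow_four_of_sq
    rcases hv with rfl | rfl | rfl | rfl
    · simp
    · exact Or.inl tC_sq
    · exact Or.inl tB_sq
    · right
      calc tC F * tB F * (tC F * tB F) = tC F * (tB F * tC F) * tB F := by simp only [mul_assoc]
        _ = -1 := by
          rw [tB_tC, mul_neg, neg_mul, ← mul_assoc, tC_sq, one_mul, tB_sq]
  have huv : Commute u v := by
    have h1 : Commute (tA F) v := hvA.symm
    have h2 : Commute (tD F) v := hvD.symm
    rcases hu with rfl | rfl | rfl | rfl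
    · exact Commute.one_left v
    · exact h2
    · exact h1
    · exact h2.mul_left h1
  have hx4 : x ^ 4 * (u * v) ^ 4 = sc (s ^ 4) := by
    have h3 : x * (u * v) = sc s := by rw [← mul_assoc, ← hz, hs]
    have h4 : Commute x (u * v) := by
      have : x = sc s * (u * v)⁻¹ := by rw [← h3]; group
      rw [this]
      refine Commute.mul_left ?_ ?_
      · exact sc_central s (u * v)
      · exact (Commute.refl (u * v)).inv_left
    rw [← h4.mul_pow, h3, sc_pow]
  rw [huv.mul_pow, hu4, hv4, hs4', sc_one] at hx4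
  simpa using hx4


/-- The data of the group of order 64. -/
theorem R5_xbase (hS : Fintype.card F = 5) {i : F} (hi : i ^ 2 = -1) : XBase (R5 F) i 4 := by
  have h2 := two_ne_zero_F5 hS
  have hadj := adjoin_gens4 h2
  refine ⟨absIrr_of_gens hadj gens4_sub5, ?_, ?_, fun x hx => R5_exp hS h2 hx, fun c => ⟨fun _ => pow4_F5 hS c, fun _ => mem_R5'.2 fun t _ => Or.inl (sc_central c t)⟩⟩
  · rw [Subgroup.commutator_le]
    intro x hx y hy
    apply scalar_of_comm_gens hadj
    intro g hg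
    exact sgn_commutator (mem_R5'.1 hx g hg) (mem_R5'.1 hy g hg)
  · have hneg : (-1 : F) ≠ 1 := by
      intro h
      apply h2
      linear_combination -h
    refine IsPrimitiveRoot.mk_of_lt i (by norm_num) ?_ ?_
    · rw [show (4 : ℕ) = 2 * 2 by norm_num, pow_mul, hi]
      norm_num
    · intro l hl0 hl4 hl
      interval_cases l
      · exfalso
        rw [pow_one] at hl
        rw [hl] at hi
        exact hneg (by simpa using hi.symm)
      · exfalso
        rw [hi] at hl
        exact hneg hl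
      · exfalso
        rw [pow_succ, hi] at hl
        have h1 : i = -1 := by linear_combination -hl
        rw [h1] at hi
        exact hneg (by simpa using hi.symm)

/-- Any two elements commute up to sign. -/
lemma R5_sgn (hS : Fintype.card F = 5) {x y : GL (Fin 4) F} (hx : x ∈ R5 F) (hy : y ∈ R5 F) : x ∈ sgn y := by
  have h2 := two_ne_zero_F5 hS
  have hadj := adjoin_gens4 h2
  have hcomm : ⁅x, y⁆ ∈ scalars (Fin 4) F := by
    apply scalar_of_comm_gens hadj
    intro g hg
    exact sgn_commutator (mem_R5'.1 hx g hg) (mem_R5'.1 hy g hg)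
  obtain ⟨s, hs⟩ := exists_sc hcomm
  have hsq : x * x ∈ scalars (Fin 4) F := by
    apply scalar_of_comm_gens hadj
    intro g hg
    exact sgn_sq (mem_R5'.1 hx g hg)
  have hrel : x * y = sc s * (y * x) := by
    rw [← hs]
    group
  have hc := Subgroup.mem_center_iff.1 (scalars_le_center hsq) y
  have h3 : x * x * y = sc (s * s) * (y * (x * x)) := by
    calc x * x * y = x * (x * y) := by rw [mul_assoc]
      _ = x * (sc s * (y * x)) := by rw [hrel]
      _ = sc s * (x * y) * x := by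
        rw [← mul_assoc x, ← sc_central s x, mul_assoc, mul_assoc, mul_assoc]
      _ = sc s * (sc s * (y * x)) * x := by rw [hrel]
      _ = sc (s * s) * (y * (x * x)) := by
        rw [sc_mul]
        simp only [mul_assoc]
  rw [← hc] at h3
  have h4 : (sc (s * s) : GL (Fin 4) F) = 1 := by
    have h5 : (1 : GL (Fin 4) F) * (y * (x * x)) = sc (s * s) * (y * (x * x)) := by
      rw [one_mul]
      exact h3
    exact (mul_right_cancel h5).symm
  rw [← sc_one] at h4
  have h5 : s * s = 1 := sc_inj h4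
  have h6 : ((s : F) - 1) * ((s : F) + 1) = 0 := by
    have := congrArg Units.val h5
    simp only [Units.val_mul, Units.val_one] at this
    linear_combination this
  rcases mul_eq_zero.1 h6 with h7 | h7
  · left
    have : s = 1 := Units.ext (sub_eq_zero.1 h7)
    rw [hrel, this, sc_one, one_mul]
  · right
    have : s = -1 := Units.ext (by simpa using eq_neg_of_add_eq_zero_left h7)
    rw [hrel, this, sc_neg_mul]

/-- Every non-scalar element anticommutes with an element of square `-1`. -/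
lemma R5_anti (hS : Fintype.card F = 5) {i : F} (hi : i ^ 2 = -1) {x : GL (Fin 4) F} (hx : x ∈ R5 F) (hns : x ∉ scalars (Fin 4) F) :
    ∃ y ∈ R5 F, y * y = -1 ∧ x * y = -(y * x) := by
  have h2 := two_ne_zero_F5 hS
  have hadj := adjoin_gens4 h2
  have hi0 : i ≠ 0 := by
    rintro rfl
    have h3 : (1 : F) = 0 := by linear_combination hi
    exact one_ne_zero h3
  obtain ⟨t, ht, hxt⟩ : ∃ t ∈ gens4 F, x * t ≠ t * x := by
    by_contra hcon
    push Not at hcon
    exact hns (scalar_of_comm_gens hadj hcon)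
  have hanti : x * t = -(t * x) := (mem_R5'.1 hx t ht).resolve_left hxt
  have htt : t * t = 1 := by
    rcases mem_gens4.1 ht with rfl | rfl | rfl | rfl
    · exact tA_sq
    · exact tB_sq
    · exact tC_sq
    · exact tD_sq
  let u : Fˣ := Units.mk0 i hi0
  have hu4 : (u : F) ^ 4 = 1 := by
    simp only [u, Units.val_mk0]
    rw [show (4 : ℕ) = 2 * 2 by norm_num, pow_mul, hi]
    norm_num
  have huR : (sc u : GL (Fin 4) F) ∈ R5 F := ((R5_xbase hS hi).scal u).2 hu4
  have huu : u * u = -1 := Units.ext (by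
    simp only [u, Units.val_mul, Units.val_mk0, Units.val_neg, Units.val_one]
    linear_combination hi)
  refine ⟨sc u * t, (R5 F).mul_mem huR (gens4_sub5 ht), ?_, ?_⟩
  · calc sc u * t * (sc u * t) = sc u * sc u * (t * t) := by
          rw [mul_assoc, ← mul_assoc t, ← sc_central u t]
          simp only [mul_assoc]
      _ = -1 := by rw [← sc_mul, huu, htt, mul_one, sc_neg_one_eq]
  · calc x * (sc u * t) = sc u * (x * t) := by
          rw [← mul_assoc, ← sc_central u x, mul_assoc]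
      _ = sc u * (-(t * x)) := by rw [hanti]
      _ = -(sc u * t * x) := by rw [mul_neg, mul_assoc]

/-- Elements whose conjugates of the generators lie in the group preserve the group. -/
lemma R5_conj_good {g : GL (Fin 4) F} (hS : Fintype.card F = 5) (hg : ∀ t ∈ gens4 F, g⁻¹ * t * g ∈ R5 F) {x : GL (Fin 4) F}
    (hx : x ∈ R5 F) : g * x * g⁻¹ ∈ R5 F := by
  refine mem_R5'.2 fun t ht => ?_
  exact conj_mem_sgn (R5_sgn hS hx (hg t ht))

lemma R5_norm_of_good {g : GL (Fin 4) F} (hS : Fintype.card F = 5) (hg : ∀ t ∈ gens4 F, g⁻¹ * t * g ∈ R5 F)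
    (hg' : ∀ t ∈ gens4 F, g * t * g⁻¹ ∈ R5 F) : g ∈ subgroupNormalizer (R5 F) := by
  refine Subgroup.mem_normalizer_iff.2 fun x => ⟨fun hx => R5_conj_good hS hg hx, fun hx => ?_⟩
  have h1 := R5_conj_good (g := g⁻¹) hS (fun t ht => by
    rw [inv_inv]
    exact hg' t ht) hx
  have e : g⁻¹ * (g * x * g⁻¹) * g⁻¹⁻¹ = x := by group
  rwa [e] at h1

/-- A diagonal matrix with compatible sign patterns lies in the group. -/
lemma diag_mem_R5 (hS : Fintype.card F = 5) {δ : Fin 4 → Fˣ} {κ₁ κ₂ : Fˣ}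
    (hκ₁ : κ₁ = 1 ∨ κ₁ = -1) (hκ₂ : κ₂ = 1 ∨ κ₂ = -1) (h1 : ∀ j, δ (tauC j) = κ₁ * δ j)
    (h2 : ∀ j, δ (tauD j) = κ₂ * δ j) : (monoGL 1 δ : GL (Fin 4) F) ∈ R5 F := by
  refine mem_R5.2 ⟨?_, ?_, ?_, ?_⟩
  · exact mono_mem_sgn (κ := 1) (by simp) (Or.inl rfl) (fun j => by simp [mul_comm])
  · exact mono_mem_sgn (κ := 1) (by simp) (Or.inl rfl) (fun j => by simp [mul_comm])
  · exact mono_mem_sgn (κ := κ₁) (by simp) hκ₁ (fun j => by simp [h1])
  · exact mono_mem_sgn (κ := κ₂) (by simp) hκ₂ (fun j => by simp [h2])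


/-- Diagonal sign matrices of determinant one lie in the group. -/
lemma signs_mem_R5 (hS : Fintype.card F = 5) {s : Fin 4 → Fˣ} (hs : ∀ j, (s j : F) * s j = 1)
    (hp : (s 0 : F) * s 1 * s 2 * s 3 = 1) : (monoGL 1 s : GL (Fin 4) F) ∈ R5 F := by
  have h0 := hs 0
  have h1 := hs 1
  have h2 := hs 2
  have h3 := hs 3
  refine diag_mem_R5 hS (κ₁ := s 0 * s 1) (κ₂ := s 0 * s 2) (units_sq_one ?_) (units_sq_one ?_) (fun j => ?_) (fun j => ?_)
  · simp only [Units.val_mul]
    linear_combination (s 0 : F) * s 0 * h1 + h0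
  · simp only [Units.val_mul]
    linear_combination (s 0 : F) * s 0 * h2 + h0
  · apply Units.ext
    fin_cases j
    · simp only [Fin.zero_eta, tauC_0, Units.val_mul]
      linear_combination (-(s 1 : F)) * h0
    · simp only [Fin.mk_one, tauC_1, Units.val_mul]
      linear_combination (-(s 0 : F)) * h1
    · simp only [Fin.reduceFinMk, tauC_2, Units.val_mul]
      linear_combination (-(s 3 : F)) * hp + (s 0 : F) * s 1 * s 2 * h3
    · simp only [Fin.reduceFinMk, tauC_3, Units.val_mul]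
      linear_combination (-(s 2 : F)) * hp + (s 0 : F) * s 1 * s 3 * h2
  · apply Units.ext
    fin_cases j
    · simp only [Fin.zero_eta, tauD_0, Units.val_mul]
      linear_combination (-(s 2 : F)) * h0
    · simp only [Fin.mk_one, tauD_1, Units.val_mul]
      linear_combination (-(s 3 : F)) * hp + (s 0 : F) * s 1 * s 2 * h3
    · simp only [Fin.reduceFinMk, tauD_2, Units.val_mul]
      linear_combination (-(s 0 : F)) * h2
    · simp only [Fin.reduceFinMk, tauD_3, Units.val_mul]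
      linear_combination (-(s 1 : F)) * hp + (s 0 : F) * s 2 * s 3 * h1

lemma tCD_mem5 (hS : Fintype.card F = 5) : (monoGL (tauC * tauD) (fun _ => 1) : GL (Fin 4) F) ∈ R5 F := by
  have h := (R5 F).mul_mem (tC_mem_R5) (tD_mem_R5)
  rw [tC, tD, monoGL_mul] at h
  convert h using 2
  funext j
  simp

/-- Permutation matrices conjugate the generators into the group. -/
lemma perm_good5 (hS : Fintype.card F = 5) (π : Equiv.Perm (Fin 4)) {t : GL (Fin 4) F} (ht : t ∈ gens4 F) :
    (monoGL π (fun _ => 1) : GL (Fin 4) F)⁻¹ * t * monoGL π (fun _ => 1) ∈ R5 F := by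
  have hprod : ∀ ε : Fin 4 → Fˣ, ∏ j, ε (π j) = ∏ j, ε j := fun ε => Equiv.prod_comp π ε
  have hprod' : ∀ ε : Fin 4 → Fˣ, (ε (π 0) : F) * ε (π 1) * ε (π 2) * ε (π 3) = (ε 0 : F) * ε 1 * ε 2 * ε 3 := by
    intro ε
    have h := congrArg Units.val (hprod ε)
    simpa [Fin.prod_univ_four] using h
  rcases mem_gens4.1 ht with rfl | rfl | rfl | rfl
  · rw [tA, perm_conj_diag]
    refine signs_mem_R5 hS (fun j => epsA_sq _) ?_
    rw [hprod']
    simp [epsA]
  · rw [tB, perm_conj_diag]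
    refine signs_mem_R5 hS (fun j => epsB_sq _) ?_
    rw [hprod']
    simp [epsB]
  · rw [tC, perm_conj_perm]
    rcases tauC_conj π with h | h | h <;> rw [h]
    · exact tC_mem_R5
    · exact tD_mem_R5
    · exact tCD_mem5 hS
  · rw [tD, perm_conj_perm]
    rcases tauD_conj π with h | h | h <;> rw [h]
    · exact tC_mem_R5
    · exact tD_mem_R5
    · exact tCD_mem5 hS

/-- Permutation matrices normalise the group. -/
lemma perm_norm5 (hS : Fintype.card F = 5) (π : Equiv.Perm (Fin 4)) :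
    (monoGL π (fun _ => 1) : GL (Fin 4) F) ∈ subgroupNormalizer (R5 F) := by
  refine R5_norm_of_good hS (fun t ht => perm_good5 hS π ht) (fun t ht => ?_)
  have h := perm_good5 hS π⁻¹ ht
  have e : (monoGL π⁻¹ (fun _ => 1) : GL (Fin 4) F) = (monoGL π (fun _ => 1))⁻¹ := by
    rw [monoGL_inv]
    simp
  rw [e, inv_inv] at h
  exact h

lemma delta_mem_C5 (hS : Fintype.card F = 5) (u v : Fˣ) (h4 : (u : F) ^ 4 = 1) (huv : (u : F) ^ 2 = (v : F) ^ 2) :
    (monoGL 1 ![u, u ^ 3, v, v ^ 3] : GL (Fin 4) F) ∈ R5 F := by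
  have hv4 : (v : F) ^ 4 = 1 := by
    rw [← h4]
    linear_combination -((v : F) ^ 2 + (u : F) ^ 2) * huv
  refine diag_mem_R5 hS (κ₁ := u ^ 2) (κ₂ := v * u ^ 3) (units_sq_one ?_) (units_sq_one ?_) (fun j => ?_) (fun j => ?_)
  · simp only [Units.val_pow_eq_pow_val]
    linear_combination h4
  · simp only [Units.val_mul, Units.val_pow_eq_pow_val]
    linear_combination -((u : F) ^ 6) * huv + ((u : F) ^ 4 + 1) * h4
  · apply Units.ext
    fin_cases j
    · simp only [Fin.zero_eta, tauC_0, Units.val_mul, Units.val_pow_eq_pow_val, Matrix.cons_val]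
      ring
    · simp only [Fin.mk_one, tauC_1, Units.val_mul, Units.val_pow_eq_pow_val, Matrix.cons_val]
      linear_combination -(u : F) * h4
    · simp only [Fin.reduceFinMk, tauC_2, Units.val_mul, Units.val_pow_eq_pow_val, Matrix.cons_val]
      linear_combination -(v : F) * huv
    · simp only [Fin.reduceFinMk, tauC_3, Units.val_mul, Units.val_pow_eq_pow_val, Matrix.cons_val]
      linear_combination -(v : F) * hv4 - (v : F) ^ 3 * huv
  · apply Units.ext
    fin_cases j
    · simp only [Fin.zero_eta, tauD_0, Units.val_mul, Units.val_pow_eq_pow_val, Matrix.cons_val]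
      linear_combination -(v : F) * h4
    · simp only [Fin.mk_one, tauD_1, Units.val_mul, Units.val_pow_eq_pow_val, Matrix.cons_val]
      linear_combination -(v : F) * ((u : F) ^ 2 * h4 + huv)
    · simp only [Fin.reduceFinMk, tauD_2, Units.val_mul, Units.val_pow_eq_pow_val, Matrix.cons_val]
      linear_combination (u : F) ^ 3 * huv - (u : F) * h4
    · simp only [Fin.reduceFinMk, tauD_3, Units.val_mul, Units.val_pow_eq_pow_val, Matrix.cons_val]
      linear_combination -(u : F) ^ 3 * hv4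

lemma delta_mem_D5 (hS : Fintype.card F = 5) (u v : Fˣ) (h4 : (u : F) ^ 4 = 1) (huv : (u : F) ^ 2 = (v : F) ^ 2) :
    (monoGL 1 ![u, v, u ^ 3, v ^ 3] : GL (Fin 4) F) ∈ R5 F := by
  have hv4 : (v : F) ^ 4 = 1 := by
    rw [← h4]
    linear_combination -((v : F) ^ 2 + (u : F) ^ 2) * huv
  refine diag_mem_R5 hS (κ₁ := v * u ^ 3) (κ₂ := u ^ 2) (units_sq_one ?_) (units_sq_one ?_) (fun j => ?_) (fun j => ?_)
  · simp only [Units.val_mul, Units.val_pow_eq_pow_val]
    linear_combination -((u : F) ^ 6) * huv + ((u : F) ^ 4 + 1) * h4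
  · simp only [Units.val_pow_eq_pow_val]
    linear_combination h4
  · apply Units.ext
    fin_cases j
    · simp only [Fin.zero_eta, tauC_0, Units.val_mul, Units.val_pow_eq_pow_val, Matrix.cons_val]
      linear_combination -(v : F) * h4
    · simp only [Fin.mk_one, tauC_1, Units.val_mul, Units.val_pow_eq_pow_val, Matrix.cons_val]
      linear_combination (u : F) ^ 3 * huv - (u : F) * h4
    · simp only [Fin.reduceFinMk, tauC_2, Units.val_mul, Units.val_pow_eq_pow_val, Matrix.cons_val]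
      linear_combination -(v : F) * ((u : F) ^ 2 * h4 + huv)
    · simp only [Fin.reduceFinMk, tauC_3, Units.val_mul, Units.val_pow_eq_pow_val, Matrix.cons_val]
      linear_combination -(u : F) ^ 3 * hv4
  · apply Units.ext
    fin_cases j
    · simp only [Fin.zero_eta, tauD_0, Units.val_mul, Units.val_pow_eq_pow_val, Matrix.cons_val]
      ring
    · simp only [Fin.mk_one, tauD_1, Units.val_mul, Units.val_pow_eq_pow_val, Matrix.cons_val]
      linear_combination -(v : F) * huv
    · simp only [Fin.reduceFinMk, tauD_2, Units.val_mul, Units.val_pow_eq_pow_val, Matrix.cons_val]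
      linear_combination -(u : F) * h4
    · simp only [Fin.reduceFinMk, tauD_3, Units.val_mul, Units.val_pow_eq_pow_val, Matrix.cons_val]
      linear_combination -(v : F) * hv4 - (v : F) ^ 3 * huv


/-- Diagonal matrices with fourth-root entries and square determinant normalise the group. -/
lemma diag_good5 (hS : Fintype.card F = 5) {c : Fin 4 → Fˣ} (hc : ∀ j, (c j : F) ^ 4 = 1)
    (hp : ((c 0 : F) * c 1 * c 2 * c 3) ^ 2 = 1) {t : GL (Fin 4) F} (ht : t ∈ gens4 F) :
    (monoGL 1 c : GL (Fin 4) F)⁻¹ * t * monoGL 1 c ∈ R5 F := by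
  have hQ : (c 0 : F) ^ 2 * (c 3 : F) ^ 2 = (c 1 : F) ^ 2 * (c 2 : F) ^ 2 := by
    linear_combination ((c 1 : F) ^ 2 * (c 2 : F) ^ 2) * hp -
      ((c 0 : F) ^ 2 * (c 3 : F) ^ 2) * ((c 2 : F) ^ 4 * hc 1 + hc 2)
  have h0 : ∀ j, (c j : F) ≠ 0 := fun j => (c j).ne_zero
  have h4 : ∀ a b : Fin 4, (((c a)⁻¹ * c b : Fˣ) : F) ^ 4 = 1 := by
    intro a b
    simp only [Units.val_mul, Units.val_inv_eq_inv_val, mul_pow, inv_pow, hc, inv_one, one_mul]
  rcases mem_gens4.1 ht with rfl | rfl | rfl | rfl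
  · rw [tA, diag_conj_diag]
    exact tA_mem_R5
  · rw [tB, diag_conj_diag]
    exact tB_mem_R5
  · rw [tC, diag_conj_perm]
    refine (R5 F).mul_mem (tC_mem_R5) ?_
    have e : (fun j => (c (tauC j))⁻¹ * c j) = ![(c 1)⁻¹ * c 0, ((c 1)⁻¹ * c 0) ^ 3, (c 3)⁻¹ * c 2, ((c 3)⁻¹ * c 2) ^ 3] := by
      funext j
      rw [cube_eq_inv (h4 1 0), cube_eq_inv (h4 3 2)]
      fin_cases j
      · simp [tauC_0]
      · simp [tauC_1]
      · simp [tauC_2]
      · simp [tauC_3]
    rw [e]
    refine delta_mem_C5 hS _ _ (h4 1 0) ?_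
    simp only [Units.val_mul, Units.val_inv_eq_inv_val]
    have h1 := h0 1
    have h3 := h0 3
    field_simp
    linear_combination hQ
  · rw [tD, diag_conj_perm]
    refine (R5 F).mul_mem (tD_mem_R5) ?_
    have e : (fun j => (c (tauD j))⁻¹ * c j) = ![(c 2)⁻¹ * c 0, (c 3)⁻¹ * c 1, ((c 2)⁻¹ * c 0) ^ 3, ((c 3)⁻¹ * c 1) ^ 3] := by
      funext j
      rw [cube_eq_inv (h4 2 0), cube_eq_inv (h4 3 1)]
      fin_cases j
      · simp [tauD_0]
      · simp [tauD_1]
      · simp [tauD_2]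
      · simp [tauD_3]
    rw [e]
    refine delta_mem_D5 hS _ _ (h4 2 0) ?_
    simp only [Units.val_mul, Units.val_inv_eq_inv_val]
    have h1 := h0 2
    have h3 := h0 3
    field_simp
    linear_combination hQ

lemma diag_norm5 (hS : Fintype.card F = 5) {c : Fin 4 → Fˣ} (hc : ∀ j, (c j : F) ^ 4 = 1)
    (hp : ((c 0 : F) * c 1 * c 2 * c 3) ^ 2 = 1) : (monoGL 1 c : GL (Fin 4) F) ∈ subgroupNormalizer (R5 F) := by
  refine R5_norm_of_good hS
    (fun t ht => diag_good5 hS hc hp ht) (fun t ht => ?_)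
  have h := diag_good5 (F := F) (c := fun j => (c j)⁻¹) hS (fun j => by
    simp only [Units.val_inv_eq_inv_val, inv_pow, hc, inv_one]) (by
    simp only [Units.val_inv_eq_inv_val]
    have h0 : ∀ j, (c j : F) ≠ 0 := fun j => (c j).ne_zero
    have h1 := h0 0
    have h2 := h0 1
    have h3 := h0 2
    have h4 := h0 3
    field_simp
    linear_combination -hp) ht
  have e : (monoGL 1 (fun j => (c j)⁻¹) : GL (Fin 4) F) = (monoGL 1 c)⁻¹ := by
    rw [monoGL_inv]
    simp
  rw [e, inv_inv] at h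
  exact h

/-- Monomial matrices with fourth-root entries and square determinant normalise the group. -/
lemma mono_norm5 (hS : Fintype.card F = 5) (π : Equiv.Perm (Fin 4)) {c : Fin 4 → Fˣ} (hc : ∀ j, (c j : F) ^ 4 = 1)
    (hp : ((c 0 : F) * c 1 * c 2 * c 3) ^ 2 = 1) : (monoGL π c : GL (Fin 4) F) ∈ subgroupNormalizer (R5 F) := by
  have e : (monoGL π c : GL (Fin 4) F) = monoGL 1 (fun j => c (π⁻¹ j)) * monoGL π (fun _ => 1) := by
    rw [monoGL_mul]
    congr 1
    · simp
  rw [e]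
  refine Subgroup.mul_mem _ (diag_norm5 hS (fun j => hc _) ?_) (perm_norm5 hS π)
  have h1 : ∏ j, c (π⁻¹ j) = ∏ j, c j := Equiv.prod_comp π⁻¹ c
  have h2 : ((c (π⁻¹ 0) : F) * c (π⁻¹ 1) * c (π⁻¹ 2) * c (π⁻¹ 3)) = (c 0 : F) * c 1 * c 2 * c 3 := by
    have h3 := congrArg Units.val h1
    simpa [Fin.prod_univ_four] using h3
  rw [h2]
  exact hp


/-- An element of the stabiliser of a frame normalises the group of order 64. -/
lemma frame_element5 (hS : Fintype.card F = 5) {g P : GL (Fin 4) F} {π : Equiv.Perm (Fin 4)} {c : Fin 4 → F}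
    (hm : IsMonoGen (((P⁻¹ : GL (Fin 4) F) : Matrix (Fin 4) (Fin 4) F) * (g : Matrix (Fin 4) (Fin 4) F) * (P : Matrix (Fin 4) (Fin 4) F)) π c)
    (hc0 : ∀ i, c i ≠ 0) (hgS : g ∈ specialLinear (Fin 4) F) :
    P⁻¹ * g * P ∈ subgroupNormalizer (R5 F) := by
  classical
  let d : Fin 4 → Fˣ := fun j => Units.mk0 (c j) (hc0 j)
  have hdv : ∀ j, (d j : F) = c j := fun j => rfl
  have hM : P⁻¹ * g * P = monoGL π d := by
    apply Units.ext
    rw [monoGL_val]
    ext a b
    have h1 := hm a b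
    simp only [Units.val_mul]
    rw [h1, monoM_apply]
    by_cases hab : a = π b
    · simp [hab, hdv]
    · simp [hab]
  have hc4 : ∀ j, (d j : F) ^ 4 = 1 := fun j => pow4_F5 hS (d j)
  have hdet : ((P⁻¹ * g * P : GL (Fin 4) F) : Matrix (Fin 4) (Fin 4) F).det = 1 := by
    have h1 : (Matrix.GeneralLinearGroup.det g : Fˣ) = 1 := hgS
    have h2 : (g : Matrix (Fin 4) (Fin 4) F).det = 1 := by
      have := congrArg Units.val h1
      simpa using this
    simp only [Units.val_mul]
    rw [Matrix.det_mul, Matrix.det_mul, h2, mul_one, ← Matrix.det_mul, ← Units.val_mul, inv_mul_cancel]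
    simp
  rw [hM, monoGL_val, monoM_det, Fin.prod_univ_four] at hdet
  have hp : ((d 0 : F) * d 1 * d 2 * d 3) ^ 2 = 1 := by
    rcases Int.units_eq_one_or (Equiv.Perm.sign π) with h | h <;> rw [h] at hdet
    · simp only [Units.val_one, Int.cast_one, one_mul] at hdet
      rw [hdet, one_pow]
    · simp only [Units.val_neg, Units.val_one, Int.cast_neg, Int.cast_one] at hdet
      have : (d 0 : F) * d 1 * d 2 * d 3 = -1 := by linear_combination -hdet
      rw [this]
      norm_num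
  rw [hM]
  exact mono_norm5 hS π hc4 hp

/-- The outcome for a frame over the field with five elements. -/
theorem frame_q5 (hS : Fintype.card F = 5) {H : Subgroup (GL (Fin 4) F)} (hH : IsMaximalIn (specialLinear (Fin 4) F) H)
    {D : Fin (Fintype.card (Fin 4)) → Submodule F (Fin 4 → F)} (hD : IsMDecomposition 1 D)
    (hle : H ≤ decompositionStabilizer D) :
    ∃ R : Subgroup (GL (Fin 4) F), IsLinearSymplecticTypeData 2 R ∧ H = subgroupNormalizer R ⊓ specialLinear (Fin 4) F := by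
  obtain ⟨i, hi⟩ : ∃ i : F, i ^ 2 = -1 := by
    haveI : Fact (Nat.Prime 5) := ⟨by norm_num⟩
    obtain ⟨p, hchar, n, hpp, hn⟩ := FiniteField.card' F
    rw [hS] at hn
    have hp5 : p = 5 := by
      have h6 : p ∣ 5 := by
        rw [hn]
        exact dvd_pow_self p n.pos.ne'
      exact (Nat.prime_dvd_prime_iff_eq hpp (by norm_num)).1 h6
    subst hp5
    refine ⟨2, ?_⟩
    have h5 : (5 : F) = 0 := by exact_mod_cast CharP.cast_eq_zero F 5
    linear_combination h5
  obtain ⟨P, hP⟩ := exists_frame hD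
  have h2 := two_ne_zero_F5 hS
  have hX₀ := R5_xbase hS hi
  have hX := hX₀.conj P
  set R : Subgroup (GL (Fin 4) F) := conjSub P (R5 F) with hR
  have hconj : ∀ x, P * (P⁻¹ * x * P) * P⁻¹ = x := fun x => by group
  have hN : H ≤ subgroupNormalizer R := by
    intro g hg
    obtain ⟨π, c, hm, hc⟩ := hP g (hle hg)
    have hM := frame_element5 hS hm hc (hH.1.le hg)
    refine Subgroup.mem_normalizer_iff.2 fun x => ?_
    rw [hR, mem_conjSub, mem_conjSub]
    have e : P⁻¹ * (g * x * g⁻¹) * P = (P⁻¹ * g * P) * (P⁻¹ * x * P) * (P⁻¹ * g * P)⁻¹ := by group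
    rw [e]
    exact Subgroup.mem_normalizer_iff.1 hM _
  have hsgn : ∀ x ∈ R, ∀ y ∈ R, x ∈ sgn y := by
    intro x hx y hy
    have h1 := conj_mem_sgn (R5_sgn hS (mem_conjSub.1 hx) (mem_conjSub.1 hy))
    rwa [hconj] at h1
  have hneg₀ : (-1 : GL (Fin 4) F) ∈ R5 F := by
    rw [← sc_neg_one_eq]
    exact mem_R5'.2 fun t _ => Or.inl (sc_central _ t)
  have hneg : (-1 : GL (Fin 4) F) ∈ R := by
    rw [hR, mem_conjSub]
    have e : P⁻¹ * (-1 : GL (Fin 4) F) * P = -1 := by
      rw [mul_neg, mul_one, neg_mul, inv_mul_cancel]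
    rw [e]
    exact hneg₀
  have hy : ∀ x ∈ R, x ∉ scalars (Fin 4) F → ∃ y ∈ R, y * y = -1 ∧ x * y = -(y * x) := by
    intro x hx hns
    have hns₀ : P⁻¹ * x * P ∉ scalars (Fin 4) F := by
      intro hz
      obtain ⟨c, hc⟩ := exists_sc hz
      apply hns
      have h3 := hconj x
      rw [hc, ← sc_central] at h3
      rw [← h3]
      simpa using sc_mem c
    obtain ⟨y₀, hy₀, hyy, hxy⟩ := R5_anti hS hi (mem_conjSub.1 hx) hns₀
    refine ⟨P * y₀ * P⁻¹, ?_, ?_, ?_⟩
    · rw [hR, mem_conjSub]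
      have e : P⁻¹ * (P * y₀ * P⁻¹) * P = y₀ := by group
      rw [e]
      exact hy₀
    · calc P * y₀ * P⁻¹ * (P * y₀ * P⁻¹) = P * (y₀ * y₀) * P⁻¹ := by group
        _ = -1 := by
          rw [hyy, mul_neg, mul_one, neg_mul, mul_inv_cancel]
    · have e1 : x * (P * y₀ * P⁻¹) = P * ((P⁻¹ * x * P) * y₀) * P⁻¹ := by group
      have e2 : P * y₀ * P⁻¹ * x = P * (y₀ * (P⁻¹ * x * P)) * P⁻¹ := by group
      rw [e1, hxy, e2, mul_neg, neg_mul]
  refine ⟨R, ?_, eq_inf_of_max hH hN (not_sl_le_normalizer_ab4 hX.absR hX.comm)⟩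
  have hc := hX.card_center (by norm_num)
  have hchar : CharP F 5 := by
    obtain ⟨p, hchar, n, hpp, hn⟩ := FiniteField.card' F
    rw [hS] at hn
    have hp5 : p = 5 := by
      have h6 : p ∣ 5 := by
        rw [hn]
        exact dvd_pow_self p n.pos.ne'
      exact (Nat.prime_dvd_prime_iff_eq hpp (by norm_num)).1 h6
    subst hp5
    exact hchar
  refine ⟨hX.symp (hchar_gen hsgn hneg h2 hy) Nat.prime_two (t := 2) (by norm_num) (by norm_num), hX.absR, ?_⟩
  refine ⟨5, 1, by norm_num, ⟨by norm_num, hchar, by rw [hS, pow_one], by rw [hc]; norm_num, fun d hd hd' => by omega⟩, ?_⟩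
  refine Or.inr (Or.inl ⟨rfl, rfl, hc, by simp, 2, ?_⟩)
  rw [hX.card_eq (by norm_num)]
  simp

end R5a

end Cfsg.Agent.H28
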