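import Cfsg.Agent.Lib.H28.GX7

set_option autoImplicit false
set_option linter.style.haveILetI false
set_option linter.unusedSectionVars false

namespace Cfsg.Agent.H28

open scoped MatrixGroups Matrix commutatorElement Kronecker
open Cfsg Cfsg.Geo

section SL8

variable {F : Type*} [Field F] [Fintype F]

/-- The symplectic type clause for dimension eight. -/
theorem xdata4_sl8 {H N R : Subgroup (GL (Fin 8) F)} {i : F} (hX : XData H N R i 4)
    (hp : ∃ p : ℕ, p.Prime ∧ Fintype.card F = p ∧ 2 ≠ p ∧ CharP F p ∧ 4 ∣ p - 1) :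
    (∃ p : ℕ, p.Prime ∧ Fintype.card F = p ∧ p % 4 = 1) ∧ IsLinearSymplecticTypeData 2 R := by
  obtain ⟨p, hpp, hcard, h2p, hchar, hdvd⟩ := hp
  have h1 : 1 ≤ p := hpp.pos
  refine ⟨⟨p, hpp, hcard, by omega⟩, ?_⟩
  refine ⟨hX.symp (by simp) Nat.prime_two (t := 2) (by norm_num) (by norm_num), hX.absIrr, ?_⟩
  have hc := hX.card_center (by norm_num)
  refine ⟨p, 1, h2p, ⟨hpp, hchar, by rw [hcard, pow_one], by rw [hc, pow_one]; exact hdvd, fun d hd hd' => by omega⟩, ?_⟩
  refine Or.inr (Or.inl ⟨rfl, rfl, hc, by simp, 3, ?_⟩)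
  rw [hX.card_eq (by norm_num)]
  simp

theorem sl8_conc {H : Subgroup (GL (Fin 8) F)} (hH : IsMaximalIn (specialLinear (Fin 8) F) H) :
    SLConclG (Fin 8) F H ∨
    ((∃ p : ℕ, p.Prime ∧ Fintype.card F = p ∧ p % 4 = 1) ∧ ∃ R : Subgroup (GL (Fin 8) F),
      IsLinearSymplecticTypeData 2 R ∧ H = subgroupNormalizer R ⊓ specialLinear (Fin 8) F) := by
  have hcases := main_sl_gen hH (by simp)
  rcases hcases with h | ⟨w, e, P, hw, hle⟩ | ⟨N, hN, hNa, hc, hirr, hd, hmin⟩ | ⟨N, T, hN, hfac, hirr, hd⟩
  · exact Or.inl h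
  · -- the equal tensor case cannot occur
    exfalso
    have hcard : w * w = 8 := by
      have := Fintype.card_congr e
      simpa using this.symm
    have hw3 : w < 3 := by nlinarith
    interval_cases w
    omega
  · by_cases hi : ∃ i : F, i ^ 2 = -1
    · obtain ⟨i, hi⟩ := hi
      obtain ⟨R, hX, _⟩ := exists_xdata4 hN hNa hc hd hmin (by simp) (s := 3) (by simp) hi
      rcases xdata_sl hH (by simp) hX (by norm_num) (by
        intro a ha hcop
        have h3 : a % 2 ≠ 0 := by
          intro h0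
          have : 2 ∣ Nat.gcd a 4 := Nat.dvd_gcd (Nat.dvd_of_mod_eq_zero h0) (by norm_num)
          rw [hcop] at this
          omega
        omega) Nat.prime_two (t := 2) (by norm_num) with h | ⟨hp, hE⟩
      · exact Or.inl h
      · obtain ⟨h1, h2⟩ := xdata4_sl8 hX hp
        exact Or.inr ⟨h1, R, h2, hE⟩
    · push Not at hi
      obtain ⟨R, hle, hRa, hRc, hscal, hneg⟩ := exists_R_nonsquare hN hNa hc hmin (by simp) (s := 3) (by simp) hi
      have h2 : (2 : F) ≠ 0 := by
        intro h
        apply hneg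
        linear_combination -h
      have h8 : ((Fintype.card (Fin 8) : ℕ) : F) ≠ 0 := by
        have : ((Fintype.card (Fin 8) : ℕ) : F) = 2 ^ 3 := by
          simp
          norm_num
        rw [this]
        exact pow_ne_zero _ h2
      obtain ⟨f, hfb, hnd, hinv, hsym⟩ := exists_inv_form hRa hRc hneg h8 hscal
      exact Or.inl (sl_conc_of_form hH (by simp) hle hRa hneg hfb hnd hinv hsym)
  · obtain ⟨w, k, e, B, hw, hk, hle⟩ := hfac.le_wreath (by simp)
    have hcard : w ^ k = 8 := by
      have := Fintype.card_congr e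
      simpa using this.symm
    have hk3 : k = 3 := by
      by_contra hne
      by_cases hk2 : k = 2
      · subst hk2
        have hw3 : w < 3 := by nlinarith
        interval_cases w
        omega
      · have h4 : 4 ≤ k := by omega
        have := (Nat.pow_le_pow_left hw 4).trans (Nat.pow_le_pow_right (by omega) h4)
        omega
    subst hk3
    have hw2 : w = 2 := by
      by_contra hne
      have h3 : 3 ≤ w := by omega
      have := Nat.pow_le_pow_left h3 3
      omega
    subst hw2
    obtain ⟨f, hf, hsim⟩ := wreath_two_le_sim (F := F) (by decide) e B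
    exact Or.inl (Or.inr (Or.inr (Or.inr (Or.inr (Or.inr (Or.inr (Or.inl ⟨f, hf,
      eq_inf_of_max hH (hle.trans hsim) (not_sl_le_sim (sesq_of_bilinear hf.bilinear)
        (fun v hv => (hf.nondegenerate v hv).1) (by simp))⟩)))))))

end SL8

end Cfsg.Agent.H28
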