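import Cfsg.Agent.Lib.H28.GSL4c
import Cfsg.Agent.Lib.H28.GSL8

set_option autoImplicit false
set_option linter.style.haveILetI false
set_option linter.unusedSectionVars false
set_option linter.unusedSimpArgs false

namespace Cfsg.Agent.H28

open scoped MatrixGroups Matrix commutatorElement Kronecker
open Cfsg Cfsg.Geo

section SL4Main

variable {F : Type*} [Field F] [Fintype F]

/-- The clauses of the statement on maximal subgroups of the special linear group in dimension four. -/
def SL4Concl (H : Subgroup (GL (Fin 4) F)) : Prop :=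
    (∃ W : Submodule F (Fin 4 → F), W ≠ ⊥ ∧ W ≠ ⊤ ∧ H = subspaceStabilizer W ⊓ specialLinear (Fin 4) F) ∨
    (7 ≤ Fintype.card F ∧ ∃ D : Fin 4 → Submodule F (Fin 4 → F), IsMDecomposition 1 D ∧ H = decompositionStabilizer D ⊓ specialLinear (Fin 4) F) ∨
    (4 ≤ Fintype.card F ∧ ∃ D : Fin 2 → Submodule F (Fin 4 → F), IsMDecomposition 2 D ∧ H = decompositionStabilizer D ⊓ specialLinear (Fin 4) F) ∨
    (∃ K : Subalgebra F (Matrix (Fin 4) (Fin 4) F), IsFieldSubalgebra 2 K ∧ H = subalgebraNormalizer K ⊓ specialLinear (Fin 4) F) ∨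
    (∃ (F₀ : Subfield F) (r : ℕ) (P : GL (Fin 4) F), r.Prime ∧ Fintype.card F = Nat.card F₀ ^ r ∧ H = subfieldSubgroup F₀ P ⊓ specialLinear (Fin 4) F) ∨
    (∃ (p : ℕ) (R : Subgroup (GL (Fin 4) F)), p.Prime ∧ Fintype.card F = p ∧ p % 4 = 1 ∧ IsLinearSymplecticTypeData 2 R ∧ H = subgroupNormalizer R ⊓ specialLinear (Fin 4) F) ∨
    (Odd (Fintype.card F) ∧ ∃ Q : (Fin 4 → F) → F, IsNondegenerateQuadraticForm Q ∧ H = quadSimilarityGroup Q ⊓ specialLinear (Fin 4) F) ∨
    (∃ f : (Fin 4 → F) → (Fin 4 → F) → F, IsSymplecticForm f ∧ H = similarityGroup f ⊓ specialLinear (Fin 4) F) ∨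
    (∃ (σ : F ≃+* F) (f : (Fin 4 → F) → (Fin 4 → F) → F), IsUnitaryForm σ f ∧ H = similarityGroup f ⊓ specialLinear (Fin 4) F) ∨
    InLinearResidualClass H

lemma card_ne_six : Fintype.card F ≠ 6 := by
  obtain ⟨p, hchar, n, hpp, hn⟩ := FiniteField.card' F
  intro h
  rw [h] at hn
  exact not_prime_power_of (n := 6) (a := 2) (b := 3) (by norm_num) (by norm_num) (by norm_num) (by norm_num)
    (by norm_num) p n hpp hn

lemma sq_one_of_card_three (hq : Fintype.card F = 3) (c : F) (hc : c ≠ 0) : c * c = 1 := by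
  have := FiniteField.pow_card_sub_one_eq_one c hc
  rw [hq] at this
  rw [← sq]
  simpa using this

/-- The passage from the general list to the list in dimension four. -/
theorem of_slg4 {H : Subgroup (GL (Fin 4) F)} (hH : IsMaximalIn (specialLinear (Fin 4) F) H)
    (h : SLConclG (Fin 4) F H) : SL4Concl H := by
  rcases h with h | ⟨t, m, D, htm, hm1, hm2, hD, hE⟩ | ⟨r, K, hr, hrn, hK, hE⟩ | ⟨n₁, n₂, e, P, hn₁, hlt, -, hE⟩ | h | h | h | h | h
  · exact Or.inl h
  · have htwo := hD.two_le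
    have hm0 := hD.pos
    rw [Fintype.card_fin] at htm
    have hcases : (t = 4 ∧ m = 1) ∨ (t = 2 ∧ m = 2) := by
      have hm4 : m ≤ 2 := by nlinarith
      interval_cases m <;> omega
    rcases hcases with ⟨rfl, rfl⟩ | ⟨rfl, rfl⟩
    · have h5 := hm1 rfl
      by_cases hq5 : Fintype.card F = 5
      · obtain ⟨R, hR, hE'⟩ := frame_q5 hq5 hH (D := D) hD (by rw [hE]; exact inf_le_left)
        exact Or.inr (Or.inr (Or.inr (Or.inr (Or.inr (Or.inl ⟨5, R, by norm_num, hq5, by norm_num, hR, hE'⟩)))))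
      · have h7 : 7 ≤ Fintype.card F := by
          have := card_ne_six (F := F)
          omega
        exact Or.inr (Or.inl ⟨h7, D, hD, hE⟩)
    · have h3 := hm2 rfl
      by_cases hq3 : Fintype.card F = 3
      · obtain ⟨f, hf, hle⟩ := pair_small_sim (sq_one_of_card_three hq3) hD
        refine Or.inr (Or.inr (Or.inr (Or.inr (Or.inr (Or.inr (Or.inr (Or.inl ⟨f, hf,
          eq_inf_of_max hH ?_ (not_sl_le_sim (sesq_of_bilinear hf.bilinear)
            (fun v hv => (hf.nondegenerate v hv).1) (by simp))⟩)))))))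
        intro g hg
        refine hle ?_
        rw [hE] at hg
        exact hg
      · exact Or.inr (Or.inr (Or.inl ⟨by omega, D, hD, hE⟩))
  · have hr2 : r = 2 := by
      have hrn' : r ∣ 4 := by simpa using hrn
      have h1 := Nat.le_of_dvd (by norm_num) hrn'
      have h3 := hr.two_le
      have h4 : r = 2 ∨ r = 3 ∨ r = 4 := by omega
      rcases h4 with h4 | h4 | h4
      · exact h4
      · subst h4
        omega
      · subst h4
        exact absurd hr (by norm_num)
    subst hr2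
    exact Or.inr (Or.inr (Or.inr (Or.inl ⟨K, hK, hE⟩)))
  · exfalso
    have hcard : n₁ * n₂ = 4 := by
      have := Fintype.card_congr e
      simpa using this.symm
    nlinarith
  · exact Or.inr (Or.inr (Or.inr (Or.inr (Or.inl h))))
  · exact Or.inr (Or.inr (Or.inr (Or.inr (Or.inr (Or.inr (Or.inl h))))))
  · exact Or.inr (Or.inr (Or.inr (Or.inr (Or.inr (Or.inr (Or.inr (Or.inl h)))))))
  · exact Or.inr (Or.inr (Or.inr (Or.inr (Or.inr (Or.inr (Or.inr (Or.inr (Or.inl h))))))))
  · exact Or.inr (Or.inr (Or.inr (Or.inr (Or.inr (Or.inr (Or.inr (Or.inr (Or.inr h))))))))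

/-- The symplectic type clause for dimension four. -/
theorem xdata4_sl4 {H N R : Subgroup (GL (Fin 4) F)} {i : F} (hX : XData H N R i 4)
    (hp : ∃ p : ℕ, p.Prime ∧ Fintype.card F = p ∧ 2 ≠ p ∧ CharP F p ∧ 4 ∣ p - 1) :
    (∃ p : ℕ, p.Prime ∧ Fintype.card F = p ∧ p % 4 = 1) ∧ IsLinearSymplecticTypeData 2 R := by
  obtain ⟨p, hpp, hcard, h2p, hchar, hdvd⟩ := hp
  have h1 : 1 ≤ p := hpp.pos
  refine ⟨⟨p, hpp, hcard, by omega⟩, ?_⟩
  refine ⟨hX.symp (by simp) Nat.prime_two (t := 2) (by norm_num) (by norm_num), hX.absIrr, ?_⟩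
  have hc := hX.card_center (by norm_num)
  refine ⟨p, 1, h2p, ⟨hpp, hchar, by rw [hcard, pow_one], by rw [hc, pow_one]; exact hdvd, fun d hd hd' => by omega⟩, ?_⟩
  refine Or.inr (Or.inl ⟨rfl, rfl, hc, by simp, 2, ?_⟩)
  rw [hX.card_eq (by norm_num)]
  simp

/-- The classification of maximal subgroups of the special linear group in dimension four. -/
theorem sl4_main {H : Subgroup (GL (Fin 4) F)} (hH : IsMaximalIn (specialLinear (Fin 4) F) H) : SL4Concl H := by
  rcases main_sl_gen hH (by simp) with h | ⟨w, e, P, hw, hle⟩ | ⟨N, hN, hNa, hc, hirr, hd, hmin⟩ | ⟨N, T, hN, hfac, hirr, hd⟩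
  · exact of_slg4 hH h
  · have hcard : w * w = 4 := by
      have := Fintype.card_congr e
      simpa using this.symm
    have hw2 : w = 2 := by nlinarith
    subst hw2
    exact of_slg4 hH (tensor22_sl4 hH (hle.trans (tensor_le_wreath e P)))
  · by_cases hi : ∃ i : F, i ^ 2 = -1
    · obtain ⟨i, hi⟩ := hi
      obtain ⟨R, hX, _⟩ := exists_xdata4 hN hNa hc hd hmin (by simp) (s := 2) (by simp) hi
      rcases xdata_sl_gen hH (by simp) (not_sl_le_normalizer_ab4 hX.absIrr hX.commR) hX (by norm_num) (by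
        intro a ha hcop
        have h3 : a % 2 ≠ 0 := by
          intro h0
          have : 2 ∣ Nat.gcd a 4 := Nat.dvd_gcd (Nat.dvd_of_mod_eq_zero h0) (by norm_num)
          rw [hcop] at this
          omega
        omega) Nat.prime_two (t := 2) (by norm_num) with h | ⟨hp, hE⟩
      · exact of_slg4 hH h
      · obtain ⟨⟨p, hpp, hq, hp1⟩, h2⟩ := xdata4_sl4 hX hp
        exact Or.inr (Or.inr (Or.inr (Or.inr (Or.inr (Or.inl ⟨p, R, hpp, hq, hp1, h2, hE⟩)))))
    · push Not at hi
      obtain ⟨R, hle, hRa, hRc, hscal, hneg⟩ := exists_R_nonsquare hN hNa hc hmin (by simp) (s := 2) (by simp) hi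
      have h2 : (2 : F) ≠ 0 := by
        intro h
        apply hneg
        linear_combination -h
      have h8 : ((Fintype.card (Fin 4) : ℕ) : F) ≠ 0 := by
        have : ((Fintype.card (Fin 4) : ℕ) : F) = 2 ^ 2 := by
          simp
          norm_num
        rw [this]
        exact pow_ne_zero _ h2
      obtain ⟨f, hfb, hnd, hinv, hsym⟩ := exists_inv_form hRa hRc hneg h8 hscal
      exact of_slg4 hH (sl_conc_of_form hH (by simp) hle hRa hneg hfb hnd hinv hsym)
  · obtain ⟨hw, φ, M, e, B, hφ, hM, hB, hle⟩ := hfac.square_data (w₀ := 2) (by simp) (by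
      intro w k hw hk h
      simp only [Fintype.card_fin] at h
      have hk3 : k = 2 := by
        by_contra hne
        have h3 : 3 ≤ k := by omega
        have h4 := (Nat.pow_le_pow_left hw k).trans' (Nat.pow_le_pow_right (by norm_num : 0 < 2) h3)
        omega
      subst hk3
      have hw3 : w < 3 := by nlinarith
      exact ⟨by omega, rfl⟩)
    exact of_slg4 hH (tensor22_sl4 hH hle)

end SL4Main

end Cfsg.Agent.H28
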