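import Cfsg.Agent.Lib.H28.GX5
import Cfsg.Agent.Lib.H28.GWreathF
import Cfsg.Agent.Lib.H28.GArith

set_option autoImplicit false
set_option linter.style.haveILetI false
set_option linter.unusedSectionVars false

namespace Cfsg.Agent.H28

open scoped MatrixGroups Matrix commutatorElement Kronecker
open Cfsg Cfsg.Geo

section SL9

variable {F : Type*} [Field F] [Fintype F]

/-- The symplectic type clause for dimension nine. -/
theorem xdata3_sl9 {H N R : Subgroup (GL (Fin 9) F)} {ω : F} (hX : XData H N R ω 3)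
    (hp : ∃ p : ℕ, p.Prime ∧ Fintype.card F = p ∧ 3 ≠ p ∧ CharP F p ∧ 3 ∣ p - 1) :
    (∃ p : ℕ, p.Prime ∧ Fintype.card F = p ∧ p % 3 = 1) ∧ IsLinearSymplecticTypeData 3 R := by
  obtain ⟨p, hpp, hcard, h3p, hchar, hdvd⟩ := hp
  have h1 : 1 ≤ p := hpp.pos
  refine ⟨⟨p, hpp, hcard, by omega⟩, ?_⟩
  refine ⟨hX.symp (by simp) Nat.prime_three (t := 1) (by norm_num) (by norm_num), hX.absIrr, ?_⟩
  have hc := hX.card_center (by norm_num)
  refine ⟨p, 1, h3p, ⟨hpp, hchar, by rw [hcard, pow_one], by rw [hc, pow_one]; exact hdvd, fun d hd hd' => by omega⟩, ?_⟩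
  refine Or.inl ⟨by decide, by decide, hc, 2, by norm_num, ?_⟩
  rw [hX.card_eq (by norm_num)]
  simp

theorem sl9_conc {H : Subgroup (GL (Fin 9) F)} (hH : IsMaximalIn (specialLinear (Fin 9) F) H) :
    SLConclG (Fin 9) F H ∨
    (∃ (e : Fin 9 ≃ (Fin 2 → Fin 3)) (P : GL (Fin 9) F),
      H = tensorWreathSubgroup 3 2 e P ⊓ specialLinear (Fin 9) F) ∨
    ((∃ p : ℕ, p.Prime ∧ Fintype.card F = p ∧ p % 3 = 1) ∧ ∃ R : Subgroup (GL (Fin 9) F),
      IsLinearSymplecticTypeData 3 R ∧ H = subgroupNormalizer R ⊓ specialLinear (Fin 9) F) := by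
  have hcases := main_sl_gen hH (by simp)
  rcases hcases with h | ⟨w, e, P, hw, hle⟩ | ⟨N, hN, hNa, hc, hirr, hd, hmin⟩ | ⟨N, T, hN, hfac, hirr, hd⟩
  · exact Or.inl h
  · -- the equal tensor case
    have hcard : w * w = 9 := by
      have := Fintype.card_congr e
      simpa using this.symm
    have hw3 : w = 3 := by nlinarith
    subst hw3
    refine Or.inr (Or.inl ⟨e.trans (piFinTwoEquiv fun _ => Fin 3).symm, P, ?_⟩)
    exact eq_inf_of_max hH (hle.trans (tensor_le_wreath e P)) (not_sl_le_wreath (by norm_num) (by norm_num) _ _)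
  · obtain ⟨ω, R, hX⟩ := exists_xdata3 hN hNa hc hd hmin (by simp) (s := 2) (by simp)
    rcases xdata_sl hH (by simp) hX (by norm_num) (by
      intro a ha hcop
      have h3 : a % 3 ≠ 0 := by
        intro h0
        have : 3 ∣ Nat.gcd a 3 := Nat.dvd_gcd (Nat.dvd_of_mod_eq_zero h0) dvd_rfl
        rw [hcop] at this
        omega
      omega) Nat.prime_three (t := 1) (by norm_num) with h | ⟨hp, hE⟩
    · exact Or.inl h
    · obtain ⟨h1, h2⟩ := xdata3_sl9 hX hp
      exact Or.inr (Or.inr ⟨h1, R, h2, hE⟩)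
  · obtain ⟨w, k, e, B, hw, hk, hle⟩ := hfac.le_wreath (by simp)
    have hcard : w ^ k = 9 := by
      have := Fintype.card_congr e
      simpa using this.symm
    have hk2 : k = 2 := by
      by_contra hne
      have hk3 : 3 ≤ k := by omega
      have h1 : 2 ^ 4 ≤ w ^ k ∨ k = 3 := by
        by_cases h : k = 3
        · exact Or.inr h
        · exact Or.inl ((Nat.pow_le_pow_left hw 4).trans (Nat.pow_le_pow_right (by omega) (by omega)))
      rcases h1 with h1 | rfl
      · omega
      · have : w ≤ 2 := by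
          by_contra h
          have h3 : 3 ≤ w := by omega
          have := Nat.pow_le_pow_left h3 3
          omega
        have : w = 2 := by omega
        subst this
        omega
    subst hk2
    have hw3 : w = 3 := by nlinarith
    subst hw3
    exact Or.inr (Or.inl ⟨e, B, eq_inf_of_max hH hle (not_sl_le_wreath (by norm_num) (by norm_num) _ _)⟩)

end SL9

end Cfsg.Agent.H28
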