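import Cfsg.Agent.Lib.H28.GSU8

set_option autoImplicit false
set_option linter.style.haveILetI false
set_option linter.unusedSectionVars false
set_option linter.unusedSimpArgs false

namespace Cfsg.Agent.H28

open scoped MatrixGroups Matrix commutatorElement Kronecker
open Cfsg Cfsg.Geo

section SU4Proper

variable {F : Type*} [Field F] [Fintype F] {q : ℕ} {σ : F ≃+* F}

/-- The subfield subgroups are proper in dimension four. -/
lemma not_gsu_le_subfield4 (hS : HS F q σ) {F₁ : Subfield F} (τ : F ≃+* F)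
    (hτ : ∀ x, τ x = x ↔ x ∈ F₁) (h0 : F₁ ≠ ⊤) (P : GL (Fin 4) F) :
    ¬ GSU 4 F q ≤ subfieldSubgroup F₁ P := by
  intro hle
  have hf := herm_sesq (n := 4) hS
  obtain ⟨a₀, ha₀0, ha₀⟩ := hS.exists_trace_zero
  set Pi' : Matrix (Fin 4) (Fin 4) F := ((P⁻¹ : GL (Fin 4) F) : Matrix (Fin 4) (Fin 4) F) with hPi'
  have key : ∀ u : Fin 4 → F, hermForm 4 F q u u = 0 → u ≠ 0 →
      ∃ κ : F, κ ≠ 0 ∧ ∀ i, τ ((Pi' *ᵥ u) i) = κ * (Pi' *ᵥ u) i := by
    intro u hu hu0
    obtain ⟨μ, hμ⟩ := mem_subfieldSubgroup.1 (hle (ut_mem hS hu ha₀))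
    have hentry : ∀ i j, (Pi' * ((ut hS hu a₀ : GL (Fin 4) F) : Matrix (Fin 4) (Fin 4) F) *
        (P : Matrix (Fin 4) (Fin 4) F)) i j = (if i = j then 1 else 0) +
          a₀ * hermForm 4 F q ((P : Matrix (Fin 4) (Fin 4) F) *ᵥ Pi.single j 1) u * (Pi' *ᵥ u) i := by
      intro i j
      have e1 : (Pi' * ((ut hS hu a₀ : GL (Fin 4) F) : Matrix (Fin 4) (Fin 4) F) *
          (P : Matrix (Fin 4) (Fin 4) F)) *ᵥ Pi.single j 1 = Pi' *ᵥ (((ut hS hu a₀ : GL (Fin 4) F) :
            Matrix (Fin 4) (Fin 4) F) *ᵥ ((P : Matrix (Fin 4) (Fin 4) F) *ᵥ Pi.single j 1)) := by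
        simp only [Matrix.mulVec_mulVec, Matrix.mul_assoc]
      rw [ut_mulVec, Matrix.mulVec_add, hPi', inv_mul_mulVec, Matrix.mulVec_smul, ← hPi',
        Matrix.mulVec_single_one] at e1
      have e2 := congrFun e1 i
      simp only [Matrix.col_apply, Pi.add_apply, Pi.smul_apply, smul_eq_mul, Pi.single_apply] at e2
      rw [e2]
    set s : Fin 4 → F := fun j => a₀ * hermForm 4 F q ((P : Matrix (Fin 4) (Fin 4) F) *ᵥ Pi.single j 1) u with hs
    set x : Fin 4 → F := Pi' *ᵥ u with hx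
    have hsum : s 0 * x 0 + s 1 * x 1 + s 2 * x 2 + s 3 * x 3 = 0 := by
      have h2 := (hf.comp_mat (P : Matrix (Fin 4) (Fin 4) F)).expand_left (Pi' *ᵥ u) (Pi' *ᵥ u)
      simp only [hPi', mul_inv_mulVec] at h2
      rw [hu, Fin.sum_univ_four] at h2
      simp only [hs, ← hx]
      have e3 : x = ((P⁻¹ : GL (Fin 4) F) : Matrix (Fin 4) (Fin 4) F) *ᵥ u := rfl
      rw [e3]
      linear_combination -a₀ * h2
    have hμ1 : ∀ i j, (μ : F) * ((if i = j then 1 else 0) + s j * x i) ∈ F₁ := by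
      intro i j
      have := hμ i j
      rwa [hentry] at this
    have hμ0 : (μ : F) ∈ F₁ := by
      by_cases h2 : (2 : F) = 0
      · -- the square of the matrix
        have h3 : (μ : F) ^ 2 = ((μ : F) * ((if (0 : Fin 4) = 0 then 1 else 0) + s 0 * x 0)) *
              ((μ : F) * ((if (0 : Fin 4) = 0 then 1 else 0) + s 0 * x 0)) +
            ((μ : F) * ((if (0 : Fin 4) = 1 then 1 else 0) + s 1 * x 0)) *
              ((μ : F) * ((if (1 : Fin 4) = 0 then 1 else 0) + s 0 * x 1)) +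
            ((μ : F) * ((if (0 : Fin 4) = 2 then 1 else 0) + s 2 * x 0)) *
              ((μ : F) * ((if (2 : Fin 4) = 0 then 1 else 0) + s 0 * x 2)) +
            ((μ : F) * ((if (0 : Fin 4) = 3 then 1 else 0) + s 3 * x 0)) *
              ((μ : F) * ((if (3 : Fin 4) = 0 then 1 else 0) + s 0 * x 3)) := by
          have e0 : (0 : Fin 4) ≠ 1 := by decide
          have e0' : (1 : Fin 4) ≠ 0 := by decide
          have e1 : (0 : Fin 4) ≠ 2 := by decide
          have e1' : (2 : Fin 4) ≠ 0 := by decide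
          have e2 : (0 : Fin 4) ≠ 3 := by decide
          have e2' : (3 : Fin 4) ≠ 0 := by decide
          simp only [if_true, if_neg e0, if_neg e0', if_neg e1, if_neg e1', if_neg e2, if_neg e2', zero_add]
          linear_combination (-(μ : F) ^ 2 * (s 0 * x 0)) * hsum - (μ : F) ^ 2 * (s 0 * x 0) * h2
        have h4 : (μ : F) ^ 2 ∈ F₁ := by
          rw [h3]
          exact F₁.add_mem (F₁.add_mem (F₁.add_mem (F₁.mul_mem (hμ1 0 0) (hμ1 0 0))
            (F₁.mul_mem (hμ1 0 1) (hμ1 1 0))) (F₁.mul_mem (hμ1 0 2) (hμ1 2 0)))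
            (F₁.mul_mem (hμ1 0 3) (hμ1 3 0))
        rw [← hτ] at h4 ⊢
        rw [map_pow] at h4
        have h5 : (τ (μ : F) - (μ : F)) ^ 2 = 0 := by
          linear_combination h4 + ((μ : F) ^ 2 - (τ (μ : F)) * (μ : F)) * h2
        exact sub_eq_zero.1 (pow_eq_zero_iff (by norm_num) |>.1 h5)
      · have h3 : (4 : F) * (μ : F) = (μ : F) * ((if (0 : Fin 4) = 0 then 1 else 0) + s 0 * x 0) +
            (μ : F) * ((if (1 : Fin 4) = 1 then 1 else 0) + s 1 * x 1) +
            (μ : F) * ((if (2 : Fin 4) = 2 then 1 else 0) + s 2 * x 2) +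
            (μ : F) * ((if (3 : Fin 4) = 3 then 1 else 0) + s 3 * x 3) := by
          simp only [if_true]
          linear_combination (-(μ : F)) * hsum
        have h4 : (4 : F) * (μ : F) ∈ F₁ := by
          rw [h3]
          exact F₁.add_mem (F₁.add_mem (F₁.add_mem (hμ1 0 0) (hμ1 1 1)) (hμ1 2 2)) (hμ1 3 3)
        have h40 : (4 : F) ≠ 0 := by
          have : (4 : F) = 2 * 2 := by norm_num
          rw [this]
          exact mul_ne_zero h2 h2
        have h5 : (4 : F) ∈ F₁ := by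
          have := F₁.add_mem (F₁.add_mem (F₁.one_mem) (F₁.one_mem)) (F₁.add_mem (F₁.one_mem) (F₁.one_mem))
          convert this using 1
          norm_num
        have h6 := F₁.mul_mem (F₁.inv_mem h5) h4
        rwa [← mul_assoc, inv_mul_cancel₀ h40, one_mul] at h6
    obtain ⟨j₁, hj₁⟩ : ∃ j, hermForm 4 F q ((P : Matrix (Fin 4) (Fin 4) F) *ᵥ Pi.single j 1) u ≠ 0 := by
      by_contra hcon
      push Not at hcon
      obtain ⟨y, hy⟩ := exists_herm_ne hS hu0
      apply hy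
      have h2 := (hf.comp_mat (P : Matrix (Fin 4) (Fin 4) F)).expand_left (Pi' *ᵥ y) (Pi' *ᵥ u)
      simp only [hPi', mul_inv_mulVec] at h2
      rw [h2]
      apply Finset.sum_eq_zero
      intro j _
      rw [hcon j, mul_zero]
    have hs0 : s j₁ ≠ 0 := mul_ne_zero ha₀0 hj₁
    have hμs : (μ : F) * s j₁ ≠ 0 := mul_ne_zero μ.ne_zero hs0
    have hτ0 : τ ((μ : F) * s j₁) ≠ 0 := by
      rw [Ne, map_eq_zero_iff τ τ.injective]
      exact hμs
    refine ⟨((μ : F) * s j₁) / τ ((μ : F) * s j₁), div_ne_zero hμs hτ0, fun i => ?_⟩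
    have h1 := hμ1 i j₁
    rw [mul_add] at h1
    have h2 : (μ : F) * (if i = j₁ then 1 else 0) ∈ F₁ := by
      split_ifs
      · simpa using hμ0
      · simp
    have h3 := F₁.sub_mem h1 h2
    rw [add_sub_cancel_left, ← mul_assoc] at h3
    have h4 := (hτ _).2 h3
    rw [map_mul] at h4
    field_simp
    rw [mul_comm (τ (x i))]
    linear_combination h4
  obtain ⟨u₁, hu₁0, -, hu₁⟩ := exists_isotropic_funcs (n := 4) hS (k := 0) ![] (by omega)
  obtain ⟨i, hi⟩ : ∃ i, u₁ i ≠ 0 := by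
    by_contra h
    push Not at h
    exact hu₁0 (funext h)
  obtain ⟨u₂, hu₂0, hu₂L, hu₂⟩ := exists_isotropic_funcs (n := 4) hS (k := 2)
    ![fun i => σ (u₁ i), Pi.single i 1] (by omega)
  have hu₂₁ : hermForm 4 F q u₂ u₁ = 0 := by
    rw [herm_dot hS]
    simpa using hu₂L 0
  have hu₂i : u₂ i = 0 := by
    simpa using hu₂L 1
  have hind : ∀ α β : F, α • u₁ + β • u₂ = 0 → α = 0 ∧ β = 0 := by
    intro α β h
    have h1 := congrFun h i
    simp only [Pi.add_apply, Pi.smul_apply, smul_eq_mul, hu₂i, mul_zero, add_zero, Pi.zero_apply] at h1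
    have hα : α = 0 := (mul_eq_zero.1 h1).resolve_right hi
    refine ⟨hα, ?_⟩
    rw [hα, zero_smul, zero_add] at h
    exact (smul_eq_zero.1 h).resolve_right hu₂0
  have hu₁₂ : hermForm 4 F q u₁ u₂ = 0 := by
    rw [herm_symm hS, hu₂₁, map_zero]
  have hindx : ∀ α β : F, (∀ i, α * (Pi' *ᵥ u₁) i + β * (Pi' *ᵥ u₂) i = 0) → α = 0 ∧ β = 0 := by
    intro α β h
    apply hind
    have h1 : Pi' *ᵥ (α • u₁ + β • u₂) = 0 := by
      rw [Matrix.mulVec_add, Matrix.mulVec_smul, Matrix.mulVec_smul]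
      ext i
      simpa using h i
    have h2 := mul_inv_mulVec P (α • u₁ + β • u₂)
    rw [← hPi', h1, Matrix.mulVec_zero] at h2
    exact h2.symm
  obtain ⟨κ₁, _, hκ₁⟩ := key u₁ hu₁ hu₁0
  obtain ⟨κ₂, _, hκ₂⟩ := key u₂ hu₂ hu₂0
  have hcomb : ∀ c : F, ∃ κ : F, κ₁ = κ ∧ τ c * κ₂ = κ * c := by
    intro c
    have huc : hermForm 4 F q (u₁ + c • u₂) (u₁ + c • u₂) = 0 := by
      rw [hf.add_left, hf.add_right, hf.add_right, hf.smul_left, hf.smul_left, hf.smul_right, hf.smul_right,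
        hu₁, hu₂, hu₁₂, hu₂₁]
      ring
    have huc0 : u₁ + c • u₂ ≠ 0 := by
      intro h
      have h1 := hind 1 c (by simpa using h)
      exact one_ne_zero h1.1
    obtain ⟨κ, _, hκ⟩ := key _ huc huc0
    refine ⟨κ, ?_⟩
    have := hindx (κ₁ - κ) (τ c * κ₂ - κ * c) (fun i => ?_)
    · exact ⟨sub_eq_zero.1 this.1, sub_eq_zero.1 this.2⟩
    · have h1 := hκ i
      rw [Matrix.mulVec_add, Matrix.mulVec_smul] at h1
      simp only [Pi.add_apply, Pi.smul_apply, smul_eq_mul, map_add, map_mul, hκ₁ i, hκ₂ i] at h1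
      linear_combination h1
  apply h0
  rw [eq_top_iff]
  intro c _
  rw [← hτ]
  obtain ⟨κ, h1, h2⟩ := hcomb c
  obtain ⟨κ', h3, h4⟩ := hcomb 1
  have h5 : κ₂ = κ₁ := by
    rw [map_one, one_mul, mul_one] at h4
    rw [h4, h3]
  rw [h5] at h2
  rw [← h1] at h2
  by_cases hκ : κ₁ = 0
  · exfalso
    obtain ⟨i, hi⟩ := mulVec_inv_ne_zero P hu₁0
    have := hκ₁ i
    rw [hκ, zero_mul] at this
    exact hi ((map_eq_zero_iff τ τ.injective).1 this)
  · have h6 : κ₁ * τ c = κ₁ * c := by rw [mul_comm, h2]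
    exact mul_left_cancel₀ hκ h6

/-- A commutator with an element having a large fixed space has a large fixed space. -/
lemma fix_comm_ge {ι : Type} [Fintype ι] [DecidableEq ι] [Nonempty ι] {t x : GL ι F} {m : ℕ}
    (hfix : Fintype.card ι ≤ Module.finrank F (fixSp t) + m) :
    Fintype.card ι ≤ Module.finrank F (fixSp (t * x * t⁻¹ * x⁻¹)) + 2 * m := by
  set n := Fintype.card ι with hn'
  let c : GL ι F := t * x * t⁻¹ * x⁻¹
  let K : Submodule F (ι → F) := fixSp t ⊓ (fixSp t).map (Matrix.toLin' (x : Matrix ι ι F))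
  have hKdim : n ≤ Module.finrank F K + 2 * m := by
    have h1 := finrank_inf_ge (fixSp t) ((fixSp t).map (Matrix.toLin' (x : Matrix ι ι F)))
    rw [finrank_map_gl] at h1
    have h2 : Module.finrank F K = Module.finrank F
      (fixSp t ⊓ (fixSp t).map (Matrix.toLin' (x : Matrix ι ι F)) : Submodule F (ι → F)) := rfl
    rw [← h2, ← hn'] at h1
    omega
  have hKfix : K ≤ fixSp c := by
    rintro v ⟨hv1, u, hu, rfl⟩
    have hu' : (t : Matrix ι ι F) *ᵥ u = u := hu
    have hu2 : ((t⁻¹ : GL ι F) : Matrix ι ι F) *ᵥ u = u := by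
      conv_lhs => rw [← hu']
      rw [inv_mul_mulVec]
    rw [mem_fixSp]
    change ((t * x * t⁻¹ * x⁻¹ : GL ι F) : Matrix ι ι F) *ᵥ ((Matrix.toLin' (x : Matrix ι ι F)) u) =
      (Matrix.toLin' (x : Matrix ι ι F)) u
    rw [Matrix.toLin'_apply]
    simp only [Units.val_mul]
    rw [← Matrix.mulVec_mulVec, inv_mul_mulVec, ← Matrix.mulVec_mulVec, hu2, ← Matrix.mulVec_mulVec]
    have : (t : Matrix ι ι F) *ᵥ ((x : Matrix ι ι F) *ᵥ u) = (x : Matrix ι ι F) *ᵥ u := by
      have h3 : (x : Matrix ι ι F) *ᵥ u ∈ fixSp t := by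
        have h4 := hv1
        rwa [Matrix.toLin'_apply] at h4
      exact h3
    exact this
  have h5 : Module.finrank F K ≤ Module.finrank F (fixSp (t * x * t⁻¹ * x⁻¹)) := Submodule.finrank_mono hKfix
  omega

/-- In dimension four the special unitary group does not normalise a group with central commutators. -/
theorem not_gsu_le_normalizer_ab4 (hS : HS F q σ) {R : Subgroup (GL (Fin 4) F)} (hRa : AbsIrr R)
    (hcomm : ⁅R, R⁆ ≤ scalars (Fin 4) F) (hsim : R ≤ similarityGroup (hermForm 4 F q)) :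
    ¬ GSU 4 F q ≤ subgroupNormalizer R := by
  intro hle
  have hf := herm_eform (n := 4) hS
  have hs := hf.sesq
  obtain ⟨u, _, hu0, huu⟩ := exists_isotropic_in (n := 4) hS ⊤ (by simp)
  obtain ⟨b, hb0, hb⟩ := hS.exists_trace_zero
  set t : GL (Fin 4) F := ut hS huu b with ht
  have htN := hle (ut_mem hS huu hb)
  have htR : ∀ x ∈ R, t * x * t⁻¹ ∈ R := fun x hx => (Subgroup.mem_normalizer_iff.1 htN x).1 hx
  have htv : ∀ v, (t : Matrix (Fin 4) (Fin 4) F) *ᵥ v = v + (b * hermForm 4 F q v u) • u :=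
    fun v => ut_mulVec hS huu b v
  have htv' : ∀ v, ((t⁻¹ : GL (Fin 4) F) : Matrix (Fin 4) (Fin 4) F) *ᵥ v = v - (b * hermForm 4 F q v u) • u := by
    intro v
    have h1 : (t : Matrix (Fin 4) (Fin 4) F) *ᵥ (v - (b * hermForm 4 F q v u) • u) = v := by
      rw [htv]
      have e1 : hermForm 4 F q (v - (b * hermForm 4 F q v u) • u) u = hermForm 4 F q v u := by
        rw [sub_eq_add_neg, hs.add_left, ← neg_smul, hs.smul_left, huu]
        ring
      rw [e1]
      abel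
    conv_lhs => rw [← h1]
    rw [inv_mul_mulVec]
  -- an element moving `u` off its perpendicular space
  obtain ⟨x, hx, hxu⟩ : ∃ x ∈ R, hermForm 4 F q ((x : Matrix (Fin 4) (Fin 4) F) *ᵥ u) u ≠ 0 := by
    by_contra hcon
    push Not at hcon
    let W : Submodule F (Fin 4 → F) :=
      { carrier := {v | ∀ x ∈ R, hermForm 4 F q ((x : Matrix (Fin 4) (Fin 4) F) *ᵥ v) u = 0}
        add_mem' := fun {a c} ha hc x hx => by
          rw [Matrix.mulVec_add, hs.add_left, ha x hx, hc x hx, add_zero]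
        zero_mem' := fun x _ => by
          rw [Matrix.mulVec_zero]
          have := hs.smul_left 0 0 u
          simpa using this
        smul_mem' := fun c a ha x hx => by
          rw [Matrix.mulVec_smul, hs.smul_left, ha x hx, mul_zero] }
    have hWinv : Inv (R : Set (GL (Fin 4) F)) W := by
      intro g hg w hw x hx
      rw [Matrix.mulVec_mulVec, ← Units.val_mul]
      exact hw (x * g) (R.mul_mem hx hg)
    rcases hRa.irr W hWinv with h | h
    · have : u ∈ W := fun x hx => hcon x hx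
      rw [h, Submodule.mem_bot] at this
      exact hu0 this
    · obtain ⟨y, hy⟩ := hf.nd' u hu0
      have : y ∈ W := by rw [h]; trivial
      have h2 := this 1 R.one_mem
      simp only [Units.val_one, Matrix.one_mulVec] at h2
      exact hy h2
  set u' : Fin 4 → F := (x : Matrix (Fin 4) (Fin 4) F) *ᵥ u with hu'
  set w₀ : Fin 4 → F := ((x⁻¹ : GL (Fin 4) F) : Matrix (Fin 4) (Fin 4) F) *ᵥ u with hw₀
  have hxw₀ : (x : Matrix (Fin 4) (Fin 4) F) *ᵥ w₀ = u := mul_inv_mulVec x u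
  set A : F := b * hermForm 4 F q u' u with hA
  set B : F := b * hermForm 4 F q w₀ u with hB
  have hA0 : A ≠ 0 := mul_ne_zero hb0 hxu
  have hB0 : B ≠ 0 := by
    apply mul_ne_zero hb0
    obtain ⟨κ, hκ⟩ := hsim hx
    have h1 := hκ w₀ u
    rw [hxw₀] at h1
    intro h2
    rw [h2, mul_zero, herm_symm hS] at h1
    exact hxu ((map_eq_zero_iff σ σ.injective).1 h1)
  set c : GL (Fin 4) F := t * x * t⁻¹ * x⁻¹ with hc
  have hcR : c ∈ R := R.mul_mem (htR x hx) (R.inv_mem hx)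
  have hcv : ∀ v, (c : Matrix (Fin 4) (Fin 4) F) *ᵥ v = (t : Matrix (Fin 4) (Fin 4) F) *ᵥ
      ((x : Matrix (Fin 4) (Fin 4) F) *ᵥ (((t⁻¹ : GL (Fin 4) F) : Matrix (Fin 4) (Fin 4) F) *ᵥ
        (((x⁻¹ : GL (Fin 4) F) : Matrix (Fin 4) (Fin 4) F) *ᵥ v))) := by
    intro v
    simp only [hc, Units.val_mul, Matrix.mulVec_mulVec, Matrix.mul_assoc]
  have hcu' : (c : Matrix (Fin 4) (Fin 4) F) *ᵥ u' = u' + A • u := by
    rw [hcv, hu', inv_mul_mulVec, htv', huu, mul_zero, zero_smul, sub_zero, htv]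
  have hcu : (c : Matrix (Fin 4) (Fin 4) F) *ᵥ u = (1 - A * B) • u + (-B) • u' := by
    rw [hcv, ← hw₀, htv', Matrix.mulVec_sub, Matrix.mulVec_smul, hxw₀, ← hu', ← hB, htv]
    have e1 : hermForm 4 F q (u - B • u') u = -(B * hermForm 4 F q u' u) := by
      rw [sub_eq_add_neg, hs.add_left, ← neg_smul, hs.smul_left, huu]
      ring
    rw [e1, hA]
    module
  have hind : ∀ α β : F, α • u + β • u' = 0 → α = 0 ∧ β = 0 := by
    intro α β h
    have h1 : hermForm 4 F q (α • u + β • u') u = hermForm 4 F q 0 u := by rw [h]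
    rw [hs.add_left, hs.smul_left, hs.smul_left, huu, mul_zero, zero_add] at h1
    have h0' : hermForm 4 F q (0 : Fin 4 → F) u = 0 := by
      have := hs.smul_left 0 0 u
      simpa using this
    rw [h0'] at h1
    have hβ : β = 0 := (mul_eq_zero.1 h1).resolve_right hxu
    refine ⟨?_, hβ⟩
    rw [hβ, zero_smul, add_zero] at h
    exact (smul_eq_zero.1 h).resolve_right hu0
  have hcZ : c ∉ scalars (Fin 4) F := by
    intro hz
    obtain ⟨γ, hγ⟩ := exists_sc hz
    have h1 := hcu'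
    rw [hγ, sc_val, Matrix.smul_mulVec, Matrix.one_mulVec] at h1
    have h2 := hind A (1 - (γ : F)) (by rw [sub_smul, one_smul]; linear_combination (norm := module) -h1)
    exact hA0 h2.1
  obtain ⟨y, hy, hyc⟩ : ∃ y ∈ R, c * y ≠ y * c := by
    by_contra hcon
    push Not at hcon
    exact hcZ (hRa.mem_scalars c hcon)
  obtain ⟨γ, hγ⟩ := exists_sc (hcomm (Subgroup.commutator_mem_commutator hcR hy))
  have hγ1 : γ ≠ 1 := by
    rintro rfl
    rw [sc_one, commutatorElement_eq_one_iff_mul_comm] at hγ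
    exact hyc hγ
  have hγ1' : (γ : F) ≠ 1 := fun h => hγ1 (Units.ext h)
  have hrel : c * y = sc γ * (y * c) := by
    rw [← hγ]
    group
  have hcyu : ∀ v ∈ fixSp c, (c : Matrix (Fin 4) (Fin 4) F) *ᵥ ((y : Matrix (Fin 4) (Fin 4) F) *ᵥ v) =
      (γ : F) • ((y : Matrix (Fin 4) (Fin 4) F) *ᵥ v) := by
    intro v hv
    have hv' : (c : Matrix (Fin 4) (Fin 4) F) *ᵥ v = v := hv
    rw [Matrix.mulVec_mulVec, ← Units.val_mul, hrel, Units.val_mul, sc_val, Matrix.smul_mul, one_mul,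
      Matrix.smul_mulVec, Units.val_mul, ← Matrix.mulVec_mulVec, hv']
  have hdisj : fixSp c ⊓ (fixSp c).map (Matrix.toLin' (y : Matrix (Fin 4) (Fin 4) F)) = ⊥ := by
    rw [eq_bot_iff]
    rintro v ⟨hv1, v', hv', rfl⟩
    have h1 := hcyu v' hv'
    have h2 : (Matrix.toLin' (y : Matrix (Fin 4) (Fin 4) F)) v' ∈ fixSp c := hv1
    rw [Matrix.toLin'_apply] at h2
    have h3 : (c : Matrix (Fin 4) (Fin 4) F) *ᵥ ((y : Matrix (Fin 4) (Fin 4) F) *ᵥ v') =
      (y : Matrix (Fin 4) (Fin 4) F) *ᵥ v' := h2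
    rw [h3] at h1
    have h4 : ((γ : F) - 1) • ((y : Matrix (Fin 4) (Fin 4) F) *ᵥ v') = 0 := by
      rw [sub_smul, ← h1, one_smul, sub_self]
    rcases smul_eq_zero.1 h4 with h5 | h5
    · exact absurd (sub_eq_zero.1 h5) hγ1'
    · rw [Submodule.mem_bot, Matrix.toLin'_apply]
      exact h5
  have hcdim : Fintype.card (Fin 4) ≤ Module.finrank F (fixSp c) + 2 * 1 :=
    fix_comm_ge (finrank_fix_tv _)
  have hcard4 : Fintype.card (Fin 4) = 4 := Fintype.card_fin 4
  rw [hcard4] at hcdim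
  have hsup : fixSp c ⊔ (fixSp c).map (Matrix.toLin' (y : Matrix (Fin 4) (Fin 4) F)) = ⊤ := by
    have h1 := Submodule.finrank_sup_add_finrank_inf_eq (fixSp c)
      ((fixSp c).map (Matrix.toLin' (y : Matrix (Fin 4) (Fin 4) F)))
    rw [finrank_map_gl, hdisj, finrank_bot] at h1
    have h2 : Module.finrank F (fixSp c ⊔ (fixSp c).map (Matrix.toLin' (y : Matrix (Fin 4) (Fin 4) F)) :
        Submodule F (Fin 4 → F)) ≤ 4 := by
      have := Submodule.finrank_le (fixSp c ⊔ (fixSp c).map (Matrix.toLin' (y : Matrix (Fin 4) (Fin 4) F)))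
      simpa using this
    apply Submodule.eq_top_of_finrank_eq
    simp only [Module.finrank_fintype_fun_eq_card, hcard4]
    omega
  have hutop : u ∈ fixSp c ⊔ (fixSp c).map (Matrix.toLin' (y : Matrix (Fin 4) (Fin 4) F)) := by
    rw [hsup]
    trivial
  obtain ⟨p, hp, r, ⟨v, hv, rfl⟩, hpr⟩ := Submodule.mem_sup.1 hutop
  have hcp : (c : Matrix (Fin 4) (Fin 4) F) *ᵥ p = p := hp
  have hcr : (c : Matrix (Fin 4) (Fin 4) F) *ᵥ ((Matrix.toLin' (y : Matrix (Fin 4) (Fin 4) F)) v) =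
      (γ : F) • ((Matrix.toLin' (y : Matrix (Fin 4) (Fin 4) F)) v) := by
    rw [Matrix.toLin'_apply]
    exact hcyu v hv
  set r : Fin 4 → F := (Matrix.toLin' (y : Matrix (Fin 4) (Fin 4) F)) v with hr
  have hcc : (c : Matrix (Fin 4) (Fin 4) F) *ᵥ ((c : Matrix (Fin 4) (Fin 4) F) *ᵥ u) -
      (1 + (γ : F)) • ((c : Matrix (Fin 4) (Fin 4) F) *ᵥ u) + (γ : F) • u = 0 := by
    rw [← hpr]
    simp only [Matrix.mulVec_add, Matrix.mulVec_smul, hcp, hcr]
    module
  rw [hcu, Matrix.mulVec_add, Matrix.mulVec_smul, Matrix.mulVec_smul, hcu, hcu'] at hcc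
  have h3 := hind ((1 - A * B) * (1 - A * B) + (-B) * A - (1 + (γ : F)) * (1 - A * B) + (γ : F))
    ((1 - A * B) * (-B) + (-B) - (1 + (γ : F)) * (-B)) (by linear_combination (norm := module) hcc)
  have h4 : (1 - A * B) - (γ : F) = 0 := by
    have h5 : (-B) * ((1 - A * B) - (γ : F)) = 0 := by linear_combination h3.2
    exact (mul_eq_zero.1 h5).resolve_left (neg_ne_zero.2 hB0)
  have h5 : A * B = 0 := by
    have h6 := h3.1
    have h7 : (γ : F) = 1 - A * B := (sub_eq_zero.1 h4).symm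
    rw [h7] at h6
    linear_combination -h6
  exact (mul_ne_zero hA0 hB0) h5

end SU4Proper

end Cfsg.Agent.H28
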