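import Cfsg.Agent.Lib.H28.GSU4a
import Cfsg.Agent.Lib.H28.GSquare

set_option autoImplicit false
set_option linter.style.haveILetI false
set_option linter.unusedSectionVars false
set_option linter.unusedSimpArgs false

namespace Cfsg.Agent.H28

open scoped MatrixGroups Matrix commutatorElement Kronecker
open Cfsg Cfsg.Geo

section SU4Flow

variable {F : Type*} [Field F] [Fintype F] {q : ℕ} {σ : F ≃+* F}

/-- The reducible case. -/
lemma reducible_su4 (hS : HS F q σ) {H : Subgroup (GL (Fin 4) F)} (hH : IsMaximalIn (GSU 4 F q) H)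
    {W : Submodule F (Fin 4 → F)} (hW : Inv (H : Set (GL (Fin 4) F)) W) (h0 : W ≠ ⊥) (h1 : W ≠ ⊤) :
    SUConclG 4 F q H := by
  classical
  haveI : Nonempty (Fin 4) := ⟨⟨0, by omega⟩⟩
  have hHU : ∀ g ∈ H, ∀ x y : Fin 4 → F, hermForm 4 F q ((g : Matrix (Fin 4) (Fin 4) F) *ᵥ x)
      ((g : Matrix (Fin 4) (Fin 4) F) *ᵥ y) = hermForm 4 F q x y := fun g hg x y =>
    gu_isom (hH.1.le hg).1 x y
  have hf := herm_eform (n := 4) hS
  rcases form_reducible hf (H := H) (fun g hg => ⟨1, one_ne_zero, fun x y => by rw [one_mul]; exact hHU g hg x y⟩)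
    hW h0 h1 with ⟨W', h2, h3, hts, hinv⟩ | ⟨W', h2, h3, hnd, hinv, hdim⟩
  · exact Or.inl ⟨W', h2, hts, eq_inf_of_max hH (le_stab_of_inv hinv) (not_gsu_le_stab hS (by omega) h2 h3)⟩
  · have hcardn : Fintype.card (Fin 4) = 4 := Fintype.card_fin 4
    rw [hcardn] at hdim
    by_cases hlt : 2 * Module.finrank F W' < 4
    · exact Or.inr (Or.inl ⟨W', h2, hnd, hlt, eq_inf_of_max hH (le_stab_of_inv hinv)
        (not_gsu_le_stab hS (by omega) h2 h3)⟩)
    · have heq : 2 * Module.finrank F W' = 4 := by omega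
      have hd1 := finrank_fperp hf W'
      rw [hcardn] at hd1
      have hd2 : Module.finrank F (fperp hf.sesq W') = Module.finrank F W' := by omega
      have hnd2 : IsNondegenerateOn (hermForm 4 F q) (fperp hf.sesq W') := by
        apply nondeg_of_inf_fperp hf
        rw [fperp_fperp hf, inf_comm]
        exact inf_fperp_of_nondeg hf hnd
      have hne : W' ≠ fperp hf.sesq W' := by
        intro h
        apply h2
        have h4 := inf_fperp_of_nondeg hf hnd
        rw [← h, inf_idem] at h4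
        exact h4
      have hm0 : 0 < Module.finrank F W' := by
        rw [Nat.pos_iff_ne_zero]
        intro h
        exact h2 (Submodule.finrank_eq_zero.1 h)
      have hinv2 : Inv (H : Set (GL (Fin 4) F)) (fperp hf.sesq W') := inv_fperp hf hHU hinv
      have hmapinv : ∀ (X : Submodule F (Fin 4 → F)), Inv (H : Set (GL (Fin 4) F)) X → ∀ g ∈ H,
          X.map (Matrix.toLin' (g : Matrix (Fin 4) (Fin 4) F)) = X := by
        intro X hX g hg
        apply Submodule.eq_of_le_of_finrank_eq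
        · rintro _ ⟨w, hw, rfl⟩
          exact hX g hg w hw
        · exact finrank_map_gl g X
      let O : Finset (Submodule F (Fin 4 → F)) := {W', fperp hf.sesq W'}
      have hOmem : ∀ E ∈ O, E = W' ∨ E = fperp hf.sesq W' := by
        intro E hE
        simpa [O] using hE
      obtain ⟨D', hD', hle', _⟩ := nondeg_decomp_of_finset (m' := Module.finrank F W') (H := H) hf O hm0
        (by rw [Finset.card_pair hne])
        (fun E hE => by
          rcases hOmem E hE with rfl | rfl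
          · rfl
          · exact hd2)
        (fun E hE => by
          rcases hOmem E hE with rfl | rfl
          · exact hnd
          · exact hnd2)
        (fun E hE E' hE' hEE u hu v hv => by
          rcases hOmem E hE with rfl | rfl <;> rcases hOmem E' hE' with rfl | rfl
          · exact absurd rfl hEE
          · exact hv u hu
          · exact hf.refl (hu v hv)
          · exact absurd rfl hEE)
        (by
          rw [eq_top_iff, ← sup_fperp_of_nondeg hf hnd]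
          refine sup_le ?_ ?_
          · exact le_iSup₂_of_le (f := fun A (_ : A ∈ O) => A) W' (by simp [O]) le_rfl
          · exact le_iSup₂_of_le (f := fun A (_ : A ∈ O) => A) (fperp hf.sesq W') (by simp [O]) le_rfl)
        (fun g hg E hE => by
          rcases hOmem E hE with rfl | rfl
          · rw [hmapinv _ hinv g hg]
            simp [O]
          · rw [hmapinv _ hinv2 g hg]
            simp [O])
      exact decomp_sug hS (by omega) hH hD' hle'


lemma subfield_su4 (hS : HS F q σ) {H N : Subgroup (GL (Fin 4) F)}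
    (hH : IsMaximalIn (GSU 4 F q) H) (hN : NormalIn N H) (hirr : AbsIrr N)
    {F₀ : Subfield F} (h0 : F₀ ≠ ⊤) {B : GL (Fin 4) F}
    (hB : ∀ g ∈ N, ∀ i j, ((B : Matrix (Fin 4) (Fin 4) F) * (g : Matrix (Fin 4) (Fin 4) F) *
      ((B⁻¹ : GL (Fin 4) F) : Matrix (Fin 4) (Fin 4) F)) i j ∈ F₀) : SUConclG 4 F q H := by
  haveI : Nonempty (Fin 4) := ⟨⟨0, by omega⟩⟩
  have hf := herm_sesq (n := 4) hS
  obtain ⟨F₁, r, τ₀, h01, hr, hcard, hτ₀⟩ := exists_prime_index_subfield h0
  let τ : F ≃+* F := RingEquiv.ofBijective τ₀ (Finite.injective_iff_bijective.1 τ₀.injective)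
  have hτ : ∀ x, τ x = x ↔ x ∈ F₁ := hτ₀
  have hNU : N ≤ GU 4 F q := fun g hg => (hH.1.le (hN.1 hg)).1
  have htop := ne_top_of_card_pow hr hcard
  rcases hr.eq_two_or_odd' with rfl | hrodd
  · have hfix := fix_iff_of_card_sq hS hcard
    have hle := le_subfield_of_realisable hN hirr τ₀ hτ₀ (B := B) (fun g hg i j => h01 (hB g hg i j))
    rcases rational_two' hS hirr hNU (by omega) hfix B⁻¹ (fun g hg i j => by
      rw [inv_inv]
      exact h01 (hB g hg i j)) with ⟨hq, hrat⟩ | ⟨ζ, hζ0, hζ, hrat, hiso⟩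
    · refine Or.inr (Or.inr (Or.inr (Or.inr (Or.inr (Or.inr (Or.inr (Or.inr (Or.inl ⟨hq, F₁, B⁻¹, hcard,
        fun u v hu hv => ?_, eq_inf_of_max hH hle (not_gsu_le_subfield4 hS τ hτ htop _)⟩))))))))
      rw [one_mul]
      exact hrat u v hu hv
    · exact Or.inr (Or.inr (Or.inr (Or.inr (Or.inr (Or.inr (Or.inr (Or.inl ⟨F₁, B⁻¹, ζ, hcard, hζ0,
        by rw [← hS.pow]; exact hζ, hrat, hiso, eq_inf_of_max hH hle (not_gsu_le_subfield4 hS τ hτ htop _)⟩)))))))
  · obtain ⟨t₀, ht₀⟩ := rational_odd hS hirr hNU (by omega) τ hτ hrodd hcard B⁻¹ (fun g hg i j => by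
      rw [inv_inv]
      exact h01 (hB g hg i j))
    set P' : GL (Fin 4) F := B⁻¹ * scalGL t₀ with hP'
    have hreal' : ∀ g ∈ N, ∀ i j, (((P'⁻¹ : GL (Fin 4) F) : Matrix (Fin 4) (Fin 4) F) *
        (g : Matrix (Fin 4) (Fin 4) F) * (((P'⁻¹)⁻¹ : GL (Fin 4) F) : Matrix (Fin 4) (Fin 4) F)) i j ∈ F₁ := by
      intro g hg i j
      have e : ((P'⁻¹ : GL (Fin 4) F) : Matrix (Fin 4) (Fin 4) F) *
          (g : Matrix (Fin 4) (Fin 4) F) * (((P'⁻¹)⁻¹ : GL (Fin 4) F) : Matrix (Fin 4) (Fin 4) F) =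
          (B : Matrix (Fin 4) (Fin 4) F) * (g : Matrix (Fin 4) (Fin 4) F) *
            ((B⁻¹ : GL (Fin 4) F) : Matrix (Fin 4) (Fin 4) F) := by
        rw [← Units.val_mul, ← Units.val_mul, ← Units.val_mul, ← Units.val_mul, inv_inv]
        congr 1
        have := conj_scal B⁻¹ g t₀
        rwa [inv_inv] at this
      rw [e]
      exact h01 (hB g hg i j)
    have hle := le_subfield_of_realisable hN hirr τ₀ hτ₀ (B := P'⁻¹) hreal'
    rw [inv_inv] at hle
    refine Or.inr (Or.inr (Or.inr (Or.inr (Or.inr (Or.inr (Or.inl ⟨F₁, r, P', hr, hrodd, hcard, fun u v hu hv => ?_,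
      eq_inf_of_max hH hle (not_gsu_le_subfield4 hS τ hτ htop _)⟩))))))
    rw [one_mul, hP', mulVec_scal, mulVec_scal, hf.smul_left, hf.smul_right, ← mul_assoc]
    exact ht₀ u v hu hv


lemma core_su4 (hS : HS F q σ) {H N : Subgroup (GL (Fin 4) F)}
    (hH : IsMaximalIn (GSU 4 F q) H) (hN : NormalIn N H) (hC : CoreData H N) :
    SUConclG 4 F q H := by
  haveI : Nonempty (Fin 4) := ⟨⟨0, by omega⟩⟩
  have hirr : AbsIrr N := hC.absIrred
  have hNU : N ≤ GU 4 F q := fun g hg => (hH.1.le (hN.1 hg)).1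
  by_cases hsub : ∃ F₀ : Subfield F, F₀ ≠ ⊤ ∧ RealisableOver F₀ (matrixSet N)
  · obtain ⟨F₀, h0, B, hB⟩ := hsub
    exact subfield_su4 hS hH hN hirr h0 (B := B) (fun g hg i j => hB _ ⟨g, hg, rfl⟩ i j)
  refine Or.inr (Or.inr (Or.inr (Or.inr (Or.inr (Or.inr (Or.inr (Or.inr (Or.inr ⟨N, ?_, ?_, ?_⟩))))))))
  · exact ⟨hC.le, hC.normal, hC.perfect, hC.simple, hC.nonabelian, hC.centralizer_scalar, hC.absIrred,
      fun F₀ h0 hr => hsub ⟨F₀, h0, hr⟩⟩
  · rintro ⟨Q, hQ, hfix⟩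
    apply hsub
    refine realisable_of_two_forms (herm_unitary hS) (fun τ hτ => hS.norm_surj hτ) hirr
      (fun g hg x y => gu_isom (hNU hg) x y) hQ.polar_bilinear hQ.nondegenerate (fun g hg u v => ?_)
    simp only [QuadraticMap.polar, ← Matrix.mulVec_add]
    rw [hfix _ ⟨g, hg, rfl⟩, hfix _ ⟨g, hg, rfl⟩, hfix _ ⟨g, hg, rfl⟩]
  · rintro ⟨f, hf, hfix⟩
    apply hsub
    exact realisable_of_two_forms (herm_unitary hS) (fun τ hτ => hS.norm_surj hτ) hirr
      (fun g hg x y => gu_isom (hNU hg) x y) hf.bilinear hf.nondegenerate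
      (fun g hg u v => hfix _ ⟨g, hg, rfl⟩ u v)


/-- The subfield case for a subgroup which is merely normalised. -/
lemma subfield_su4' (hS : HS F q σ) {H N : Subgroup (GL (Fin 4) F)}
    (hH : IsMaximalIn (GSU 4 F q) H) (hN : H ≤ subgroupNormalizer N) (hNU : N ≤ GU 4 F q) (hirr : AbsIrr N)
    {F₀ : Subfield F} (h0 : F₀ ≠ ⊤) {B : GL (Fin 4) F}
    (hB : ∀ g ∈ N, ∀ i j, ((B : Matrix (Fin 4) (Fin 4) F) * (g : Matrix (Fin 4) (Fin 4) F) *
      ((B⁻¹ : GL (Fin 4) F) : Matrix (Fin 4) (Fin 4) F)) i j ∈ F₀) : SUConclG 4 F q H := by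
  haveI : Nonempty (Fin 4) := ⟨⟨0, by omega⟩⟩
  have hf := herm_sesq (n := 4) hS
  obtain ⟨F₁, r, τ₀, h01, hr, hcard, hτ₀⟩ := exists_prime_index_subfield h0
  let τ : F ≃+* F := RingEquiv.ofBijective τ₀ (Finite.injective_iff_bijective.1 τ₀.injective)
  have hτ : ∀ x, τ x = x ↔ x ∈ F₁ := hτ₀
  have htop := ne_top_of_card_pow hr hcard
  have hNN := normalIn_normalizer N
  rcases hr.eq_two_or_odd' with rfl | hrodd
  · have hfix := fix_iff_of_card_sq hS hcard
    have hle := hN.trans (le_subfield_of_realisable hNN hirr τ₀ hτ₀ (B := B) (fun g hg i j => h01 (hB g hg i j)))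
    rcases rational_two' hS hirr hNU (by omega) hfix B⁻¹ (fun g hg i j => by
      rw [inv_inv]
      exact h01 (hB g hg i j)) with ⟨hq, hrat⟩ | ⟨ζ, hζ0, hζ, hrat, hiso⟩
    · refine Or.inr (Or.inr (Or.inr (Or.inr (Or.inr (Or.inr (Or.inr (Or.inr (Or.inl ⟨hq, F₁, B⁻¹, hcard,
        fun u v hu hv => ?_, eq_inf_of_max hH hle (not_gsu_le_subfield4 hS τ hτ htop _)⟩))))))))
      rw [one_mul]
      exact hrat u v hu hv
    · exact Or.inr (Or.inr (Or.inr (Or.inr (Or.inr (Or.inr (Or.inr (Or.inl ⟨F₁, B⁻¹, ζ, hcard, hζ0,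
        by rw [← hS.pow]; exact hζ, hrat, hiso, eq_inf_of_max hH hle (not_gsu_le_subfield4 hS τ hτ htop _)⟩)))))))
  · obtain ⟨t₀, ht₀⟩ := rational_odd hS hirr hNU (by omega) τ hτ hrodd hcard B⁻¹ (fun g hg i j => by
      rw [inv_inv]
      exact h01 (hB g hg i j))
    set P' : GL (Fin 4) F := B⁻¹ * scalGL t₀ with hP'
    have hreal' : ∀ g ∈ N, ∀ i j, (((P'⁻¹ : GL (Fin 4) F) : Matrix (Fin 4) (Fin 4) F) *
        (g : Matrix (Fin 4) (Fin 4) F) * (((P'⁻¹)⁻¹ : GL (Fin 4) F) : Matrix (Fin 4) (Fin 4) F)) i j ∈ F₁ := by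
      intro g hg i j
      have e : ((P'⁻¹ : GL (Fin 4) F) : Matrix (Fin 4) (Fin 4) F) *
          (g : Matrix (Fin 4) (Fin 4) F) * (((P'⁻¹)⁻¹ : GL (Fin 4) F) : Matrix (Fin 4) (Fin 4) F) =
          (B : Matrix (Fin 4) (Fin 4) F) * (g : Matrix (Fin 4) (Fin 4) F) *
            ((B⁻¹ : GL (Fin 4) F) : Matrix (Fin 4) (Fin 4) F) := by
        rw [← Units.val_mul, ← Units.val_mul, ← Units.val_mul, ← Units.val_mul, inv_inv]
        congr 1
        have := conj_scal B⁻¹ g t₀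
        rwa [inv_inv] at this
      rw [e]
      exact h01 (hB g hg i j)
    have hle := hN.trans (le_subfield_of_realisable hNN hirr τ₀ hτ₀ (B := P'⁻¹) hreal')
    rw [inv_inv] at hle
    refine Or.inr (Or.inr (Or.inr (Or.inr (Or.inr (Or.inr (Or.inl ⟨F₁, r, P', hr, hrodd, hcard, fun u v hu hv => ?_,
      eq_inf_of_max hH hle (not_gsu_le_subfield4 hS τ hτ htop _)⟩))))))
    rw [one_mul, hP', mulVec_scal, mulVec_scal, hf.smul_left, hf.smul_right, ← mul_assoc]
    exact ht₀ u v hu hv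


/-- The field analysis for a monomial subgroup of the unitary group. -/
theorem xdata_su4 (hS : HS F q σ) {H N R : Subgroup (GL (Fin 4) F)} {ζ : F} {m : ℕ} (hH : IsMaximalIn (GSU 4 F q) H) (hX : XData H N R ζ m)
    (hm1 : 1 < m) (hm3 : ∀ a : ℕ, 1 ≤ a → a.Coprime m → m ∣ a - 1 ∨ m ∣ a + 1) {r t : ℕ} (hr : r.Prime)
    (hmt : m = r ^ t) (hlift : ∀ x ∈ N, ∃ c : Fˣ, sc c * x ∈ R ∧ (c : F) * σ c = 1) :
    SUConclG 4 F q H ∨ ((∃ p : ℕ, p.Prime ∧ q = p ∧ r ≠ p ∧ CharP F p ∧ ¬ m ∣ p - 1) ∧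
      H = subgroupNormalizer R ⊓ GSU 4 F q) := by
  haveI : Nonempty (Fin 4) := ⟨⟨0, by omega⟩⟩
  have hm0 : 0 < m := by omega
  obtain ⟨P, hP⟩ := exists_mono_basis hX.absIrr hX.commR hm0 hX.prim hX.exp
  obtain ⟨p, hchar, e₀, hpp, hn⟩ := FiniteField.card' F
  haveI := hchar
  haveI : Fact p.Prime := ⟨hpp⟩
  set e : ℕ := (e₀ : ℕ) with he
  have he0 : 0 < e := e₀.pos
  have hprim := hX.prim
  have hζ0 : ζ ≠ 0 := hprim.ne_zero hm0.ne'
  have hrp : r ≠ p := by
    rintro rfl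
    have h1 : ζ ^ r ^ t = 1 := by rw [← hmt]; exact hprim.pow_eq_one
    have h2 : (ζ - 1) ^ r ^ t = 0 := by rw [sub_pow_char_pow, h1, one_pow, sub_self]
    have h3 : ζ = 1 := sub_eq_zero.1 ((pow_eq_zero_iff (pow_ne_zero _ hr.ne_zero)).1 h2)
    exact hprim.ne_one hm1 h3
  have hcop : p.Coprime m := by
    rw [hmt]
    exact Nat.Coprime.pow_right _ ((Nat.coprime_primes hpp hr).2 hrp.symm)
  have hle := hX.le_normalizer
  have hpowk : ∀ k, m ∣ p ^ k - 1 → ζ ^ p ^ k = ζ := by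
    intro k hk
    obtain ⟨b, hb⟩ := hk
    have hpos : 1 ≤ p ^ k := Nat.one_le_pow _ _ hpp.pos
    have e1 : p ^ k = m * b + 1 := by omega
    rw [e1, pow_succ, pow_mul, hprim.pow_eq_one, one_pow, one_mul]
  by_cases hk : ∃ k, 0 < k ∧ k < e ∧ m ∣ p ^ k - 1
  · left
    obtain ⟨k, hk0, hke, hkd⟩ := hk
    have hne := fixedSub_ne_top (F := F) p k e hk0 hke hn
    have hζmem : ζ ∈ fixedSub F p k := (mem_fixedSub p k).2 (hpowk k hkd)
    -- the isometries in `R`
    let R₀ : Subgroup (GL (Fin 4) F) := R ⊓ GU 4 F q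
    have hR₀a : AbsIrr R₀ := by
      refine absIrr_of_adj_top (adj_top_of_scaled (adj_eq_top_of_absIrr hX.absN) fun x hx => ?_)
      obtain ⟨c, hc1, hc2⟩ := hlift x hx
      exact ⟨c, hc1, sc_mul_mem_GU hS hc2 (hH.1.le (hX.hN.1 hx)).1⟩
    have hle₀ : H ≤ subgroupNormalizer R₀ := by
      intro h hh
      refine Subgroup.mem_normalizer_iff.2 fun x => ⟨fun hx => ⟨hX.conj h hh x hx.1, ?_⟩, fun hx => ⟨?_, ?_⟩⟩
      · exact (GU 4 F q).mul_mem ((GU 4 F q).mul_mem (hH.1.le hh).1 hx.2) ((GU 4 F q).inv_mem (hH.1.le hh).1)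
      · have := hX.conj h⁻¹ (H.inv_mem hh) _ hx.1
        have e1 : h⁻¹ * (h * x * h⁻¹) * h⁻¹⁻¹ = x := by group
        rwa [e1] at this
      · have := (GU 4 F q).mul_mem ((GU 4 F q).mul_mem ((GU 4 F q).inv_mem (hH.1.le hh).1) hx.2) (hH.1.le hh).1
        have e1 : h⁻¹ * (h * x * h⁻¹) * h = x := by group
        rwa [e1] at this
    refine subfield_su4' hS hH hle₀ inf_le_right hR₀a hne (B := P⁻¹) ?_
    intro g hg i j
    rw [inv_inv]
    obtain ⟨π, d', hm⟩ := hP g hg.1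
    rw [hm]
    split_ifs
    · exact (fixedSub F p k).pow_mem hζmem _
    · exact (fixedSub F p k).zero_mem
  push Not at hk
  right
  have hk2 : ∀ a : ℕ, 0 < a → a < e → m ∣ p ^ a + 1 := by
    intro a ha0 hae
    have h1 : (p ^ a).Coprime m := Nat.Coprime.pow_left _ hcop
    rcases hm3 _ (Nat.one_le_pow _ _ hpp.pos) h1 with h | h
    · exact absurd h (hk a ha0 hae)
    · exact h
  -- the degree is two
  have hq2 : q ^ 2 = p ^ e := by rw [← hS.card, hn]
  have he2 : e = 2 := by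
    by_contra hne2
    have hq1 : 1 < q := by
      have := hS.two_le
      omega
    have heven : Even e := by
      have h1 : p ∣ q := by
        have h2 : p ∣ q ^ 2 := by
          rw [hq2]
          exact dvd_pow_self p he0.ne'
        exact hpp.dvd_of_dvd_pow h2
      obtain ⟨a, ha⟩ : ∃ a, q = p ^ a := by
        have h2 : q ∣ p ^ e := by
          rw [← hq2]
          exact dvd_pow_self q (by norm_num)
        obtain ⟨a, _, ha⟩ := (Nat.dvd_prime_pow hpp).1 h2
        exact ⟨a, ha⟩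
      rw [ha, ← pow_mul] at hq2
      have h3 := Nat.pow_right_injective hpp.two_le hq2
      exact ⟨a, by omega⟩
    have he4 : 2 < e := by
      obtain ⟨c, hc⟩ := heven
      omega
    have h1 : m ∣ p ^ 1 + 1 := hk2 1 one_pos (by omega)
    apply hk 2 (by norm_num) he4
    have h2 : p ^ 2 - 1 = (p - 1) * (p + 1) := by
      have h3 := hpp.one_lt
      obtain ⟨u, hu⟩ : ∃ u, p = u + 1 := ⟨p - 1, by omega⟩
      subst hu
      simp only [Nat.add_sub_cancel]
      ring_nf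
      omega
    rw [h2]
    rw [pow_one] at h1
    exact Dvd.dvd.mul_left h1 _
  have hqp : q = p := by
    rw [he2] at hq2
    exact Nat.pow_left_injective (n := 2) (by norm_num) hq2
  refine ⟨⟨p, hpp, hqp, hrp, hchar, ?_⟩, eq_inf_of_max hH hle
    (not_gsu_le_normalizer_ab4 hS hX.absIrr hX.commR (hX.le_sim hS hH))⟩
  have := hk 1 one_pos (by omega)
  rwa [pow_one] at this


end SU4Flow

end Cfsg.Agent.H28
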