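import Cfsg.Agent.Lib.H28.GSU4c

set_option autoImplicit false
set_option linter.style.haveILetI false
set_option linter.unusedSectionVars false
set_option linter.unusedSimpArgs false

namespace Cfsg.Agent.H28

open scoped MatrixGroups Matrix commutatorElement Kronecker
open Cfsg Cfsg.Geo

section SU4Pair

variable {F : Type*} [Field F] [Fintype F] {q : ℕ} {σ : F ≃+* F}

/-- The hyperbolic form in dimension four. -/
def h4 (σ : F ≃+* F) (a b : Fin 4 → F) : F := a 0 * σ (b 2) + a 1 * σ (b 3) + a 2 * σ (b 0) + a 3 * σ (b 1)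

lemma h4_single (a : Fin 4 → F) :
    h4 σ a (Pi.single 0 1) = a 2 ∧ h4 σ a (Pi.single 1 1) = a 3 ∧ h4 σ a (Pi.single 2 1) = a 0 ∧
      h4 σ a (Pi.single 3 1) = a 1 := by
  refine ⟨?_, ?_, ?_, ?_⟩ <;> simp [h4, Pi.single_apply]

/-- A basis adapted to a pair of complementary totally singular planes. -/
theorem exists_pair_basis (hS : HS F q σ) {D : Fin 2 → Submodule F (Fin 4 → F)} (hD : IsMDecomposition 2 D)
    (hts : ∀ i, IsTotallySingularFor (hermForm 4 F q) (D i)) :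
    ∃ Q : GL (Fin 4) F, (∀ a b, hermForm 4 F q ((Q : Matrix (Fin 4) (Fin 4) F) *ᵥ a)
        ((Q : Matrix (Fin 4) (Fin 4) F) *ᵥ b) = h4 σ a b) ∧
      (∀ a : Fin 4 → F, a 2 = 0 → a 3 = 0 → (Q : Matrix (Fin 4) (Fin 4) F) *ᵥ a ∈ D 0) ∧
      (∀ a : Fin 4 → F, a 0 = 0 → a 1 = 0 → (Q : Matrix (Fin 4) (Fin 4) F) *ᵥ a ∈ D 1) := by
  classical
  have hs := herm_sesq (n := 4) hS
  have hf := herm_eform (n := 4) hS
  let b₀ := Module.finBasisOfFinrankEq F (D 0) (hD.finrank_eq 0)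
  let u : Fin 2 → Fin 4 → F := fun i => (b₀ i : Fin 4 → F)
  have hu : ∀ i, u i ∈ D 0 := fun i => (b₀ i).2
  have hexp : ∀ y ∈ D 0, ∃ c₀ c₁ : F, y = c₀ • u 0 + c₁ • u 1 := by
    intro y hy
    refine ⟨b₀.repr ⟨y, hy⟩ 0, b₀.repr ⟨y, hy⟩ 1, ?_⟩
    have h1 := b₀.sum_repr ⟨y, hy⟩
    have h2 := congrArg (Subtype.val) h1
    rw [Fin.sum_univ_two] at h2
    exact h2.symm
  have hsup : D 0 ⊔ D 1 = ⊤ := by
    rw [← hD.iSup_eq_top]
    apply le_antisymm
    · exact sup_le (le_iSup D 0) (le_iSup D 1)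
    · apply iSup_le
      intro i
      fin_cases i
      · exact le_sup_left
      · exact le_sup_right
  let L : (D 1) →ₗ[F] (Fin 2 → F) :=
    { toFun := fun w i => hermForm 4 F q (w : Fin 4 → F) (u i)
      map_add' := fun a b => by
        funext i
        simp [hs.add_left]
      map_smul' := fun c a => by
        funext i
        simp [hs.smul_left] }
  have hLinj : Function.Injective L := by
    rw [injective_iff_map_eq_zero]
    intro w hw
    have hw' : ∀ i, hermForm 4 F q (w : Fin 4 → F) (u i) = 0 := fun i => congrFun hw i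
    by_contra hne
    have hw0 : (w : Fin 4 → F) ≠ 0 := fun h => hne (Subtype.ext h)
    obtain ⟨y, hy⟩ := hf.nd _ hw0
    apply hy
    have hy' : y ∈ D 0 ⊔ D 1 := by
      rw [hsup]
      trivial
    obtain ⟨y₀, hy₀, y₁, hy₁, rfl⟩ := Submodule.mem_sup.1 hy'
    rw [hs.add_right, hts 1 _ w.2 _ hy₁, add_zero]
    obtain ⟨c₀, c₁, rfl⟩ := hexp y₀ hy₀
    rw [hs.add_right, hs.smul_right, hs.smul_right, hw', hw']
    ring
  have hLsurj : Function.Surjective L := by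
    refine (LinearMap.injective_iff_surjective_of_finrank_eq_finrank ?_).1 hLinj
    rw [hD.finrank_eq 1]
    simp
  obtain ⟨w₀, hw₀⟩ := hLsurj (Pi.single 0 1)
  obtain ⟨w₁, hw₁⟩ := hLsurj (Pi.single 1 1)
  have h00 : hermForm 4 F q (w₀ : Fin 4 → F) (u 0) = 1 := by
    have : hermForm 4 F q (w₀ : Fin 4 → F) (u 0) = (Pi.single 0 1 : Fin 2 → F) 0 := congrFun hw₀ 0
    simpa using this
  have h01 : hermForm 4 F q (w₀ : Fin 4 → F) (u 1) = 0 := by
    have : hermForm 4 F q (w₀ : Fin 4 → F) (u 1) = (Pi.single 0 1 : Fin 2 → F) 1 := congrFun hw₀ 1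
    simpa using this
  have h10 : hermForm 4 F q (w₁ : Fin 4 → F) (u 0) = 0 := by
    have : hermForm 4 F q (w₁ : Fin 4 → F) (u 0) = (Pi.single 1 1 : Fin 2 → F) 0 := congrFun hw₁ 0
    simpa using this
  have h11 : hermForm 4 F q (w₁ : Fin 4 → F) (u 1) = 1 := by
    have : hermForm 4 F q (w₁ : Fin 4 → F) (u 1) = (Pi.single 1 1 : Fin 2 → F) 1 := congrFun hw₁ 1
    simpa using this
  have sym : ∀ x y : Fin 4 → F, hermForm 4 F q x y = σ (hermForm 4 F q y x) := herm_symm hS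
  have h00' : hermForm 4 F q (u 0) (w₀ : Fin 4 → F) = 1 := by rw [sym, h00, map_one]
  have h01' : hermForm 4 F q (u 1) (w₀ : Fin 4 → F) = 0 := by rw [sym, h01, map_zero]
  have h10' : hermForm 4 F q (u 0) (w₁ : Fin 4 → F) = 0 := by rw [sym, h10, map_zero]
  have h11' : hermForm 4 F q (u 1) (w₁ : Fin 4 → F) = 1 := by rw [sym, h11, map_one]
  have tu : ∀ i j, hermForm 4 F q (u i) (u j) = 0 := fun i j => hts 0 _ (hu i) _ (hu j)
  have tw₀₀ := hts 1 _ w₀.2 _ w₀.2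
  have tw₀₁ := hts 1 _ w₀.2 _ w₁.2
  have tw₁₀ := hts 1 _ w₁.2 _ w₀.2
  have tw₁₁ := hts 1 _ w₁.2 _ w₁.2
  let M : Matrix (Fin 4) (Fin 4) F := Matrix.of fun i j =>
    (![u 0, u 1, (w₀ : Fin 4 → F), (w₁ : Fin 4 → F)] j) i
  have hM : ∀ a : Fin 4 → F, M *ᵥ a = a 0 • u 0 + a 1 • u 1 + a 2 • (w₀ : Fin 4 → F) + a 3 • (w₁ : Fin 4 → F) := by
    intro a
    funext i
    simp [Matrix.mulVec, dotProduct, M, Fin.sum_univ_four, mul_comm]
  have hform : ∀ a b, hermForm 4 F q (M *ᵥ a) (M *ᵥ b) = h4 σ a b := by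
    intro a b
    rw [hM, hM]
    simp only [hs.add_left, hs.add_right, hs.smul_left, hs.smul_right, tu, tw₀₀, tw₀₁, tw₁₀, tw₁₁, h00, h01, h10,
      h11, h00', h01', h10', h11', h4]
    ring
  have hinj : Function.Injective M.mulVecLin := by
    rw [injective_iff_map_eq_zero]
    intro a ha
    have ha' : M *ᵥ a = 0 := ha
    have h1 : ∀ b, h4 σ a b = 0 := by
      intro b
      rw [← hform, ha', hs.zero_left]
    obtain ⟨e1, e2, e3, e4⟩ := h4_single (σ := σ) a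
    rw [h1] at e1 e2 e3 e4
    funext i
    fin_cases i
    · exact e3.symm
    · exact e4.symm
    · exact e1.symm
    · exact e2.symm
  have hunit : IsUnit M := Matrix.mulVec_injective_iff_isUnit.1 hinj
  refine ⟨hunit.unit, ?_, ?_, ?_⟩
  · intro a b
    rw [IsUnit.unit_spec]
    exact hform a b
  · intro a h2 h3
    rw [IsUnit.unit_spec, hM, h2, h3, zero_smul, zero_smul, add_zero, add_zero]
    exact (D 0).add_mem ((D 0).smul_mem _ (hu 0)) ((D 0).smul_mem _ (hu 1))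
  · intro a h0 h1
    rw [IsUnit.unit_spec, hM, h0, h1, zero_smul, zero_smul, zero_add, zero_add]
    exact (D 1).add_mem ((D 1).smul_mem _ w₀.2) ((D 1).smul_mem _ w₁.2)

/-- The semilinear involution fixing the rational points. -/
def cj4 (σ : F ≃+* F) (a : Fin 4 → F) : Fin 4 → F := ![-σ (a 3), σ (a 2), σ (a 1), -σ (a 0)]

/-- Relations between the blocks of an isometry. -/
lemma block_rel (hS : HS F q σ) {a b c d e f g h : F} (h1 : a * σ e + c * σ g = 1) (h2 : a * σ f + c * σ h = 0)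
    (h3 : b * σ e + d * σ g = 0) (h4 : b * σ f + d * σ h = 1) (hdet : (a * d - b * c) * (e * h - f * g) = 1)
    (hq : ∀ x : F, σ x = x → x ≠ 0 → x * x = 1) :
    ∃ δ : F, δ * δ = 1 ∧ σ δ = δ ∧ σ e = δ * d ∧ σ f = -(δ * c) ∧ σ g = -(δ * b) ∧ σ h = δ * a ∧
      σ a = δ * h ∧ σ b = -(δ * g) ∧ σ c = -(δ * f) ∧ σ d = δ * e := by
  set δ : F := a * d - b * c with hδ
  set δ' : F := e * h - f * g with hδ'
  have hσ : δ * σ δ' = 1 := by
    simp only [hδ, hδ', map_sub, map_mul]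
    linear_combination (b * σ f + d * σ h) * h1 + h4 - (b * σ e + d * σ g) * h2
  have hδ0 : δ ≠ 0 := left_ne_zero_of_mul_eq_one hdet
  have hδ'0 : δ' ≠ 0 := right_ne_zero_of_mul_eq_one hdet
  have hfix' : σ δ' = δ' := by
    have : δ * (σ δ' - δ') = 0 := by linear_combination hσ - hdet
    exact sub_eq_zero.1 ((mul_eq_zero.1 this).resolve_left hδ0)
  have hδδ' : δ' * δ' = 1 := hq δ' hfix' hδ'0
  have hδeq : δ = δ' := by
    have : δ' * (δ - δ') = 0 := by linear_combination hdet - hδδ'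
    exact sub_eq_zero.1 ((mul_eq_zero.1 this).resolve_left hδ'0)
  have hδδ : δ * δ = 1 := by rw [hδeq]; exact hδδ'
  have hfix : σ δ = δ := by rw [hδeq]; exact hfix'
  have e1 : σ e = δ * d := by
    have : δ * σ e = d := by
      rw [hδ]
      linear_combination d * h1 - c * h3
    linear_combination δ * this - σ e * hδδ
  have e2 : σ f = -(δ * c) := by
    have : δ * σ f = -c := by
      rw [hδ]
      linear_combination d * h2 - c * h4
    linear_combination δ * this - σ f * hδδ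
  have e3 : σ g = -(δ * b) := by
    have : δ * σ g = -b := by
      rw [hδ]
      linear_combination a * h3 - b * h1
    linear_combination δ * this - σ g * hδδ
  have e4 : σ h = δ * a := by
    have : δ * σ h = a := by
      rw [hδ]
      linear_combination a * h4 - b * h2
    linear_combination δ * this - σ h * hδδ
  have inv' : ∀ x y : F, σ x = δ * y → σ y = δ * x := by
    intro x y hxy
    have h5 := congrArg σ hxy
    rw [hS.inv, map_mul, hfix] at h5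
    linear_combination -δ * h5 - σ y * hδδ
  have inv'' : ∀ x y : F, σ x = -(δ * y) → σ y = -(δ * x) := by
    intro x y hxy
    have h5 := congrArg σ hxy
    rw [hS.inv, map_neg, map_mul, hfix] at h5
    linear_combination δ * h5 - σ y * hδδ
  exact ⟨δ, hδδ, hfix, e1, e2, e3, e4, inv' _ _ e4, inv'' _ _ e3, inv'' _ _ e2, inv' _ _ e1⟩

lemma cj4_smul (c : F) (v : Fin 4 → F) : cj4 σ (c • v) = σ c • cj4 σ v := by
  funext i
  fin_cases i <;> simp [cj4] <;> ring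

/-- An isometry preserving both planes commutes with the involution up to a sign. -/
lemma cj_nonswap (hS : HS F q σ) (hq : ∀ x : F, σ x = x → x ≠ 0 → x * x = 1) {M : Matrix (Fin 4) (Fin 4) F}
    (hT : ∀ a b, h4 σ (M *ᵥ a) (M *ᵥ b) = h4 σ a b) (hdet : M.det = 1)
    (z20 : M 2 0 = 0) (z30 : M 3 0 = 0) (z21 : M 2 1 = 0) (z31 : M 3 1 = 0)
    (z02 : M 0 2 = 0) (z12 : M 1 2 = 0) (z03 : M 0 3 = 0) (z13 : M 1 3 = 0) :
    ∃ ε : F, ε * ε = 1 ∧ σ ε = ε ∧ ∀ a, cj4 σ (M *ᵥ a) = ε • (M *ᵥ cj4 σ a) := by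
  have hrel : ∀ i j, h4 σ (M *ᵥ Pi.single i 1) (M *ᵥ Pi.single j 1) = M 0 i * σ (M 2 j) + M 1 i * σ (M 3 j) +
      M 2 i * σ (M 0 j) + M 3 i * σ (M 1 j) := by
    intro i j
    simp only [h4, Matrix.mulVec_single_one, Matrix.col_apply]
  have r1 := hT (Pi.single 0 1) (Pi.single 2 1)
  have r2 := hT (Pi.single 0 1) (Pi.single 3 1)
  have r3 := hT (Pi.single 1 1) (Pi.single 2 1)
  have r4 := hT (Pi.single 1 1) (Pi.single 3 1)
  rw [hrel] at r1 r2 r3 r4
  obtain ⟨-, -, e1, -⟩ := h4_single (σ := σ) (Pi.single 0 1 : Fin 4 → F)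
  obtain ⟨-, -, -, e2⟩ := h4_single (σ := σ) (Pi.single 0 1 : Fin 4 → F)
  obtain ⟨-, -, e3, -⟩ := h4_single (σ := σ) (Pi.single 1 1 : Fin 4 → F)
  obtain ⟨-, -, -, e4⟩ := h4_single (σ := σ) (Pi.single 1 1 : Fin 4 → F)
  rw [e1] at r1
  rw [e2] at r2
  rw [e3] at r3
  rw [e4] at r4
  simp only [z20, z30, z21, z31, z02, z12, z03, z13, map_zero, mul_zero, zero_mul, add_zero, zero_add] at r1 r2 r3 r4
  have hdet' : (M 0 0 * M 1 1 - M 0 1 * M 1 0) * (M 2 2 * M 3 3 - M 2 3 * M 3 2) = 1 := by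
    rw [← hdet, Matrix.det_succ_row_zero]
    simp only [Fin.sum_univ_four, Matrix.det_fin_three]
    simp [Matrix.submatrix_apply, Fin.succAbove, z20, z30, z21, z31, z02, z12, z03, z13]
    ring
  obtain ⟨δ, hδδ, hfix, s1, s2, s3, s4, s5, s6, s7, s8⟩ := block_rel hS (a := M 0 0) (b := M 0 1) (c := M 1 0)
    (d := M 1 1) (e := M 2 2) (f := M 2 3) (g := M 3 2) (h := M 3 3)
    (by simpa using r1) (by simpa using r2) (by simpa using r3) (by simpa using r4) hdet' hq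
  refine ⟨δ, hδδ, hfix, fun a => ?_⟩
  funext i
  fin_cases i <;> simp [cj4, Matrix.mulVec, dotProduct, Fin.sum_univ_four, z20, z30, z21, z31, z02, z12, z03, z13,
    s1, s2, s3, s4, s5, s6, s7, s8] <;> ring

/-- An isometry interchanging both planes commutes with the involution up to a sign. -/
lemma cj_swap (hS : HS F q σ) (hq : ∀ x : F, σ x = x → x ≠ 0 → x * x = 1) {M : Matrix (Fin 4) (Fin 4) F}
    (hT : ∀ a b, h4 σ (M *ᵥ a) (M *ᵥ b) = h4 σ a b) (hdet : M.det = 1)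
    (z00 : M 0 0 = 0) (z10 : M 1 0 = 0) (z01 : M 0 1 = 0) (z11 : M 1 1 = 0)
    (z22 : M 2 2 = 0) (z32 : M 3 2 = 0) (z23 : M 2 3 = 0) (z33 : M 3 3 = 0) :
    ∃ ε : F, ε * ε = 1 ∧ σ ε = ε ∧ ∀ a, cj4 σ (M *ᵥ a) = ε • (M *ᵥ cj4 σ a) := by
  have hrel : ∀ i j, h4 σ (M *ᵥ Pi.single i 1) (M *ᵥ Pi.single j 1) = M 0 i * σ (M 2 j) + M 1 i * σ (M 3 j) +
      M 2 i * σ (M 0 j) + M 3 i * σ (M 1 j) := by
    intro i j
    simp only [h4, Matrix.mulVec_single_one, Matrix.col_apply]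
  have r1 := hT (Pi.single 2 1) (Pi.single 0 1)
  have r2 := hT (Pi.single 2 1) (Pi.single 1 1)
  have r3 := hT (Pi.single 3 1) (Pi.single 0 1)
  have r4 := hT (Pi.single 3 1) (Pi.single 1 1)
  rw [hrel] at r1 r2 r3 r4
  obtain ⟨e1, -, -, -⟩ := h4_single (σ := σ) (Pi.single 2 1 : Fin 4 → F)
  obtain ⟨-, e2, -, -⟩ := h4_single (σ := σ) (Pi.single 2 1 : Fin 4 → F)
  obtain ⟨e3, -, -, -⟩ := h4_single (σ := σ) (Pi.single 3 1 : Fin 4 → F)
  obtain ⟨-, e4, -, -⟩ := h4_single (σ := σ) (Pi.single 3 1 : Fin 4 → F)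
  rw [e1] at r1
  rw [e2] at r2
  rw [e3] at r3
  rw [e4] at r4
  simp only [z00, z10, z01, z11, z22, z32, z23, z33, map_zero, mul_zero, zero_mul, add_zero, zero_add] at r1 r2 r3 r4
  have hdet' : (M 0 2 * M 1 3 - M 0 3 * M 1 2) * (M 2 0 * M 3 1 - M 2 1 * M 3 0) = 1 := by
    rw [← hdet, Matrix.det_succ_row_zero]
    simp only [Fin.sum_univ_four, Matrix.det_fin_three]
    simp [Matrix.submatrix_apply, Fin.succAbove, z00, z10, z01, z11, z22, z32, z23, z33]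
    ring
  obtain ⟨δ, hδδ, hfix, s1, s2, s3, s4, s5, s6, s7, s8⟩ := block_rel hS (a := M 0 2) (b := M 0 3) (c := M 1 2)
    (d := M 1 3) (e := M 2 0) (f := M 2 1) (g := M 3 0) (h := M 3 1)
    (by simpa using r1) (by simpa using r2) (by simpa using r3) (by simpa using r4) hdet' hq
  refine ⟨-δ, by linear_combination hδδ, by rw [map_neg, hfix], fun a => ?_⟩
  funext i
  fin_cases i <;> simp [cj4, Matrix.mulVec, dotProduct, Fin.sum_univ_four, z00, z10, z01, z11, z22, z32, z23, z33,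
    s1, s2, s3, s4, s5, s6, s7, s8] <;> ring

/-- An element of the stabiliser of a pair of planes commutes with the involution after scaling. -/
theorem pair_element (hS : HS F q σ) (hq : ∀ x : F, σ x = x → x ≠ 0 → x * x = 1)
    {D : Fin 2 → Submodule F (Fin 4 → F)} (hts : ∀ i, IsTotallySingularFor (hermForm 4 F q) (D i))
    {Q : GL (Fin 4) F} (hQf : ∀ a b, hermForm 4 F q ((Q : Matrix (Fin 4) (Fin 4) F) *ᵥ a)
        ((Q : Matrix (Fin 4) (Fin 4) F) *ᵥ b) = h4 σ a b)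
    (hQ0 : ∀ a : Fin 4 → F, a 2 = 0 → a 3 = 0 → (Q : Matrix (Fin 4) (Fin 4) F) *ᵥ a ∈ D 0)
    (hQ1 : ∀ a : Fin 4 → F, a 0 = 0 → a 1 = 0 → (Q : Matrix (Fin 4) (Fin 4) F) *ᵥ a ∈ D 1)
    {g : GL (Fin 4) F} (hgU : g ∈ GU 4 F q) (hgS : g ∈ specialLinear (Fin 4) F) (hgD : g ∈ decompositionStabilizer D) :
    ∃ l : Fˣ, ∀ a, cj4 σ ((l : F) • ((((Q⁻¹ : GL (Fin 4) F) : Matrix (Fin 4) (Fin 4) F) * (g : Matrix (Fin 4) (Fin 4) F) *
        (Q : Matrix (Fin 4) (Fin 4) F)) *ᵥ a)) =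
      (l : F) • ((((Q⁻¹ : GL (Fin 4) F) : Matrix (Fin 4) (Fin 4) F) * (g : Matrix (Fin 4) (Fin 4) F) *
        (Q : Matrix (Fin 4) (Fin 4) F)) *ᵥ cj4 σ a) := by
  set M : Matrix (Fin 4) (Fin 4) F := ((Q⁻¹ : GL (Fin 4) F) : Matrix (Fin 4) (Fin 4) F) * (g : Matrix (Fin 4) (Fin 4) F) *
        (Q : Matrix (Fin 4) (Fin 4) F) with hM
  have hQM : ∀ a, (Q : Matrix (Fin 4) (Fin 4) F) *ᵥ (M *ᵥ a) = (g : Matrix (Fin 4) (Fin 4) F) *ᵥ
      ((Q : Matrix (Fin 4) (Fin 4) F) *ᵥ a) := by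
    intro a
    rw [hM, ← Matrix.mulVec_mulVec, ← Matrix.mulVec_mulVec, mul_inv_mulVec]
  have hT : ∀ a b, h4 σ (M *ᵥ a) (M *ᵥ b) = h4 σ a b := by
    intro a b
    rw [← hQf, hQM, hQM, gu_isom hgU, hQf]
  have hdet : M.det = 1 := by
    have h1 : (Matrix.GeneralLinearGroup.det g : Fˣ) = 1 := hgS
    have h2 : (g : Matrix (Fin 4) (Fin 4) F).det = 1 := by
      have := congrArg Units.val h1
      simpa using this
    rw [hM, Matrix.det_mul, Matrix.det_mul, h2, mul_one, ← Matrix.det_mul, ← Units.val_mul, inv_mul_cancel]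
    simp
  have hz0 : ∀ x : Fin 4 → F, (Q : Matrix (Fin 4) (Fin 4) F) *ᵥ x ∈ D 0 → x 2 = 0 ∧ x 3 = 0 := by
    intro x hx
    obtain ⟨e1, e2, -, -⟩ := h4_single (σ := σ) x
    rw [← e1, ← e2, ← hQf, ← hQf]
    exact ⟨hts 0 _ hx _ (hQ0 _ (by simp) (by simp)), hts 0 _ hx _ (hQ0 _ (by simp) (by simp))⟩
  have hz1 : ∀ x : Fin 4 → F, (Q : Matrix (Fin 4) (Fin 4) F) *ᵥ x ∈ D 1 → x 0 = 0 ∧ x 1 = 0 := by
    intro x hx
    obtain ⟨-, -, e1, e2⟩ := h4_single (σ := σ) x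
    rw [← e1, ← e2, ← hQf, ← hQf]
    exact ⟨hts 1 _ hx _ (hQ1 _ (by simp) (by simp)), hts 1 _ hx _ (hQ1 _ (by simp) (by simp))⟩
  have hentry : ∀ i j, (M *ᵥ Pi.single j 1) i = M i j := by
    intro i j
    rw [Matrix.mulVec_single_one]
    rfl
  have hcase : ∃ ε : F, ε * ε = 1 ∧ σ ε = ε ∧ ∀ a, cj4 σ (M *ᵥ a) = ε • (M *ᵥ cj4 σ a) := by
    obtain ⟨π, hπ⟩ := hgD
    have hmap : ∀ (i : Fin 2) (a : Fin 4 → F), (Q : Matrix (Fin 4) (Fin 4) F) *ᵥ a ∈ D i →
        (Q : Matrix (Fin 4) (Fin 4) F) *ᵥ (M *ᵥ a) ∈ D (π i) := by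
      intro i a ha
      rw [hQM, ← hπ i]
      exact ⟨_, ha, by rw [Matrix.toLin'_apply]⟩
    rcases perm_two_cases π with rfl | rfl
    · have hA : ∀ j : Fin 4, j = 0 ∨ j = 1 → M 2 j = 0 ∧ M 3 j = 0 := by
        intro j hj
        have h1 := hz0 _ (hmap 0 (Pi.single j 1) (hQ0 _ (by rcases hj with rfl | rfl <;> simp) (by rcases hj with rfl | rfl <;> simp)))
        rwa [hentry, hentry] at h1
      have hB : ∀ j : Fin 4, j = 2 ∨ j = 3 → M 0 j = 0 ∧ M 1 j = 0 := by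
        intro j hj
        have h1 := hz1 _ (hmap 1 (Pi.single j 1) (hQ1 _ (by rcases hj with rfl | rfl <;> simp) (by rcases hj with rfl | rfl <;> simp)))
        rwa [hentry, hentry] at h1
      exact cj_nonswap hS hq hT hdet (hA 0 (by simp)).1 (hA 0 (by simp)).2 (hA 1 (by simp)).1 (hA 1 (by simp)).2
        (hB 2 (by simp)).1 (hB 2 (by simp)).2 (hB 3 (by simp)).1 (hB 3 (by simp)).2
    · have hA : ∀ j : Fin 4, j = 0 ∨ j = 1 → M 0 j = 0 ∧ M 1 j = 0 := by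
        intro j hj
        have h1 := hz1 _ (hmap 0 (Pi.single j 1) (hQ0 _ (by rcases hj with rfl | rfl <;> simp) (by rcases hj with rfl | rfl <;> simp)))
        rwa [hentry, hentry] at h1
      have hB : ∀ j : Fin 4, j = 2 ∨ j = 3 → M 2 j = 0 ∧ M 3 j = 0 := by
        intro j hj
        have h1 := hz0 _ (hmap 1 (Pi.single j 1) (hQ1 _ (by rcases hj with rfl | rfl <;> simp) (by rcases hj with rfl | rfl <;> simp)))
        rwa [hentry, hentry] at h1
      exact cj_swap hS hq hT hdet (hA 0 (by simp)).1 (hA 0 (by simp)).2 (hA 1 (by simp)).1 (hA 1 (by simp)).2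
        (hB 2 (by simp)).1 (hB 2 (by simp)).2 (hB 3 (by simp)).1 (hB 3 (by simp)).2
  obtain ⟨ε, hεε, -, hε⟩ := hcase
  obtain ⟨ζ, hζ0, hζ⟩ := hS.exists_trace_zero
  have hl : ∃ l : Fˣ, σ (l : F) * ε = l := by
    have h1 : (ε - 1) * (ε + 1) = 0 := by linear_combination hεε
    rcases mul_eq_zero.1 h1 with h2 | h2
    · refine ⟨1, ?_⟩
      have : ε = 1 := sub_eq_zero.1 h2
      simp [this]
    · refine ⟨Units.mk0 ζ hζ0, ?_⟩
      have h3 : ε = -1 := by linear_combination h2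
      simp only [Units.val_mk0, h3]
      linear_combination -hζ
  obtain ⟨l, hl⟩ := hl
  refine ⟨l, fun a => ?_⟩
  rw [cj4_smul, hε, smul_smul, hl]

/-- The small fields have few fixed elements. -/
lemma small_fixed (hS : HS F q σ) (hq3 : q ≤ 3) : ∀ x : F, σ x = x → x ≠ 0 → x * x = 1 := by
  intro x hx hx0
  rw [hS.pow] at hx
  have h2 := hS.two_le
  have hq : q = 2 ∨ q = 3 := by omega
  rcases hq with rfl | rfl
  · have h3 : x * (x - 1) = 0 := by linear_combination hx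
    have h4 : x = 1 := sub_eq_zero.1 ((mul_eq_zero.1 h3).resolve_left hx0)
    rw [h4, one_mul]
  · have h3 : x * (x * x - 1) = 0 := by linear_combination hx
    exact sub_eq_zero.1 ((mul_eq_zero.1 h3).resolve_left hx0)

/-- The outcome for a pair of totally singular planes over a small field. -/
theorem pair_conc (hS : HS F q σ) (hq3 : q ≤ 3) {H : Subgroup (GL (Fin 4) F)} (hH : IsMaximalIn (GSU 4 F q) H)
    {D : Fin 2 → Submodule F (Fin 4 → F)} (hD : IsMDecomposition 2 D)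
    (hts : ∀ i, IsTotallySingularFor (hermForm 4 F q) (D i)) (hle : H ≤ decompositionStabilizer D) :
    ∃ (F₀ : Subfield F) (P : GL (Fin 4) F) (ζ : F), Fintype.card F = Nat.card F₀ ^ 2 ∧ ζ ≠ 0 ∧ ζ + ζ ^ q = 0 ∧
      IsFormRationalStructure (hermForm 4 F q) F₀ ζ P ∧
      (∀ u : Fin 4 → F, (∀ i, u i ∈ F₀) → hermForm 4 F q ((P : Matrix (Fin 4) (Fin 4) F) *ᵥ u)
        ((P : Matrix (Fin 4) (Fin 4) F) *ᵥ u) = 0) ∧
      H = subfieldSubgroup F₀ P ⊓ (GU 4 F q ⊓ specialLinear (Fin 4) F) := by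
  classical
  obtain ⟨Q, hQf, hQ0, hQ1⟩ := exists_pair_basis hS hD hts
  have hq := small_fixed hS hq3
  obtain ⟨θ, hθ⟩ : ∃ θ : F, σ θ ≠ θ := by
    by_contra hcon
    push Not at hcon
    apply hS.ne
    ext x
    exact hcon x
  have hd : θ - σ θ ≠ 0 := fun h => hθ (sub_eq_zero.1 h).symm
  let M₀ : Matrix (Fin 4) (Fin 4) F := !![1, θ, 0, 0; 0, 0, 1, θ; 0, 0, 1, σ θ; -1, -σ θ, 0, 0]
  have hmul : ∀ r : Fin 4 → F, M₀ *ᵥ r = ![r 0 + θ * r 1, r 2 + θ * r 3, r 2 + σ θ * r 3, -r 0 - σ θ * r 1] := by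
    intro r
    funext i
    fin_cases i <;> simp [M₀, Matrix.mulVec, dotProduct, Fin.sum_univ_four]
    ring
  have hinj : Function.Injective M₀.mulVecLin := by
    rw [injective_iff_map_eq_zero]
    intro r hr
    have hr' : M₀ *ᵥ r = 0 := hr
    rw [hmul] at hr'
    have h0 : r 0 + θ * r 1 = 0 := congrFun hr' 0
    have h1 : r 2 + θ * r 3 = 0 := congrFun hr' 1
    have h2 : r 2 + σ θ * r 3 = 0 := congrFun hr' 2
    have h3 : -r 0 - σ θ * r 1 = 0 := congrFun hr' 3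
    have e1 : r 1 = 0 := by
      have : (θ - σ θ) * r 1 = 0 := by linear_combination h0 + h3
      exact (mul_eq_zero.1 this).resolve_left hd
    have e3 : r 3 = 0 := by
      have : (θ - σ θ) * r 3 = 0 := by linear_combination h1 - h2
      exact (mul_eq_zero.1 this).resolve_left hd
    have e0 : r 0 = 0 := by
      rw [e1, mul_zero, add_zero] at h0
      exact h0
    have e2 : r 2 = 0 := by
      rw [e3, mul_zero, add_zero] at h1
      exact h1
    funext i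
    fin_cases i
    · exact e0
    · exact e1
    · exact e2
    · exact e3
  have hunit : IsUnit M₀ := Matrix.mulVec_injective_iff_isUnit.1 hinj
  set P₀ : GL (Fin 4) F := hunit.unit with hP₀
  have hP₀v : (P₀ : Matrix (Fin 4) (Fin 4) F) = M₀ := IsUnit.unit_spec hunit
  have hcj : ∀ r : Fin 4 → F, cj4 σ (M₀ *ᵥ r) = M₀ *ᵥ (fun i => σ (r i)) := by
    intro r
    rw [hmul, hmul]
    funext i
    fin_cases i <;> simp [cj4, hS.inv] <;> ring
  set P : GL (Fin 4) F := Q * P₀ with hP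
  have hPv : ∀ u : Fin 4 → F, (P : Matrix (Fin 4) (Fin 4) F) *ᵥ u = (Q : Matrix (Fin 4) (Fin 4) F) *ᵥ (M₀ *ᵥ u) := by
    intro u
    rw [hP, Units.val_mul, ← Matrix.mulVec_mulVec, hP₀v]
  have hsub : H ≤ subfieldSubgroup (F0 σ) P := by
    intro g hg
    rw [mem_subfieldSubgroup]
    obtain ⟨l, hl⟩ := pair_element hS hq hts hQf hQ0 hQ1 (hH.1.le hg).1 (hH.1.le hg).2 (hle hg)
    refine ⟨l, fun i j => ?_⟩
    set M : Matrix (Fin 4) (Fin 4) F := ((Q⁻¹ : GL (Fin 4) F) : Matrix (Fin 4) (Fin 4) F) * (g : Matrix (Fin 4) (Fin 4) F) *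
        (Q : Matrix (Fin 4) (Fin 4) F) with hM
    set N : Matrix (Fin 4) (Fin 4) F := ((P⁻¹ : GL (Fin 4) F) : Matrix (Fin 4) (Fin 4) F) * (g : Matrix (Fin 4) (Fin 4) F) *
        (P : Matrix (Fin 4) (Fin 4) F) with hN
    set v : Fin 4 → F := N *ᵥ Pi.single j 1 with hv
    have hvi : v i = N i j := by
      rw [hv, Matrix.mulVec_single_one]
      rfl
    have hM₀v : M₀ *ᵥ v = M *ᵥ (M₀ *ᵥ Pi.single j 1) := by
      rw [hv, hN, hP, mul_inv_rev]
      simp only [Units.val_mul]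
      rw [← hP₀v]
      simp only [← Matrix.mulVec_mulVec]
      rw [mul_inv_mulVec]
      simp only [hM, ← Matrix.mulVec_mulVec]
    have hsingle : (fun k => σ ((Pi.single j 1 : Fin 4 → F) k)) = (Pi.single j 1 : Fin 4 → F) := by
      funext k
      by_cases hk : k = j
      · subst hk
        simp
      · simp [hk]
    have h1 := hl (M₀ *ᵥ Pi.single j 1)
    rw [hcj, hsingle, ← hM₀v] at h1
    have h1' : M₀ *ᵥ (fun k => σ (((l : F) • v) k)) = M₀ *ᵥ ((l : F) • v) := by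
      rw [← hcj, Matrix.mulVec_smul]
      exact h1
    have hinj' : ∀ x y : Fin 4 → F, M₀ *ᵥ x = M₀ *ᵥ y → x = y := fun x y h => hinj h
    have h2 := hinj' _ _ h1'
    have h3 := congrFun h2 i
    simp only [Pi.smul_apply, smul_eq_mul] at h3
    rw [mem_F0, ← hvi]
    exact h3
  have heq : H = subfieldSubgroup (F0 σ) P ⊓ (GU 4 F q ⊓ specialLinear (Fin 4) F) :=
    eq_inf_of_max hH hsub (not_gsu_le_subfield4 hS σ (fun x => Iff.rfl) (F0_ne_top hS) P)
  obtain ⟨ζ, hζ0, hζ⟩ := hS.exists_trace_zero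
  have hσζ : σ ζ = -ζ := by linear_combination hζ
  refine ⟨F0 σ, P, ζ, card_F0 hS, hζ0, by rw [← hS.pow]; exact hζ, fun u v hu hv => ?_, fun u hu => ?_, heq⟩
  · rw [hPv, hPv, hQf, hmul, hmul, mem_F0]
    have hu' : ∀ i, σ (u i) = u i := fun i => hu i
    have hv' : ∀ i, σ (v i) = v i := fun i => hv i
    simp only [h4, Matrix.cons_val, map_mul, map_add, map_sub, map_neg, hS.inv, hσζ, hu', hv']
    ring
  · have hu' : ∀ i, σ (u i) = u i := fun i => hu i
    rw [hPv, hQf, hmul]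
    simp only [h4, Matrix.cons_val, map_mul, map_add, map_sub, map_neg, hS.inv, hu']
    ring

end SU4Pair

end Cfsg.Agent.H28
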