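import Cfsg.Agent.Lib.H28.GSU4d
import Cfsg.Agent.Lib.H28.GSp4e

set_option autoImplicit false
set_option linter.style.haveILetI false
set_option linter.unusedSectionVars false
set_option linter.unusedSimpArgs false

namespace Cfsg.Agent.H28

open scoped MatrixGroups Matrix commutatorElement Kronecker
open Cfsg Cfsg.Geo

section Mono

variable {ι : Type} [Fintype ι] [DecidableEq ι] {F : Type*} [Field F]

/-- The monomial matrix with permutation `π` and coefficients `d`: it sends `e j` to `d j • e (π j)`. -/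
def monoM (π : Equiv.Perm ι) (d : ι → F) : Matrix ι ι F := Matrix.of fun i j => if i = π j then d j else 0

lemma monoM_apply (π : Equiv.Perm ι) (d : ι → F) (i j : ι) : monoM π d i j = if i = π j then d j else 0 := rfl

lemma monoM_mul (π π' : Equiv.Perm ι) (d d' : ι → F) :
    monoM π d * monoM π' d' = monoM (π * π') (fun j => d (π' j) * d' j) := by
  ext i j
  rw [Matrix.mul_apply]
  rw [Finset.sum_eq_single (π' j)]
  · by_cases hij : i = π (π' j) <;> simp [monoM_apply, hij]
  · intro b _ hb
    simp [monoM_apply, hb]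
  · simp

lemma monoM_one_one : monoM (1 : Equiv.Perm ι) (fun _ => (1 : F)) = 1 := by
  ext i j
  by_cases hij : i = j <;> simp [monoM_apply, Matrix.one_apply, hij]

lemma monoM_mulVec (π : Equiv.Perm ι) (d x : ι → F) (j : ι) : (monoM π d *ᵥ x) (π j) = d j * x j := by
  simp only [Matrix.mulVec, dotProduct, monoM_apply]
  rw [Finset.sum_eq_single j]
  · simp
  · intro b _ hb
    have : π j ≠ π b := fun h => hb (π.injective h).symm
    simp [this]
  · simp

lemma monoM_mulVec' (π : Equiv.Perm ι) (d x : ι → F) (i : ι) :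
    (monoM π d *ᵥ x) i = d (π⁻¹ i) * x (π⁻¹ i) := by
  have h := monoM_mulVec π d x (π⁻¹ i)
  rwa [show π (π⁻¹ i) = i by simp] at h

lemma monoM_det (π : Equiv.Perm ι) (d : ι → F) :
    (monoM π d).det = ((Equiv.Perm.sign π : ℤ) : F) * ∏ j, d j := by
  rw [Matrix.det_apply']
  rw [Finset.sum_eq_single π]
  · simp [monoM_apply]
  · intro τ _ hτ
    obtain ⟨j, hj⟩ : ∃ j, τ j ≠ π j := by
      by_contra hcon
      push Not at hcon
      exact hτ (Equiv.ext hcon)
    have : ∏ i, monoM π d (τ i) i = 0 := Finset.prod_eq_zero (Finset.mem_univ j) (by simp [monoM_apply, hj])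
    rw [this, mul_zero]
  · simp

/-- The invertible monomial matrix. -/
def monoGL (π : Equiv.Perm ι) (d : ι → Fˣ) : GL ι F where
  val := monoM π (fun j => (d j : F))
  inv := monoM π⁻¹ (fun j => (((d (π⁻¹ j))⁻¹ : Fˣ) : F))
  val_inv := by
    rw [monoM_mul, ← monoM_one_one]
    congr 1
    · simp
    · funext j
      simp
  inv_val := by
    rw [monoM_mul, ← monoM_one_one]
    congr 1
    · simp
    · funext j
      simp

lemma monoGL_val (π : Equiv.Perm ι) (d : ι → Fˣ) :
    ((monoGL π d : GL ι F) : Matrix ι ι F) = monoM π (fun j => (d j : F)) := rfl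

lemma monoGL_mul (π π' : Equiv.Perm ι) (d d' : ι → Fˣ) :
    (monoGL π d : GL ι F) * monoGL π' d' = monoGL (π * π') (fun j => d (π' j) * d' j) := by
  apply Units.ext
  rw [Units.val_mul, monoGL_val, monoGL_val, monoGL_val, monoM_mul]
  congr 1

lemma monoGL_one : (monoGL (1 : Equiv.Perm ι) (fun _ => 1) : GL ι F) = 1 := by
  apply Units.ext
  rw [monoGL_val, Units.val_one]
  exact monoM_one_one

lemma monoGL_inv (π : Equiv.Perm ι) (d : ι → Fˣ) :
    (monoGL π d : GL ι F)⁻¹ = monoGL π⁻¹ (fun j => (d (π⁻¹ j))⁻¹) :=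
  Units.ext rfl

lemma monoGL_neg (π : Equiv.Perm ι) (d : ι → Fˣ) :
    -(monoGL π d : GL ι F) = monoGL π (fun j => -d j) := by
  apply Units.ext
  rw [Units.val_neg, monoGL_val, monoGL_val]
  ext i j
  by_cases hij : i = π j <;> simp [monoM_apply, hij]

lemma monoGL_sc (c : Fˣ) : (monoGL (1 : Equiv.Perm ι) (fun _ => c) : GL ι F) = sc c := by
  apply Units.ext
  rw [monoGL_val, sc_val]
  ext i j
  by_cases hij : i = j <;> simp [monoM_apply, Matrix.one_apply, hij]

/-- A sign relation between two monomial matrices. -/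
lemma mono_mem_sgn {π π' : Equiv.Perm ι} {d d' : ι → Fˣ} (hcomm : π * π' = π' * π) {κ : Fˣ} (hκ : κ = 1 ∨ κ = -1)
    (h : ∀ j, d (π' j) * d' j = κ * (d' (π j) * d j)) : (monoGL π d : GL ι F) ∈ sgn (monoGL π' d') := by
  rcases hκ with rfl | rfl
  · left
    rw [monoGL_mul, monoGL_mul, hcomm]
    congr 1
    funext j
    rw [h, one_mul]
  · right
    rw [monoGL_mul, monoGL_mul, hcomm, monoGL_neg]
    congr 1
    funext j
    rw [h, neg_one_mul]

end Mono

end Cfsg.Agent.H28
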