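import Cfsg.Agent.Lib.H28.GSU4e

set_option autoImplicit false
set_option linter.style.haveILetI false
set_option linter.unusedSectionVars false
set_option linter.unusedSimpArgs false

namespace Cfsg.Agent.H28

open scoped MatrixGroups Matrix commutatorElement Kronecker
open Cfsg Cfsg.Geo

section R4

variable {F : Type*} [Field F]

/-- The permutations defining the group of order 64. -/
def tauC : Equiv.Perm (Fin 4) := Equiv.swap 0 1 * Equiv.swap 2 3
def tauD : Equiv.Perm (Fin 4) := Equiv.swap 0 2 * Equiv.swap 1 3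

/-- The signs defining the group of order 64. -/
def epsA (F : Type*) [Field F] : Fin 4 → Fˣ := ![1, 1, -1, -1]
def epsB (F : Type*) [Field F] : Fin 4 → Fˣ := ![1, -1, 1, -1]

def tA (F : Type*) [Field F] : GL (Fin 4) F := monoGL 1 (epsA F)
def tB (F : Type*) [Field F] : GL (Fin 4) F := monoGL 1 (epsB F)
def tC (F : Type*) [Field F] : GL (Fin 4) F := monoGL tauC (fun _ => 1)
def tD (F : Type*) [Field F] : GL (Fin 4) F := monoGL tauD (fun _ => 1)

lemma tA_sq : tA F * tA F = 1 := by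
  rw [tA, monoGL_mul, ← monoGL_one]
  congr 1
  funext j
  fin_cases j <;> simp [epsA]

lemma tB_sq : tB F * tB F = 1 := by
  rw [tB, monoGL_mul, ← monoGL_one]
  congr 1
  funext j
  fin_cases j <;> simp [epsB]

lemma tC_sq : tC F * tC F = 1 := by
  rw [tC, monoGL_mul, ← monoGL_one]
  congr 1
  · decide
  · funext j
    simp

lemma tD_sq : tD F * tD F = 1 := by
  rw [tD, monoGL_mul, ← monoGL_one]
  congr 1
  · decide
  · funext j
    simp

lemma tA_tB : tA F * tB F = tB F * tA F := by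
  rw [tA, tB, monoGL_mul, monoGL_mul]
  congr 1
  funext j
  fin_cases j <;> simp [epsA, epsB]

lemma tau_vals : tauC 0 = 1 ∧ tauC 1 = 0 ∧ tauC 2 = 3 ∧ tauC 3 = 2 ∧ tauD 0 = 2 ∧ tauD 1 = 3 ∧ tauD 2 = 0 ∧
    tauD 3 = 1 := by decide

lemma tA_tC : tA F * tC F = tC F * tA F := by
  obtain ⟨c0, c1, c2, c3, -⟩ := tau_vals
  rw [tA, tC, monoGL_mul, monoGL_mul]
  congr 1
  funext j
  fin_cases j <;> simp [epsA, c0, c1, c2, c3]

lemma tA_tD : tA F * tD F = -(tD F * tA F) := by
  obtain ⟨-, -, -, -, c0, c1, c2, c3⟩ := tau_vals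
  rw [tA, tD, monoGL_mul, monoGL_mul, monoGL_neg]
  congr 1
  funext j
  fin_cases j <;> simp [epsA, c0, c1, c2, c3]

lemma tB_tC : tB F * tC F = -(tC F * tB F) := by
  obtain ⟨c0, c1, c2, c3, -⟩ := tau_vals
  rw [tB, tC, monoGL_mul, monoGL_mul, monoGL_neg]
  congr 1
  funext j
  fin_cases j <;> simp [epsB, c0, c1, c2, c3]

lemma tB_tD : tB F * tD F = tD F * tB F := by
  obtain ⟨-, -, -, -, c0, c1, c2, c3⟩ := tau_vals
  rw [tB, tD, monoGL_mul, monoGL_mul]
  congr 1
  funext j
  fin_cases j <;> simp [epsB, c0, c1, c2, c3]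

lemma tC_tD : tC F * tD F = tD F * tC F := by
  rw [tC, tD, monoGL_mul, monoGL_mul]
  congr 1
  decide

/-- The generators. -/
def gens4 (F : Type*) [Field F] : Set (GL (Fin 4) F) := {tA F, tB F, tC F, tD F}

lemma mem_gens4 {t : GL (Fin 4) F} : t ∈ gens4 F ↔ t = tA F ∨ t = tB F ∨ t = tC F ∨ t = tD F := by
  simp [gens4]

/-- The generators generate the full matrix algebra. -/
lemma adjoin_gens4 (h2 : (2 : F) ≠ 0) :
    Algebra.adjoin F ((fun g : GL (Fin 4) F => (g : Matrix (Fin 4) (Fin 4) F)) '' gens4 F) = ⊤ := by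
  classical
  set A := Algebra.adjoin F ((fun g : GL (Fin 4) F => (g : Matrix (Fin 4) (Fin 4) F)) '' gens4 F) with hA
  have hgen : ∀ t ∈ gens4 F, (t : Matrix (Fin 4) (Fin 4) F) ∈ A := fun t ht =>
    Algebra.subset_adjoin ⟨t, ht, rfl⟩
  have ha := hgen (tA F) (mem_gens4.2 (by simp))
  have hb := hgen (tB F) (mem_gens4.2 (by simp))
  have hc := hgen (tC F) (mem_gens4.2 (by simp))
  have hd := hgen (tD F) (mem_gens4.2 (by simp))
  have h1 : (1 : Matrix (Fin 4) (Fin 4) F) ∈ A := A.one_mem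
  have h4 : (4 : F) ≠ 0 := by
    have : (4 : F) = 2 * 2 := by norm_num
    rw [this]
    exact mul_ne_zero h2 h2
  -- the diagonal idempotents
  have hdiag : ∀ (s r : F) (j : Fin 4), s = (epsA F j : F) → r = (epsB F j : F) →
      Matrix.single j j (1 : F) = (4 : F)⁻¹ • (((1 : Matrix (Fin 4) (Fin 4) F) + s • (tA F : Matrix (Fin 4) (Fin 4) F)) *
        ((1 : Matrix (Fin 4) (Fin 4) F) + r • (tB F : Matrix (Fin 4) (Fin 4) F))) := by
    intro s r j hs hr
    have e1 : ((1 : Matrix (Fin 4) (Fin 4) F) + s • (tA F : Matrix (Fin 4) (Fin 4) F)) *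
        ((1 : Matrix (Fin 4) (Fin 4) F) + r • (tB F : Matrix (Fin 4) (Fin 4) F)) =
        Matrix.diagonal (fun i => (1 + s * (epsA F i : F)) * (1 + r * (epsB F i : F))) := by
      ext i k
      have e2 : (tA F : Matrix (Fin 4) (Fin 4) F) = Matrix.diagonal (fun i => (epsA F i : F)) := by
        ext a b
        by_cases hab : a = b <;> simp [tA, monoGL_val, monoM_apply, hab]
      have e3 : (tB F : Matrix (Fin 4) (Fin 4) F) = Matrix.diagonal (fun i => (epsB F i : F)) := by
        ext a b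
        by_cases hab : a = b <;> simp [tB, monoGL_val, monoM_apply, hab]
      rw [e2, e3, ← Matrix.diagonal_smul, ← Matrix.diagonal_smul, ← Matrix.diagonal_one, Matrix.diagonal_add,
        Matrix.diagonal_add, Matrix.diagonal_mul_diagonal]
      by_cases hik : i = k <;> simp [Matrix.diagonal_apply, hik]
    rw [e1]
    subst hs hr
    ext i k
    by_cases hik : i = k
    · subst hik
      fin_cases i <;> fin_cases j <;> simp [epsA, epsB, Matrix.diagonal_apply, Matrix.single_apply] <;>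
        first
        | (field_simp; norm_num)
        | skip
    · have : (Matrix.single j j (1 : F)) i k = 0 := by
        simp [Matrix.single_apply]
        intro h5 h6
        exact absurd (h5.symm.trans h6) hik
      simp [this, Matrix.diagonal_apply, hik]
  have hE : ∀ j : Fin 4, Matrix.single j j (1 : F) ∈ A := by
    intro j
    rw [hdiag _ _ j rfl rfl]
    exact A.smul_mem (A.mul_mem (A.add_mem h1 (A.smul_mem ha _)) (A.add_mem h1 (A.smul_mem hb _))) _
  -- the permutation matrices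
  have hperm : ∀ ρ : Equiv.Perm (Fin 4), ρ ∈ ({1, tauC, tauD, tauC * tauD} : Finset (Equiv.Perm (Fin 4))) →
      monoM ρ (fun _ => (1 : F)) ∈ A := by
    intro ρ hρ
    simp only [Finset.mem_insert, Finset.mem_singleton] at hρ
    rcases hρ with rfl | rfl | rfl | rfl
    · rw [monoM_one_one]
      exact h1
    · exact hc
    · exact hd
    · have := A.mul_mem hc hd
      rw [tC, tD, monoGL_val, monoGL_val, monoM_mul] at this
      convert this using 2
      simp
  have hV : ∀ i j : Fin 4, ∃ ρ ∈ ({1, tauC, tauD, tauC * tauD} : Finset (Equiv.Perm (Fin 4))), ρ j = i := by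
    decide
  have hunit : ∀ i j : Fin 4, Matrix.single i j (1 : F) ∈ A := by
    intro i j
    obtain ⟨ρ, hρ, hρj⟩ := hV i j
    have h5 := A.mul_mem (hperm ρ hρ) (hE j)
    convert h5 using 1
    ext a b
    rw [Matrix.mul_apply, Finset.sum_eq_single j]
    · by_cases hb : b = j
      · subst hb
        by_cases ha : a = i
        · subst ha
          simp [monoM_apply, Matrix.single_apply, hρj]
        · have : a ≠ ρ b := by rw [hρj]; exact ha
          simp [monoM_apply, Matrix.single_apply, this, ha, Ne.symm ha]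
      · simp [Matrix.single_apply, hb, Ne.symm hb]
    · intro c _ hc
      have : (Matrix.single j j (1 : F)) c b = 0 := by
        rw [Matrix.single_apply, if_neg]
        rintro ⟨h, _⟩
        exact hc h.symm
      rw [this, mul_zero]
    · simp
  rw [eq_top_iff]
  intro X _
  rw [Matrix.matrix_eq_sum_single X]
  refine A.sum_mem fun i _ => A.sum_mem fun j _ => ?_
  have : Matrix.single i j (X i j) = X i j • Matrix.single i j (1 : F) := by
    simp
  rw [this]
  exact A.smul_mem (hunit i j) _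

end R4

section R4b

variable {F : Type*} [Field F] [Fintype F] {q : ℕ} {σ : F ≃+* F}

/-- The group of isometries commuting up to sign with the generators. -/
def R0 (F : Type*) [Field F] [Fintype F] (q : ℕ) : Subgroup (GL (Fin 4) F) :=
  GU 4 F q ⊓ (sgn (tA F) ⊓ sgn (tB F) ⊓ sgn (tC F) ⊓ sgn (tD F))

lemma mem_R0 {x : GL (Fin 4) F} :
    x ∈ R0 F q ↔ x ∈ GU 4 F q ∧ x ∈ sgn (tA F) ∧ x ∈ sgn (tB F) ∧ x ∈ sgn (tC F) ∧ x ∈ sgn (tD F) := by
  simp only [R0, Subgroup.mem_inf]
  tauto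

lemma mem_R0' {x : GL (Fin 4) F} : x ∈ R0 F q ↔ x ∈ GU 4 F q ∧ ∀ t ∈ gens4 F, x ∈ sgn t := by
  rw [mem_R0]
  constructor
  · rintro ⟨h0, h1, h2, h3, h4⟩
    refine ⟨h0, fun t ht => ?_⟩
    rcases mem_gens4.1 ht with rfl | rfl | rfl | rfl <;> assumption
  · rintro ⟨h0, h⟩
    exact ⟨h0, h _ (mem_gens4.2 (by simp)), h _ (mem_gens4.2 (by simp)), h _ (mem_gens4.2 (by simp)),
      h _ (mem_gens4.2 (by simp))⟩

lemma monoGL_mem_GU (hS : HS F q σ) {π : Equiv.Perm (Fin 4)} {d : Fin 4 → Fˣ} (hd : ∀ j, (d j : F) * σ (d j) = 1) :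
    (monoGL π d : GL (Fin 4) F) ∈ GU 4 F q := by
  intro u v
  change hermForm 4 F q (((monoGL π d : GL (Fin 4) F) : Matrix (Fin 4) (Fin 4) F) *ᵥ u)
    (((monoGL π d : GL (Fin 4) F) : Matrix (Fin 4) (Fin 4) F) *ᵥ v) = hermForm 4 F q u v
  rw [herm_eq hS, herm_eq hS, monoGL_val]
  simp only [monoM_mulVec']
  rw [← Equiv.sum_comp π⁻¹ (fun j => u j * σ (v j))]
  refine Finset.sum_congr rfl fun i _ => ?_
  simp only [map_mul]
  linear_combination (u (π⁻¹ i) * σ (v (π⁻¹ i))) * hd (π⁻¹ i)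

lemma eps_norm {j : Fin 4} (ε : Fin 4 → Fˣ) (hε : ∀ j, ε j = 1 ∨ ε j = -1) : (ε j : F) * σ (ε j) = 1 := by
  rcases hε j with h | h <;> simp [h]

lemma tA_mem_GU (hS : HS F q σ) : tA F ∈ GU 4 F q := by
  refine monoGL_mem_GU hS fun j => eps_norm _ fun k => ?_
  fin_cases k <;> simp [epsA]

lemma tB_mem_GU (hS : HS F q σ) : tB F ∈ GU 4 F q := by
  refine monoGL_mem_GU hS fun j => eps_norm _ fun k => ?_
  fin_cases k <;> simp [epsB]

lemma tC_mem_GU (hS : HS F q σ) : tC F ∈ GU 4 F q := monoGL_mem_GU hS fun j => by simp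

lemma tD_mem_GU (hS : HS F q σ) : tD F ∈ GU 4 F q := monoGL_mem_GU hS fun j => by simp

lemma anti_symm {x y : GL (Fin 4) F} (h : x * y = -(y * x)) : y * x = -(x * y) := by
  rw [h, neg_neg]

lemma tA_mem_R0 (hS : HS F q σ) : tA F ∈ R0 F q :=
  mem_R0.2 ⟨tA_mem_GU hS, Or.inl rfl, Or.inl tA_tB, Or.inl tA_tC, Or.inr tA_tD⟩

lemma tB_mem_R0 (hS : HS F q σ) : tB F ∈ R0 F q :=
  mem_R0.2 ⟨tB_mem_GU hS, Or.inl tA_tB.symm, Or.inl rfl, Or.inr tB_tC, Or.inl tB_tD⟩

lemma tC_mem_R0 (hS : HS F q σ) : tC F ∈ R0 F q :=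
  mem_R0.2 ⟨tC_mem_GU hS, Or.inl tA_tC.symm, Or.inr (anti_symm tB_tC), Or.inl rfl, Or.inl tC_tD⟩

lemma tD_mem_R0 (hS : HS F q σ) : tD F ∈ R0 F q :=
  mem_R0.2 ⟨tD_mem_GU hS, Or.inr (anti_symm tA_tD), Or.inl tB_tD.symm, Or.inl tC_tD.symm, Or.inl rfl⟩

lemma gens4_sub (hS : HS F q σ) : gens4 F ⊆ R0 F q := by
  intro t ht
  rcases mem_gens4.1 ht with rfl | rfl | rfl | rfl
  · exact tA_mem_R0 hS
  · exact tB_mem_R0 hS
  · exact tC_mem_R0 hS
  · exact tD_mem_R0 hS

/-- Multiplying by suitable elements of a pair removes the signs. -/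
lemma pair_reduce {x a d : GL (Fin 4) F} (hxa : x ∈ sgn a) (hxd : x ∈ sgn d) (had : a * d = -(d * a)) :
    ∃ u : GL (Fin 4) F, (u = 1 ∨ u = d ∨ u = a ∨ u = d * a) ∧ (x * u) * a = a * (x * u) ∧ (x * u) * d = d * (x * u) := by
  have hda : d * a = -(a * d) := anti_symm had
  rcases hxa with h1 | h1 <;> rcases hxd with h2 | h2
  · exact ⟨1, Or.inl rfl, by simpa using h1, by simpa using h2⟩
  · refine ⟨a, Or.inr (Or.inr (Or.inl rfl)), ?_, ?_⟩
    · rw [h1, mul_assoc, h1, ← mul_assoc]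
    · rw [mul_assoc, had, mul_neg, ← mul_assoc, h2, neg_mul, neg_neg, mul_assoc]
  · refine ⟨d, Or.inr (Or.inl rfl), ?_, ?_⟩
    · rw [mul_assoc, hda, mul_neg, ← mul_assoc, h1, neg_mul, neg_neg, mul_assoc]
    · rw [h2, mul_assoc, h2, ← mul_assoc]
  · refine ⟨d * a, Or.inr (Or.inr (Or.inr rfl)), ?_, ?_⟩
    · calc x * (d * a) * a = (x * d) * (a * a) := by simp only [mul_assoc]
        _ = -(d * x) * (a * a) := by rw [h2]
        _ = -(d * (x * a) * a) := by simp only [neg_mul, mul_assoc]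
        _ = -(d * (-(a * x)) * a) := by rw [h1]
        _ = (d * a) * x * a := by simp only [mul_neg, neg_mul, neg_neg, mul_assoc]
        _ = (-(a * d)) * x * a := by rw [hda]
        _ = a * (x * (d * a)) := by
          simp only [neg_mul, mul_assoc]
          rw [← mul_assoc x d a, h2, ← mul_assoc a (-(d * x)) a, mul_neg]
          simp only [neg_mul, neg_neg, mul_assoc]
    · calc x * (d * a) * d = x * d * (a * d) := by simp only [mul_assoc]
        _ = x * d * (-(d * a)) := by rw [had]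
        _ = -(d * x) * (-(d * a)) := by rw [h2]
        _ = d * x * (d * a) := by simp only [mul_neg, neg_mul, neg_neg]
        _ = d * (x * (d * a)) := by rw [mul_assoc]

lemma pow_four_of_sq {z : GL (Fin 4) F} (h : z * z = 1 ∨ z * z = -1) : z ^ 4 = 1 := by
  have e : z ^ 4 = (z * z) * (z * z) := by
    simp only [pow_succ, pow_zero, one_mul, mul_assoc]
  rw [e]
  rcases h with h | h <;> rw [h] <;> simp

/-- The scalars in the unitary group of the field with nine elements. -/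
lemma norm_pow4 (hS : HS F 3 σ) (c : Fˣ) : (c : F) * σ c = (c : F) ^ 4 := by
  rw [hS.pow]
  ring

/-- The exponent. -/
lemma R0_exp (hS : HS F 3 σ) (h2 : (2 : F) ≠ 0) {x : GL (Fin 4) F} (hx : x ∈ R0 F 3) : x ^ 4 = 1 := by
  classical
  obtain ⟨hU, hxA, hxB, hxC, hxD⟩ := mem_R0.1 hx
  obtain ⟨u, hu, hu1, hu2⟩ := pair_reduce hxA hxD tA_tD
  have huR : u ∈ R0 F 3 := by
    rcases hu with rfl | rfl | rfl | rfl
    · exact (R0 F 3).one_mem
    · exact tD_mem_R0 hS
    · exact tA_mem_R0 hS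
    · exact (R0 F 3).mul_mem (tD_mem_R0 hS) (tA_mem_R0 hS)
  have hx₁R := (R0 F 3).mul_mem hx huR
  obtain ⟨-, -, hx₁B, hx₁C, -⟩ := mem_R0.1 hx₁R
  obtain ⟨v, hv, hv1, hv2⟩ := pair_reduce hx₁B hx₁C tB_tC
  have hvR : v ∈ R0 F 3 := by
    rcases hv with rfl | rfl | rfl | rfl
    · exact (R0 F 3).one_mem
    · exact tC_mem_R0 hS
    · exact tB_mem_R0 hS
    · exact (R0 F 3).mul_mem (tC_mem_R0 hS) (tB_mem_R0 hS)
  have hvA : v * tA F = tA F * v := by
    rcases hv with rfl | rfl | rfl | rfl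
    · simp
    · exact tA_tC.symm
    · exact tA_tB.symm
    · rw [mul_assoc, tA_tB.symm, ← mul_assoc, tA_tC.symm, mul_assoc]
  have hvD : v * tD F = tD F * v := by
    rcases hv with rfl | rfl | rfl | rfl
    · simp
    · exact tC_tD
    · exact tB_tD
    · rw [mul_assoc, tB_tD, ← mul_assoc, tC_tD, mul_assoc]
  set z := x * u * v with hz
  have hcomm : ∀ t ∈ gens4 F, z * t = t * z := by
    intro t ht
    rcases mem_gens4.1 ht with rfl | rfl | rfl | rfl
    · rw [hz, mul_assoc, hvA, ← mul_assoc, hu1, mul_assoc]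
    · exact hv1
    · exact hv2
    · rw [hz, mul_assoc, hvD, ← mul_assoc, hu2, mul_assoc]
  have hzs := scalar_of_comm_gens (adjoin_gens4 h2) hcomm
  obtain ⟨s, hs⟩ := exists_sc hzs
  have hzR : z ∈ R0 F 3 := (R0 F 3).mul_mem hx₁R hvR
  have hs4 : (s : F) ^ 4 = 1 := by
    rw [← norm_pow4 hS]
    apply norm_of_sc_mem (n := 4) hS
    rw [← hs]
    exact (mem_R0.1 hzR).1
  have hs4' : s ^ 4 = 1 := Units.ext (by simpa using hs4)
  have hu4 : u ^ 4 = 1 := by
    apply pow_four_of_sq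
    rcases hu with rfl | rfl | rfl | rfl
    · simp
    · exact Or.inl tD_sq
    · exact Or.inl tA_sq
    · right
      calc tD F * tA F * (tD F * tA F) = tD F * (tA F * tD F) * tA F := by simp only [mul_assoc]
        _ = -1 := by
          rw [tA_tD, mul_neg, neg_mul, ← mul_assoc, tD_sq, one_mul, tA_sq]
  have hv4 : v ^ 4 = 1 := by
    apply pow_four_of_sq
    rcases hv with rfl | rfl | rfl | rfl
    · simp
    · exact Or.inl tC_sq
    · exact Or.inl tB_sq
    · right
      calc tC F * tB F * (tC F * tB F) = tC F * (tB F * tC F) * tB F := by simp only [mul_assoc]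
        _ = -1 := by
          rw [tB_tC, mul_neg, neg_mul, ← mul_assoc, tC_sq, one_mul, tB_sq]
  have huv : Commute u v := by
    have h1 : Commute (tA F) v := hvA.symm
    have h2 : Commute (tD F) v := hvD.symm
    rcases hu with rfl | rfl | rfl | rfl
    · exact Commute.one_left v
    · exact h2
    · exact h1
    · exact h2.mul_left h1
  have hx4 : x ^ 4 * (u * v) ^ 4 = sc (s ^ 4) := by
    have h3 : x * (u * v) = sc s := by rw [← mul_assoc, ← hz, hs]
    have h4 : Commute x (u * v) := by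
      have : x = sc s * (u * v)⁻¹ := by rw [← h3]; group
      rw [this]
      refine Commute.mul_left ?_ ?_
      · exact sc_central s (u * v)
      · exact (Commute.refl (u * v)).inv_left
    rw [← h4.mul_pow, h3, sc_pow]
  rw [huv.mul_pow, hu4, hv4, hs4', sc_one] at hx4
  simpa using hx4

end R4b

end Cfsg.Agent.H28
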