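import Cfsg.Agent.Lib.H28.GSU4f

set_option autoImplicit false
set_option linter.style.haveILetI false
set_option linter.unusedSectionVars false
set_option linter.unusedSimpArgs false

namespace Cfsg.Agent.H28

open scoped MatrixGroups Matrix commutatorElement Kronecker
open Cfsg Cfsg.Geo

section R4c

variable {F : Type*} [Field F] [Fintype F] {σ : F ≃+* F}

lemma two_ne_zero_F3 (hS : HS F 3 σ) : (2 : F) ≠ 0 := by
  apply two_ne_zero_of_odd
  rw [hS.card]
  decide

/-- The data of the group of order 64. -/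
theorem R0_xbase (hS : HS F 3 σ) {i : F} (hi : i ^ 2 = -1) : XBase (R0 F 3) i 4 := by
  have h2 := two_ne_zero_F3 hS
  have hadj := adjoin_gens4 h2
  refine ⟨absIrr_of_gens hadj (gens4_sub hS), ?_, ?_, fun x hx => R0_exp hS h2 hx, fun c => ⟨fun h => ?_, fun h => ?_⟩⟩
  · rw [Subgroup.commutator_le]
    intro x hx y hy
    apply scalar_of_comm_gens hadj
    intro g hg
    exact sgn_commutator ((mem_R0'.1 hx).2 g hg) ((mem_R0'.1 hy).2 g hg)
  · have hneg : (-1 : F) ≠ 1 := by
      intro h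
      apply h2
      linear_combination -h
    refine IsPrimitiveRoot.mk_of_lt i (by norm_num) ?_ ?_
    · rw [show (4 : ℕ) = 2 * 2 by norm_num, pow_mul, hi]
      norm_num
    · intro l hl0 hl4 hl
      interval_cases l
      · exfalso
        rw [pow_one] at hl
        rw [hl] at hi
        exact hneg (by simpa using hi.symm)
      · exfalso
        rw [hi] at hl
        exact hneg hl
      · exfalso
        rw [pow_succ, hi] at hl
        have h1 : i = -1 := by linear_combination -hl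
        rw [h1] at hi
        exact hneg (by simpa using hi.symm)
  · rw [← norm_pow4 hS]
    exact norm_of_sc_mem (n := 4) hS (mem_R0'.1 h).1
  · refine mem_R0'.2 ⟨?_, fun t _ => Or.inl (sc_central c t)⟩
    have h3 := sc_mul_mem_GU (n := 4) hS (c := c) (x := 1) (by rw [norm_pow4 hS]; exact h) (GU 4 F 3).one_mem
    rwa [mul_one] at h3

/-- Any two elements commute up to sign. -/
lemma R0_sgn (hS : HS F 3 σ) {x y : GL (Fin 4) F} (hx : x ∈ R0 F 3) (hy : y ∈ R0 F 3) : x ∈ sgn y := by
  have h2 := two_ne_zero_F3 hS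
  have hadj := adjoin_gens4 h2
  have hcomm : ⁅x, y⁆ ∈ scalars (Fin 4) F := by
    apply scalar_of_comm_gens hadj
    intro g hg
    exact sgn_commutator ((mem_R0'.1 hx).2 g hg) ((mem_R0'.1 hy).2 g hg)
  obtain ⟨s, hs⟩ := exists_sc hcomm
  have hsq : x * x ∈ scalars (Fin 4) F := by
    apply scalar_of_comm_gens hadj
    intro g hg
    exact sgn_sq ((mem_R0'.1 hx).2 g hg)
  have hrel : x * y = sc s * (y * x) := by
    rw [← hs]
    group
  have hc := Subgroup.mem_center_iff.1 (scalars_le_center hsq) y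
  have h3 : x * x * y = sc (s * s) * (y * (x * x)) := by
    calc x * x * y = x * (x * y) := by rw [mul_assoc]
      _ = x * (sc s * (y * x)) := by rw [hrel]
      _ = sc s * (x * y) * x := by
        rw [← mul_assoc x, ← sc_central s x, mul_assoc, mul_assoc, mul_assoc]
      _ = sc s * (sc s * (y * x)) * x := by rw [hrel]
      _ = sc (s * s) * (y * (x * x)) := by
        rw [sc_mul]
        simp only [mul_assoc]
  rw [← hc] at h3
  have h4 : (sc (s * s) : GL (Fin 4) F) = 1 := by
    have h5 : (1 : GL (Fin 4) F) * (y * (x * x)) = sc (s * s) * (y * (x * x)) := by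
      rw [one_mul]
      exact h3
    exact (mul_right_cancel h5).symm
  rw [← sc_one] at h4
  have h5 : s * s = 1 := sc_inj h4
  have h6 : ((s : F) - 1) * ((s : F) + 1) = 0 := by
    have := congrArg Units.val h5
    simp only [Units.val_mul, Units.val_one] at this
    linear_combination this
  rcases mul_eq_zero.1 h6 with h7 | h7
  · left
    have : s = 1 := Units.ext (sub_eq_zero.1 h7)
    rw [hrel, this, sc_one, one_mul]
  · right
    have : s = -1 := Units.ext (by simpa using eq_neg_of_add_eq_zero_left h7)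
    rw [hrel, this, sc_neg_mul]

/-- Every non-scalar element anticommutes with an element of square `-1`. -/
lemma R0_anti (hS : HS F 3 σ) {i : F} (hi : i ^ 2 = -1) {x : GL (Fin 4) F} (hx : x ∈ R0 F 3) (hns : x ∉ scalars (Fin 4) F) :
    ∃ y ∈ R0 F 3, y * y = -1 ∧ x * y = -(y * x) := by
  have h2 := two_ne_zero_F3 hS
  have hadj := adjoin_gens4 h2
  have hi0 : i ≠ 0 := by
    rintro rfl
    have h3 : (1 : F) = 0 := by linear_combination hi
    exact one_ne_zero h3
  obtain ⟨t, ht, hxt⟩ : ∃ t ∈ gens4 F, x * t ≠ t * x := by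
    by_contra hcon
    push Not at hcon
    exact hns (scalar_of_comm_gens hadj hcon)
  have hanti : x * t = -(t * x) := ((mem_R0'.1 hx).2 t ht).resolve_left hxt
  have htt : t * t = 1 := by
    rcases mem_gens4.1 ht with rfl | rfl | rfl | rfl
    · exact tA_sq
    · exact tB_sq
    · exact tC_sq
    · exact tD_sq
  let u : Fˣ := Units.mk0 i hi0
  have hu4 : (u : F) ^ 4 = 1 := by
    simp only [u, Units.val_mk0]
    rw [show (4 : ℕ) = 2 * 2 by norm_num, pow_mul, hi]
    norm_num
  have huR : (sc u : GL (Fin 4) F) ∈ R0 F 3 := ((R0_xbase hS hi).scal u).2 hu4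
  have huu : u * u = -1 := Units.ext (by
    simp only [u, Units.val_mul, Units.val_mk0, Units.val_neg, Units.val_one]
    linear_combination hi)
  refine ⟨sc u * t, (R0 F 3).mul_mem huR (gens4_sub hS ht), ?_, ?_⟩
  · calc sc u * t * (sc u * t) = sc u * sc u * (t * t) := by
          rw [mul_assoc, ← mul_assoc t, ← sc_central u t]
          simp only [mul_assoc]
      _ = -1 := by rw [← sc_mul, huu, htt, mul_one, sc_neg_one_eq]
  · calc x * (sc u * t) = sc u * (x * t) := by
          rw [← mul_assoc, ← sc_central u x, mul_assoc]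
      _ = sc u * (-(t * x)) := by rw [hanti]
      _ = -(sc u * t * x) := by rw [mul_neg, mul_assoc]

/-- Elements whose conjugates of the generators lie in the group preserve the group. -/
lemma R0_conj_good {g : GL (Fin 4) F} (hS : HS F 3 σ) (hgU : g ∈ GU 4 F 3) (hg : ∀ t ∈ gens4 F, g⁻¹ * t * g ∈ R0 F 3) {x : GL (Fin 4) F}
    (hx : x ∈ R0 F 3) : g * x * g⁻¹ ∈ R0 F 3 := by
  refine mem_R0'.2 ⟨(GU 4 F 3).mul_mem ((GU 4 F 3).mul_mem hgU (mem_R0'.1 hx).1) ((GU 4 F 3).inv_mem hgU), fun t ht => ?_⟩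
  exact conj_mem_sgn (R0_sgn hS hx (hg t ht))

lemma R0_norm_of_good {g : GL (Fin 4) F} (hS : HS F 3 σ) (hgU : g ∈ GU 4 F 3) (hg : ∀ t ∈ gens4 F, g⁻¹ * t * g ∈ R0 F 3)
    (hg' : ∀ t ∈ gens4 F, g * t * g⁻¹ ∈ R0 F 3) : g ∈ subgroupNormalizer (R0 F 3) := by
  refine Subgroup.mem_normalizer_iff.2 fun x => ⟨fun hx => R0_conj_good hS hgU hg hx, fun hx => ?_⟩
  have h1 := R0_conj_good (g := g⁻¹) hS ((GU 4 F 3).inv_mem hgU) (fun t ht => by
    rw [inv_inv]
    exact hg' t ht) hx
  have e : g⁻¹ * (g * x * g⁻¹) * g⁻¹⁻¹ = x := by group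
  rwa [e] at h1

/-- A diagonal matrix with compatible sign patterns lies in the group. -/
lemma diag_mem_R0 (hS : HS F 3 σ) {δ : Fin 4 → Fˣ} (hN : ∀ j, (δ j : F) * σ (δ j) = 1) {κ₁ κ₂ : Fˣ}
    (hκ₁ : κ₁ = 1 ∨ κ₁ = -1) (hκ₂ : κ₂ = 1 ∨ κ₂ = -1) (h1 : ∀ j, δ (tauC j) = κ₁ * δ j)
    (h2 : ∀ j, δ (tauD j) = κ₂ * δ j) : (monoGL 1 δ : GL (Fin 4) F) ∈ R0 F 3 := by
  refine mem_R0.2 ⟨monoGL_mem_GU hS hN, ?_, ?_, ?_, ?_⟩
  · exact mono_mem_sgn (κ := 1) (by simp) (Or.inl rfl) (fun j => by simp [mul_comm])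
  · exact mono_mem_sgn (κ := 1) (by simp) (Or.inl rfl) (fun j => by simp [mul_comm])
  · exact mono_mem_sgn (κ := κ₁) (by simp) hκ₁ (fun j => by simp [h1])
  · exact mono_mem_sgn (κ := κ₂) (by simp) hκ₂ (fun j => by simp [h2])

lemma units_sq_one {κ : Fˣ} (h : (κ : F) * κ = 1) : κ = 1 ∨ κ = -1 := by
  have h6 : ((κ : F) - 1) * ((κ : F) + 1) = 0 := by linear_combination h
  rcases mul_eq_zero.1 h6 with h7 | h7
  · left
    exact Units.ext (sub_eq_zero.1 h7)
  · right
    exact Units.ext (by simpa using eq_neg_of_add_eq_zero_left h7)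


lemma tauC_0 : tauC 0 = 1 := by decide
lemma tauC_1 : tauC 1 = 0 := by decide
lemma tauC_2 : tauC 2 = 3 := by decide
lemma tauC_3 : tauC 3 = 2 := by decide
lemma tauD_0 : tauD 0 = 2 := by decide
lemma tauD_1 : tauD 1 = 3 := by decide
lemma tauD_2 : tauD 2 = 0 := by decide
lemma tauD_3 : tauD 3 = 1 := by decide

/-- Diagonal sign matrices of determinant one lie in the group. -/
lemma signs_mem_R0 (hS : HS F 3 σ) {s : Fin 4 → Fˣ} (hs : ∀ j, (s j : F) * s j = 1)
    (hp : (s 0 : F) * s 1 * s 2 * s 3 = 1) : (monoGL 1 s : GL (Fin 4) F) ∈ R0 F 3 := by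
  have h0 := hs 0
  have h1 := hs 1
  have h2 := hs 2
  have h3 := hs 3
  refine diag_mem_R0 hS (κ₁ := s 0 * s 1) (κ₂ := s 0 * s 2) (fun j => ?_) (units_sq_one ?_) (units_sq_one ?_) (fun j => ?_) (fun j => ?_)
  · rw [norm_pow4 hS]
    linear_combination ((s j : F) * s j + 1) * hs j
  · simp only [Units.val_mul]
    linear_combination (s 0 : F) * s 0 * h1 + h0
  · simp only [Units.val_mul]
    linear_combination (s 0 : F) * s 0 * h2 + h0
  · apply Units.ext
    fin_cases j
    · simp only [Fin.zero_eta, tauC_0, Units.val_mul]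
      linear_combination (-(s 1 : F)) * h0
    · simp only [Fin.mk_one, tauC_1, Units.val_mul]
      linear_combination (-(s 0 : F)) * h1
    · simp only [Fin.reduceFinMk, tauC_2, Units.val_mul]
      linear_combination (-(s 3 : F)) * hp + (s 0 : F) * s 1 * s 2 * h3
    · simp only [Fin.reduceFinMk, tauC_3, Units.val_mul]
      linear_combination (-(s 2 : F)) * hp + (s 0 : F) * s 1 * s 3 * h2
  · apply Units.ext
    fin_cases j
    · simp only [Fin.zero_eta, tauD_0, Units.val_mul]
      linear_combination (-(s 2 : F)) * h0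
    · simp only [Fin.mk_one, tauD_1, Units.val_mul]
      linear_combination (-(s 3 : F)) * hp + (s 0 : F) * s 1 * s 2 * h3
    · simp only [Fin.reduceFinMk, tauD_2, Units.val_mul]
      linear_combination (-(s 0 : F)) * h2
    · simp only [Fin.reduceFinMk, tauD_3, Units.val_mul]
      linear_combination (-(s 1 : F)) * hp + (s 0 : F) * s 2 * s 3 * h1

lemma epsA_sq (j : Fin 4) : (epsA F j : F) * epsA F j = 1 := by
  fin_cases j <;> simp [epsA]

lemma epsB_sq (j : Fin 4) : (epsB F j : F) * epsB F j = 1 := by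
  fin_cases j <;> simp [epsB]

lemma perm_conj_diag (π : Equiv.Perm (Fin 4)) (ε : Fin 4 → Fˣ) :
    (monoGL π (fun _ => 1) : GL (Fin 4) F)⁻¹ * monoGL 1 ε * monoGL π (fun _ => 1) = monoGL 1 (fun j => ε (π j)) := by
  rw [monoGL_inv, monoGL_mul, monoGL_mul]
  congr 1
  · simp
  · funext j
    simp

lemma perm_conj_perm (π τ : Equiv.Perm (Fin 4)) :
    (monoGL π (fun _ => 1) : GL (Fin 4) F)⁻¹ * monoGL τ (fun _ => 1) * monoGL π (fun _ => 1) =
      monoGL (π⁻¹ * τ * π) (fun _ => 1) := by
  rw [monoGL_inv, monoGL_mul, monoGL_mul]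
  congr 1
  funext j
  simp

set_option maxRecDepth 100000 in
lemma tauC_conj : ∀ π : Equiv.Perm (Fin 4),
    π⁻¹ * tauC * π = tauC ∨ π⁻¹ * tauC * π = tauD ∨ π⁻¹ * tauC * π = tauC * tauD := by decide

set_option maxRecDepth 100000 in
lemma tauD_conj : ∀ π : Equiv.Perm (Fin 4),
    π⁻¹ * tauD * π = tauC ∨ π⁻¹ * tauD * π = tauD ∨ π⁻¹ * tauD * π = tauC * tauD := by decide

lemma tCD_mem (hS : HS F 3 σ) : (monoGL (tauC * tauD) (fun _ => 1) : GL (Fin 4) F) ∈ R0 F 3 := by
  have h := (R0 F 3).mul_mem (tC_mem_R0 hS) (tD_mem_R0 hS)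
  rw [tC, tD, monoGL_mul] at h
  convert h using 2
  funext j
  simp

/-- Permutation matrices conjugate the generators into the group. -/
lemma perm_good (hS : HS F 3 σ) (π : Equiv.Perm (Fin 4)) {t : GL (Fin 4) F} (ht : t ∈ gens4 F) :
    (monoGL π (fun _ => 1) : GL (Fin 4) F)⁻¹ * t * monoGL π (fun _ => 1) ∈ R0 F 3 := by
  have hprod : ∀ ε : Fin 4 → Fˣ, ∏ j, ε (π j) = ∏ j, ε j := fun ε => Equiv.prod_comp π ε
  have hprod' : ∀ ε : Fin 4 → Fˣ, (ε (π 0) : F) * ε (π 1) * ε (π 2) * ε (π 3) = (ε 0 : F) * ε 1 * ε 2 * ε 3 := by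
    intro ε
    have h := congrArg Units.val (hprod ε)
    simpa [Fin.prod_univ_four] using h
  rcases mem_gens4.1 ht with rfl | rfl | rfl | rfl
  · rw [tA, perm_conj_diag]
    refine signs_mem_R0 hS (fun j => epsA_sq _) ?_
    rw [hprod']
    simp [epsA]
  · rw [tB, perm_conj_diag]
    refine signs_mem_R0 hS (fun j => epsB_sq _) ?_
    rw [hprod']
    simp [epsB]
  · rw [tC, perm_conj_perm]
    rcases tauC_conj π with h | h | h <;> rw [h]
    · exact tC_mem_R0 hS
    · exact tD_mem_R0 hS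
    · exact tCD_mem hS
  · rw [tD, perm_conj_perm]
    rcases tauD_conj π with h | h | h <;> rw [h]
    · exact tC_mem_R0 hS
    · exact tD_mem_R0 hS
    · exact tCD_mem hS

/-- Permutation matrices normalise the group. -/
lemma perm_norm (hS : HS F 3 σ) (π : Equiv.Perm (Fin 4)) :
    (monoGL π (fun _ => 1) : GL (Fin 4) F) ∈ subgroupNormalizer (R0 F 3) := by
  refine R0_norm_of_good hS (monoGL_mem_GU hS fun j => by simp) (fun t ht => perm_good hS π ht) (fun t ht => ?_)
  have h := perm_good hS π⁻¹ ht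
  have e : (monoGL π⁻¹ (fun _ => 1) : GL (Fin 4) F) = (monoGL π (fun _ => 1))⁻¹ := by
    rw [monoGL_inv]
    simp
  rw [e, inv_inv] at h
  exact h

lemma delta_mem_C (hS : HS F 3 σ) (u v : Fˣ) (h4 : (u : F) ^ 4 = 1) (huv : (u : F) ^ 2 = (v : F) ^ 2) :
    (monoGL 1 ![u, u ^ 3, v, v ^ 3] : GL (Fin 4) F) ∈ R0 F 3 := by
  have hv4 : (v : F) ^ 4 = 1 := by
    rw [← h4]
    linear_combination -((v : F) ^ 2 + (u : F) ^ 2) * huv
  refine diag_mem_R0 hS (κ₁ := u ^ 2) (κ₂ := v * u ^ 3) (fun j => ?_) (units_sq_one ?_) (units_sq_one ?_) (fun j => ?_) (fun j => ?_)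
  · rw [norm_pow4 hS]
    fin_cases j
    · exact h4
    · simp only [Fin.mk_one, Matrix.cons_val_one, Matrix.cons_val_zero, Units.val_pow_eq_pow_val]
      linear_combination ((u : F) ^ 8 + (u : F) ^ 4 + 1) * h4
    · exact hv4
    · simp only [Fin.reduceFinMk, Matrix.cons_val, Units.val_pow_eq_pow_val]
      linear_combination ((v : F) ^ 8 + (v : F) ^ 4 + 1) * hv4
  · simp only [Units.val_pow_eq_pow_val]
    linear_combination h4
  · simp only [Units.val_mul, Units.val_pow_eq_pow_val]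
    linear_combination -((u : F) ^ 6) * huv + ((u : F) ^ 4 + 1) * h4
  · apply Units.ext
    fin_cases j
    · simp only [Fin.zero_eta, tauC_0, Units.val_mul, Units.val_pow_eq_pow_val, Matrix.cons_val]
      ring
    · simp only [Fin.mk_one, tauC_1, Units.val_mul, Units.val_pow_eq_pow_val, Matrix.cons_val]
      linear_combination -(u : F) * h4
    · simp only [Fin.reduceFinMk, tauC_2, Units.val_mul, Units.val_pow_eq_pow_val, Matrix.cons_val]
      linear_combination -(v : F) * huv
    · simp only [Fin.reduceFinMk, tauC_3, Units.val_mul, Units.val_pow_eq_pow_val, Matrix.cons_val]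
      linear_combination -(v : F) * hv4 - (v : F) ^ 3 * huv
  · apply Units.ext
    fin_cases j
    · simp only [Fin.zero_eta, tauD_0, Units.val_mul, Units.val_pow_eq_pow_val, Matrix.cons_val]
      linear_combination -(v : F) * h4
    · simp only [Fin.mk_one, tauD_1, Units.val_mul, Units.val_pow_eq_pow_val, Matrix.cons_val]
      linear_combination -(v : F) * ((u : F) ^ 2 * h4 + huv)
    · simp only [Fin.reduceFinMk, tauD_2, Units.val_mul, Units.val_pow_eq_pow_val, Matrix.cons_val]
      linear_combination (u : F) ^ 3 * huv - (u : F) * h4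
    · simp only [Fin.reduceFinMk, tauD_3, Units.val_mul, Units.val_pow_eq_pow_val, Matrix.cons_val]
      linear_combination -(u : F) ^ 3 * hv4

lemma delta_mem_D (hS : HS F 3 σ) (u v : Fˣ) (h4 : (u : F) ^ 4 = 1) (huv : (u : F) ^ 2 = (v : F) ^ 2) :
    (monoGL 1 ![u, v, u ^ 3, v ^ 3] : GL (Fin 4) F) ∈ R0 F 3 := by
  have hv4 : (v : F) ^ 4 = 1 := by
    rw [← h4]
    linear_combination -((v : F) ^ 2 + (u : F) ^ 2) * huv
  refine diag_mem_R0 hS (κ₁ := v * u ^ 3) (κ₂ := u ^ 2) (fun j => ?_) (units_sq_one ?_) (units_sq_one ?_) (fun j => ?_) (fun j => ?_)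
  · rw [norm_pow4 hS]
    fin_cases j
    · exact h4
    · exact hv4
    · simp only [Fin.reduceFinMk, Matrix.cons_val, Units.val_pow_eq_pow_val]
      linear_combination ((u : F) ^ 8 + (u : F) ^ 4 + 1) * h4
    · simp only [Fin.reduceFinMk, Matrix.cons_val, Units.val_pow_eq_pow_val]
      linear_combination ((v : F) ^ 8 + (v : F) ^ 4 + 1) * hv4
  · simp only [Units.val_mul, Units.val_pow_eq_pow_val]
    linear_combination -((u : F) ^ 6) * huv + ((u : F) ^ 4 + 1) * h4
  · simp only [Units.val_pow_eq_pow_val]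
    linear_combination h4
  · apply Units.ext
    fin_cases j
    · simp only [Fin.zero_eta, tauC_0, Units.val_mul, Units.val_pow_eq_pow_val, Matrix.cons_val]
      linear_combination -(v : F) * h4
    · simp only [Fin.mk_one, tauC_1, Units.val_mul, Units.val_pow_eq_pow_val, Matrix.cons_val]
      linear_combination (u : F) ^ 3 * huv - (u : F) * h4
    · simp only [Fin.reduceFinMk, tauC_2, Units.val_mul, Units.val_pow_eq_pow_val, Matrix.cons_val]
      linear_combination -(v : F) * ((u : F) ^ 2 * h4 + huv)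
    · simp only [Fin.reduceFinMk, tauC_3, Units.val_mul, Units.val_pow_eq_pow_val, Matrix.cons_val]
      linear_combination -(u : F) ^ 3 * hv4
  · apply Units.ext
    fin_cases j
    · simp only [Fin.zero_eta, tauD_0, Units.val_mul, Units.val_pow_eq_pow_val, Matrix.cons_val]
      ring
    · simp only [Fin.mk_one, tauD_1, Units.val_mul, Units.val_pow_eq_pow_val, Matrix.cons_val]
      linear_combination -(v : F) * huv
    · simp only [Fin.reduceFinMk, tauD_2, Units.val_mul, Units.val_pow_eq_pow_val, Matrix.cons_val]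
      linear_combination -(u : F) * h4
    · simp only [Fin.reduceFinMk, tauD_3, Units.val_mul, Units.val_pow_eq_pow_val, Matrix.cons_val]
      linear_combination -(v : F) * hv4 - (v : F) ^ 3 * huv

end R4c

end Cfsg.Agent.H28
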