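import Cfsg.Agent.Lib.H28.GSU4g

set_option autoImplicit false
set_option linter.style.haveILetI false
set_option linter.unusedSectionVars false
set_option linter.unusedSimpArgs false

namespace Cfsg.Agent.H28

open scoped MatrixGroups Matrix commutatorElement Kronecker
open Cfsg Cfsg.Geo

section R4d

variable {F : Type*} [Field F] [Fintype F] {σ : F ≃+* F}

lemma diag_conj_diag (c ε : Fin 4 → Fˣ) :
    (monoGL 1 c : GL (Fin 4) F)⁻¹ * monoGL 1 ε * monoGL 1 c = monoGL 1 ε := by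
  rw [monoGL_inv, monoGL_mul, monoGL_mul]
  congr 1
  · simp

lemma diag_conj_perm (c : Fin 4 → Fˣ) (τ : Equiv.Perm (Fin 4)) :
    (monoGL 1 c : GL (Fin 4) F)⁻¹ * monoGL τ (fun _ => 1) * monoGL 1 c =
      monoGL τ (fun _ => 1) * monoGL 1 (fun j => (c (τ j))⁻¹ * c j) := by
  rw [monoGL_inv, monoGL_mul, monoGL_mul, monoGL_mul]
  congr 1
  · simp

lemma cube_eq_inv {u : Fˣ} (h : (u : F) ^ 4 = 1) : u ^ 3 = u⁻¹ := by
  apply eq_inv_of_mul_eq_one_left
  apply Units.ext
  simp only [Units.val_mul, Units.val_pow_eq_pow_val, Units.val_one]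
  linear_combination h

/-- Diagonal matrices with fourth-root entries and square determinant normalise the group. -/
lemma diag_good (hS : HS F 3 σ) {c : Fin 4 → Fˣ} (hc : ∀ j, (c j : F) ^ 4 = 1)
    (hp : ((c 0 : F) * c 1 * c 2 * c 3) ^ 2 = 1) {t : GL (Fin 4) F} (ht : t ∈ gens4 F) :
    (monoGL 1 c : GL (Fin 4) F)⁻¹ * t * monoGL 1 c ∈ R0 F 3 := by
  have hQ : (c 0 : F) ^ 2 * (c 3 : F) ^ 2 = (c 1 : F) ^ 2 * (c 2 : F) ^ 2 := by
    linear_combination ((c 1 : F) ^ 2 * (c 2 : F) ^ 2) * hp -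
      ((c 0 : F) ^ 2 * (c 3 : F) ^ 2) * ((c 2 : F) ^ 4 * hc 1 + hc 2)
  have h0 : ∀ j, (c j : F) ≠ 0 := fun j => (c j).ne_zero
  have h4 : ∀ a b : Fin 4, (((c a)⁻¹ * c b : Fˣ) : F) ^ 4 = 1 := by
    intro a b
    simp only [Units.val_mul, Units.val_inv_eq_inv_val, mul_pow, inv_pow, hc, inv_one, one_mul]
  rcases mem_gens4.1 ht with rfl | rfl | rfl | rfl
  · rw [tA, diag_conj_diag]
    exact tA_mem_R0 hS
  · rw [tB, diag_conj_diag]
    exact tB_mem_R0 hS
  · rw [tC, diag_conj_perm]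
    refine (R0 F 3).mul_mem (tC_mem_R0 hS) ?_
    have e : (fun j => (c (tauC j))⁻¹ * c j) = ![(c 1)⁻¹ * c 0, ((c 1)⁻¹ * c 0) ^ 3, (c 3)⁻¹ * c 2, ((c 3)⁻¹ * c 2) ^ 3] := by
      funext j
      rw [cube_eq_inv (h4 1 0), cube_eq_inv (h4 3 2)]
      fin_cases j
      · simp [tauC_0]
      · simp [tauC_1]
      · simp [tauC_2]
      · simp [tauC_3]
    rw [e]
    refine delta_mem_C hS _ _ (h4 1 0) ?_
    simp only [Units.val_mul, Units.val_inv_eq_inv_val]
    have h1 := h0 1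
    have h3 := h0 3
    field_simp
    linear_combination hQ
  · rw [tD, diag_conj_perm]
    refine (R0 F 3).mul_mem (tD_mem_R0 hS) ?_
    have e : (fun j => (c (tauD j))⁻¹ * c j) = ![(c 2)⁻¹ * c 0, (c 3)⁻¹ * c 1, ((c 2)⁻¹ * c 0) ^ 3, ((c 3)⁻¹ * c 1) ^ 3] := by
      funext j
      rw [cube_eq_inv (h4 2 0), cube_eq_inv (h4 3 1)]
      fin_cases j
      · simp [tauD_0]
      · simp [tauD_1]
      · simp [tauD_2]
      · simp [tauD_3]
    rw [e]
    refine delta_mem_D hS _ _ (h4 2 0) ?_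
    simp only [Units.val_mul, Units.val_inv_eq_inv_val]
    have h1 := h0 2
    have h3 := h0 3
    field_simp
    linear_combination hQ

lemma diag_norm (hS : HS F 3 σ) {c : Fin 4 → Fˣ} (hc : ∀ j, (c j : F) ^ 4 = 1)
    (hp : ((c 0 : F) * c 1 * c 2 * c 3) ^ 2 = 1) : (monoGL 1 c : GL (Fin 4) F) ∈ subgroupNormalizer (R0 F 3) := by
  refine R0_norm_of_good hS (monoGL_mem_GU hS fun j => by rw [norm_pow4 hS]; exact hc j)
    (fun t ht => diag_good hS hc hp ht) (fun t ht => ?_)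
  have h := diag_good (F := F) (c := fun j => (c j)⁻¹) hS (fun j => by
    simp only [Units.val_inv_eq_inv_val, inv_pow, hc, inv_one]) (by
    simp only [Units.val_inv_eq_inv_val]
    have h0 : ∀ j, (c j : F) ≠ 0 := fun j => (c j).ne_zero
    have h1 := h0 0
    have h2 := h0 1
    have h3 := h0 2
    have h4 := h0 3
    field_simp
    linear_combination -hp) ht
  have e : (monoGL 1 (fun j => (c j)⁻¹) : GL (Fin 4) F) = (monoGL 1 c)⁻¹ := by
    rw [monoGL_inv]
    simp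
  rw [e, inv_inv] at h
  exact h

/-- Monomial matrices with fourth-root entries and square determinant normalise the group. -/
lemma mono_norm (hS : HS F 3 σ) (π : Equiv.Perm (Fin 4)) {c : Fin 4 → Fˣ} (hc : ∀ j, (c j : F) ^ 4 = 1)
    (hp : ((c 0 : F) * c 1 * c 2 * c 3) ^ 2 = 1) : (monoGL π c : GL (Fin 4) F) ∈ subgroupNormalizer (R0 F 3) := by
  have e : (monoGL π c : GL (Fin 4) F) = monoGL 1 (fun j => c (π⁻¹ j)) * monoGL π (fun _ => 1) := by
    rw [monoGL_mul]
    congr 1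
    · simp
  rw [e]
  refine Subgroup.mul_mem _ (diag_norm hS (fun j => hc _) ?_) (perm_norm hS π)
  have h1 : ∏ j, c (π⁻¹ j) = ∏ j, c j := Equiv.prod_comp π⁻¹ c
  have h2 : ((c (π⁻¹ 0) : F) * c (π⁻¹ 1) * c (π⁻¹ 2) * c (π⁻¹ 3)) = (c 0 : F) * c 1 * c 2 * c 3 := by
    have h3 := congrArg Units.val h1
    simpa [Fin.prod_univ_four] using h3
  rw [h2]
  exact hp

end R4d

section Conj

variable {ι : Type} [Fintype ι] [DecidableEq ι] {F : Type*} [Field F] [Fintype F] [Nonempty ι]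

/-- The conjugate of a subgroup. -/
def conjSub (Q : GL ι F) (R : Subgroup (GL ι F)) : Subgroup (GL ι F) := R.map (MulAut.conj Q).toMonoidHom

lemma mem_conjSub {Q x : GL ι F} {R : Subgroup (GL ι F)} : x ∈ conjSub Q R ↔ Q⁻¹ * x * Q ∈ R := by
  constructor
  · rintro ⟨y, hy, rfl⟩
    have e : Q⁻¹ * (MulAut.conj Q).toMonoidHom y * Q = y := by
      simp only [MulEquiv.coe_toMonoidHom, MulAut.conj_apply]
      group
    rw [e]
    exact hy
  · intro h
    refine ⟨_, h, ?_⟩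
    simp only [MulEquiv.coe_toMonoidHom, MulAut.conj_apply]
    group

lemma XBase.conj {R : Subgroup (GL ι F)} {ζ : F} {m : ℕ} (hX : XBase R ζ m) (Q : GL ι F) : XBase (conjSub Q R) ζ m := by
  have hcomm : ∀ c : Fˣ, Q⁻¹ * (sc c : GL ι F) * Q = sc c := by
    intro c
    rw [mul_assoc, sc_central]
    group
  refine ⟨?_, ?_, hX.prim, ?_, fun c => ?_⟩
  · apply absIrr_of_adj_top
    have htop := adj_eq_top_of_absIrr hX.absR
    have hkey : ∀ Y ∈ Adj R, (Q : Matrix ι ι F) * Y * ((Q⁻¹ : GL ι F) : Matrix ι ι F) ∈ Adj (conjSub Q R) := by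
      intro Y hY
      induction hY using Algebra.adjoin_induction with
      | mem x hx =>
        obtain ⟨g, hg, rfl⟩ := hx
        have h1 : Q * g * Q⁻¹ ∈ conjSub Q R := by
          rw [mem_conjSub]
          have e : Q⁻¹ * (Q * g * Q⁻¹) * Q = g := by group
          rw [e]
          exact hg
        have h2 := mem_adj _ h1
        simpa using h2
      | algebraMap r =>
        have e : (Q : Matrix ι ι F) * algebraMap F (Matrix ι ι F) r * ((Q⁻¹ : GL ι F) : Matrix ι ι F) =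
            algebraMap F (Matrix ι ι F) r := by
          rw [Algebra.algebraMap_eq_smul_one, Matrix.mul_smul, Matrix.smul_mul, mul_one, one_val_inv_val]
        rw [e]
        exact (Adj (conjSub Q R)).algebraMap_mem r
      | add x y _ _ hx hy =>
        have e : (Q : Matrix ι ι F) * (x + y) * ((Q⁻¹ : GL ι F) : Matrix ι ι F) =
            (Q : Matrix ι ι F) * x * ((Q⁻¹ : GL ι F) : Matrix ι ι F) + (Q : Matrix ι ι F) * y * ((Q⁻¹ : GL ι F) : Matrix ι ι F) := by
          rw [mul_add, add_mul]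
        rw [e]
        exact (Adj (conjSub Q R)).add_mem hx hy
      | mul x y _ _ hx hy =>
        have e : (Q : Matrix ι ι F) * (x * y) * ((Q⁻¹ : GL ι F) : Matrix ι ι F) =
            ((Q : Matrix ι ι F) * x * ((Q⁻¹ : GL ι F) : Matrix ι ι F)) * ((Q : Matrix ι ι F) * y * ((Q⁻¹ : GL ι F) : Matrix ι ι F)) := by
          calc (Q : Matrix ι ι F) * (x * y) * ((Q⁻¹ : GL ι F) : Matrix ι ι F)
              = (Q : Matrix ι ι F) * x * (1 : Matrix ι ι F) * y * ((Q⁻¹ : GL ι F) : Matrix ι ι F) := by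
                simp only [mul_one, mul_assoc]
            _ = (Q : Matrix ι ι F) * x * (((Q⁻¹ : GL ι F) : Matrix ι ι F) * (Q : Matrix ι ι F)) * y * ((Q⁻¹ : GL ι F) : Matrix ι ι F) := by
                rw [inv_val_one_val]
            _ = _ := by simp only [mul_assoc]
        rw [e]
        exact (Adj (conjSub Q R)).mul_mem hx hy
    rw [eq_top_iff]
    intro X _
    have h1 := hkey (((Q⁻¹ : GL ι F) : Matrix ι ι F) * X * (Q : Matrix ι ι F)) (by rw [htop]; trivial)
    have e : (Q : Matrix ι ι F) * (((Q⁻¹ : GL ι F) : Matrix ι ι F) * X * (Q : Matrix ι ι F)) * ((Q⁻¹ : GL ι F) : Matrix ι ι F) = X := by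
      calc _ = ((Q : Matrix ι ι F) * ((Q⁻¹ : GL ι F) : Matrix ι ι F)) * X * ((Q : Matrix ι ι F) * ((Q⁻¹ : GL ι F) : Matrix ι ι F)) := by
            simp only [mul_assoc]
        _ = X := by rw [one_val_inv_val, one_mul, mul_one]
    rwa [e] at h1
  · rw [Subgroup.commutator_le]
    intro x hx y hy
    have h1 := hX.comm (Subgroup.commutator_mem_commutator (mem_conjSub.1 hx) (mem_conjSub.1 hy))
    obtain ⟨c, hc⟩ := exists_sc h1
    have e : ⁅Q⁻¹ * x * Q, Q⁻¹ * y * Q⁆ = Q⁻¹ * ⁅x, y⁆ * Q := by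
      simp only [commutatorElement_def]
      group
    rw [e] at hc
    have e2 : ⁅x, y⁆ = sc c := by
      calc ⁅x, y⁆ = Q * (Q⁻¹ * ⁅x, y⁆ * Q) * Q⁻¹ := by group
        _ = Q * sc c * Q⁻¹ := by rw [hc]
        _ = sc c := by rw [← sc_central]; group
    rw [e2]
    exact sc_mem c
  · intro x hx
    have h1 := hX.exp _ (mem_conjSub.1 hx)
    have e : (Q⁻¹ * x * Q) ^ m = Q⁻¹ * x ^ m * Q := by
      have := conj_pow (a := Q⁻¹) (b := x) (i := m)
      simpa using this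
    rw [e] at h1
    calc x ^ m = Q * (Q⁻¹ * x ^ m * Q) * Q⁻¹ := by group
      _ = 1 := by rw [h1]; group
  · rw [mem_conjSub, hcomm]
    exact hX.scal c

end Conj

end Cfsg.Agent.H28
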