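import Cfsg.Agent.Lib.H28.GSU4i

set_option autoImplicit false
set_option linter.style.haveILetI false
set_option linter.unusedSectionVars false
set_option linter.unusedSimpArgs false

namespace Cfsg.Agent.H28

open scoped MatrixGroups Matrix commutatorElement Kronecker
open Cfsg Cfsg.Geo

section SU4Main

variable {F : Type*} [Field F] [Fintype F] {q : ℕ} {σ : F ≃+* F}

/-- The outcome for a normal subgroup which is neither scalar nor absolutely irreducible. -/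
lemma normal_su4_forms (hS : HS F q σ) {H M : Subgroup (GL (Fin 4) F)} (hH : IsMaximalIn (GSU 4 F q) H)
    (hirr : Irr H) (hM : NormalIn M H) (hMs : ¬ M ≤ scalars (Fin 4) F) (hMa : ¬ AbsIrr M) :
    SUConclG 4 F q H ∨ ∃ (e : Fin 4 ≃ Fin 2 × Fin 2) (P : GL (Fin 4) F)
      (f₁ f₂ : (Fin 2 → F) → (Fin 2 → F) → F), H ≤ tensorProductSubgroup 2 2 e P ∧
      EForm σ 1 f₁ ∧ EForm σ 1 f₂ ∧
      ∀ x u y v, hermForm 4 F q (pureV e P x u) (pureV e P y v) = f₁ x y * f₂ u v := by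
  haveI : Nonempty (Fin 4) := ⟨⟨0, by omega⟩⟩
  have hHU : ∀ g ∈ H, ∀ x y : Fin 4 → F, hermForm 4 F q ((g : Matrix (Fin 4) (Fin 4) F) *ᵥ x)
      ((g : Matrix (Fin 4) (Fin 4) F) *ᵥ y) = hermForm 4 F q x y := fun g hg x y =>
    gu_isom (hH.1.le hg).1 x y
  have hMU : ∀ g ∈ M, ∀ x y : Fin 4 → F, hermForm 4 F q ((g : Matrix (Fin 4) (Fin 4) F) *ᵥ x)
      ((g : Matrix (Fin 4) (Fin 4) F) *ᵥ y) = hermForm 4 F q x y := fun g hg => hHU g (hM.1 hg)
  have hf := herm_eform (n := 4) hS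
  rcases normal_dichotomy_u hS hf hirr hM hMU with ⟨t, m, D, hD, hle, hc⟩ | ⟨r, K, hr, hrodd, hrn, hK, hadj, hle⟩ |
    ⟨w, a, hw, φ, e, P, hφ, hP, hle⟩
  · left
    rcases form_decomp hf hirr hM hMU (fun g hg => ⟨1, one_ne_zero, fun x y => by rw [one_mul]; exact hHU g hg x y⟩)
      hD hle hc with ⟨t', m', D', hD', hle'⟩ | ⟨k, D', hD', hts, hle'⟩
    · exact decomp_sug hS (by omega) hH hD' hle'
    · have hcard : 2 * k = 4 := by
        have := decomp_card hD'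
        simpa using this
      exact Or.inr (Or.inr (Or.inr (Or.inl ⟨k, D', hcard, hD', hts,
        eq_inf_of_max hH hle' (not_gsu_le_decomp hS hD' (by omega))⟩)))
  · left
    have hrn' : r ∣ 4 := by simpa using hrn
    exact Or.inr (Or.inr (Or.inr (Or.inr (Or.inl ⟨r, K, hr, hrodd, hrn', hK, hadj,
      eq_inf_of_max hH hle (not_gsu_le_field hS hK hr.ne_one (by omega))⟩))))
  · have hw1 : w ≠ 1 := by
      rintro rfl
      exact hMs (le_scalars_of_w_one hφ)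
    have hw0 : w ≠ 0 := hw.out
    have ha1 : a ≠ 1 := by
      rintro rfl
      exact hMa (absIrr_of_a_one hφ hP)
    have ha0 : a ≠ 0 := by
      rintro rfl
      obtain ⟨i⟩ := ‹Nonempty (Fin 4)›
      exact (e i).2.elim0
    have hw2 : 2 ≤ w := by omega
    have ha2 : 2 ≤ a := by omega
    obtain ⟨f₁, f₂, hs₁, hs₂, hnd₁, hnd₂, h₁, h₂, hsplit⟩ := tensor_herm hS hMU hφ hP
    have hcard : w * a = 4 := by
      have := Fintype.card_congr e
      simpa using this.symm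
    obtain ⟨rfl, rfl⟩ : w = 2 ∧ a = 2 := by
      have h1 : w ≤ 2 := by nlinarith
      have h2 : a ≤ 2 := by nlinarith
      omega
    right
    exact ⟨e, P, f₁, f₂, hle, ⟨hs₁, hS.inv, fun x y => by rw [one_mul]; exact h₁ x y, hnd₁⟩,
      ⟨hs₂, hS.inv, fun x y => by rw [one_mul]; exact h₂ x y, hnd₂⟩, hsplit⟩

/-- The general outcome of the analysis of a maximal subgroup of `SU`. -/
theorem main_su4_forms (hS : HS F q σ) {H : Subgroup (GL (Fin 4) F)} (hH : IsMaximalIn (GSU 4 F q) H) :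
    SUConclG 4 F q H ∨
    (∃ (e : Fin 4 ≃ Fin 2 × Fin 2) (P : GL (Fin 4) F)
      (f₁ f₂ : (Fin 2 → F) → (Fin 2 → F) → F), H ≤ tensorProductSubgroup 2 2 e P ∧
      EForm σ 1 f₁ ∧ EForm σ 1 f₂ ∧
      ∀ x u y v, hermForm 4 F q (pureV e P x u) (pureV e P y v) = f₁ x y * f₂ u v) ∨
    (∃ N : Subgroup (GL (Fin 4) F), NormalIn N H ∧ AbsIrr N ∧ ⁅N, N⁆ ≤ scalars (Fin 4) F ∧ Irr H ∧
      (∀ M : Subgroup (GL (Fin 4) F), NormalIn M H → M ≤ scalars (Fin 4) F ∨ AbsIrr M) ∧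
      (∀ M, NormalIn M H → ¬ M ≤ scalars (Fin 4) F → M ≤ N → M = N)) ∨
    (∃ N T : Subgroup (GL (Fin 4) F), NormalIn N H ∧ FactorData H N T ∧ Irr H ∧
      (∀ M : Subgroup (GL (Fin 4) F), NormalIn M H → M ≤ scalars (Fin 4) F ∨ AbsIrr M)) := by
  haveI : Nonempty (Fin 4) := ⟨⟨0, by omega⟩⟩
  have h3 : 3 ≤ Fintype.card (Fin 4) := by simp
  by_cases hirr : Irr H
  swap
  · simp only [Irr] at hirr
    push Not at hirr
    obtain ⟨W, hW, h0, h1⟩ := hirr
    exact Or.inl (reducible_su4 hS hH hW h0 h1)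
  by_cases hd : ∀ M : Subgroup (GL (Fin 4) F), NormalIn M H → M ≤ scalars (Fin 4) F ∨ AbsIrr M
  swap
  · push Not at hd
    obtain ⟨M, hM, hMs, hMa⟩ := hd
    rcases normal_su4_forms hS hH hirr hM hMs hMa with h | h
    · exact Or.inl h
    · exact Or.inr (Or.inl h)
  have hHH : NormalIn H H := ⟨le_rfl, fun h hh x hx => H.mul_mem (H.mul_mem hh hx) (H.inv_mem hh)⟩
  have hHns : ¬ H ≤ scalars (Fin 4) F := fun h => not_irr_of_le_scalars (by omega) h hirr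
  obtain ⟨N, ⟨hN, hNns⟩, hmin₀⟩ := exists_minimal_subgroup
    {M : Subgroup (GL (Fin 4) F) | NormalIn M H ∧ ¬ M ≤ scalars (Fin 4) F} ⟨H, hHH, hHns⟩
  have hmin : ∀ M, NormalIn M H → ¬ M ≤ scalars (Fin 4) F → M ≤ N → M = N :=
    fun M h1 h2 h3 => hmin₀ M ⟨h1, h2⟩ h3
  have hNirr : AbsIrr N := (hd N hN).resolve_left hNns
  by_cases hc : ⁅N, N⁆ ≤ scalars (Fin 4) F
  · exact Or.inr (Or.inr (Or.inl ⟨N, hN, hNirr, hc, hirr, hd, hmin⟩))
  · have hNperf : ⁅N, N⁆ = N := hmin _ hN.commutator hc (subgroup_commutator_le_self N)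
    rcases core_or_factor hN hNirr hNperf hNns hmin with hC | ⟨T, hT⟩
    · exact Or.inl (core_su4 hS hH hN hC)
    · exact Or.inr (Or.inr (Or.inr ⟨N, T, hN, hT, hirr, hd⟩))



/-- The conclusion of the classification of maximal subgroups in dimension four. -/
def SU4Concl (F : Type*) [Field F] [Fintype F] (q : ℕ) (H : Subgroup (GL (Fin 4) F)) : Prop :=
    (∃ W : Submodule F (Fin 4 → F), W ≠ ⊥ ∧ IsTotallySingularFor (hermForm 4 F q) W ∧ H = subspaceStabilizer W ⊓ (GU 4 F q ⊓ specialLinear (Fin 4) F)) ∨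
    (∃ W : Submodule F (Fin 4 → F), W ≠ ⊥ ∧ IsNondegenerateOn (hermForm 4 F q) W ∧ 2 * Module.finrank F W < 4 ∧ H = subspaceStabilizer W ⊓ (GU 4 F q ⊓ specialLinear (Fin 4) F)) ∨
    (q ≠ 3 ∧ ∃ D : Fin 4 → Submodule F (Fin 4 → F), IsNondegenerateMDecomposition (hermForm 4 F q) 1 D ∧ H = decompositionStabilizer D ⊓ (GU 4 F q ⊓ specialLinear (Fin 4) F)) ∨
    (3 ≤ q ∧ ∃ D : Fin 2 → Submodule F (Fin 4 → F), IsNondegenerateMDecomposition (hermForm 4 F q) 2 D ∧ H = decompositionStabilizer D ⊓ (GU 4 F q ⊓ specialLinear (Fin 4) F)) ∨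
    (4 ≤ q ∧ ∃ D : Fin 2 → Submodule F (Fin 4 → F), IsMDecomposition 2 D ∧ (∀ i, IsTotallySingularFor (hermForm 4 F q) (D i)) ∧ H = decompositionStabilizer D ⊓ (GU 4 F q ⊓ specialLinear (Fin 4) F)) ∨
    (∃ (F₀ : Subfield F) (r : ℕ) (P : GL (Fin 4) F), r.Prime ∧ Odd r ∧ Fintype.card F = Nat.card F₀ ^ r ∧ IsFormRationalStructure (hermForm 4 F q) F₀ 1 P ∧ H = subfieldSubgroup F₀ P ⊓ (GU 4 F q ⊓ specialLinear (Fin 4) F)) ∨
    (∃ (F₀ : Subfield F) (P : GL (Fin 4) F) (ζ : F), Fintype.card F = Nat.card F₀ ^ 2 ∧ ζ ≠ 0 ∧ ζ + ζ ^ q = 0 ∧ IsFormRationalStructure (hermForm 4 F q) F₀ ζ P ∧ (∀ u : Fin 4 → F, (∀ i, u i ∈ F₀) → (hermForm 4 F q) (Matrix.mulVec (P : Matrix (Fin 4) (Fin 4) F) u) (Matrix.mulVec (P : Matrix (Fin 4) (Fin 4) F) u) = 0) ∧ H = subfieldSubgroup F₀ P ⊓ (GU 4 F q ⊓ specialLinear (Fin 4) F)) ∨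
    (Odd q ∧ ∃ (F₀ : Subfield F) (P : GL (Fin 4) F), Fintype.card F = Nat.card F₀ ^ 2 ∧ IsFormRationalStructure (hermForm 4 F q) F₀ 1 P ∧ H = subfieldSubgroup F₀ P ⊓ (GU 4 F q ⊓ specialLinear (Fin 4) F)) ∨
    (∃ (p : ℕ) (R : Subgroup (GL (Fin 4) F)), p.Prime ∧ q = p ∧ p % 4 = 3 ∧ IsSymplecticTypeGroup 2 R ∧ ActsAbsolutelyIrreducibly (matrixSet R) ∧ R ≤ similarityGroup (hermForm 4 F q) ∧ Nat.card R = 64 ∧ Nat.card (Subgroup.center R) = 4 ∧ H = subgroupNormalizer R ⊓ (GU 4 F q ⊓ specialLinear (Fin 4) F)) ∨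
    InUnitaryResidualClass H

lemma concl_of_tensor {H : Subgroup (GL (Fin 4) F)}
    (h : (∃ (F₀ : Subfield F) (P : GL (Fin 4) F) (ζ : F), Fintype.card F = Nat.card F₀ ^ 2 ∧ ζ ≠ 0 ∧ ζ + ζ ^ q = 0 ∧
      IsFormRationalStructure (hermForm 4 F q) F₀ ζ P ∧
      (∀ u : Fin 4 → F, (∀ i, u i ∈ F₀) → hermForm 4 F q ((P : Matrix (Fin 4) (Fin 4) F) *ᵥ u)
        ((P : Matrix (Fin 4) (Fin 4) F) *ᵥ u) = 0) ∧
      H = subfieldSubgroup F₀ P ⊓ (GU 4 F q ⊓ specialLinear (Fin 4) F)) ∨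
    (Odd q ∧ ∃ (F₀ : Subfield F) (P : GL (Fin 4) F), Fintype.card F = Nat.card F₀ ^ 2 ∧
      IsFormRationalStructure (hermForm 4 F q) F₀ 1 P ∧
      H = subfieldSubgroup F₀ P ⊓ (GU 4 F q ⊓ specialLinear (Fin 4) F))) : SU4Concl F q H := by
  rcases h with h | h
  · exact Or.inr (Or.inr (Or.inr (Or.inr (Or.inr (Or.inr (Or.inl h))))))
  · exact Or.inr (Or.inr (Or.inr (Or.inr (Or.inr (Or.inr (Or.inr (Or.inl h)))))))

/-- The passage from the general list to the list in dimension four. -/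
theorem concl_of_conclG (hS : HS F q σ) {H : Subgroup (GL (Fin 4) F)} (hH : IsMaximalIn (GSU 4 F q) H)
    (h : SUConclG 4 F q H) : SU4Concl F q H := by
  rcases h with h | h | ⟨t, m, D, htm, hm2, hD, hE⟩ | ⟨k, D, hk, hD, hts, hE⟩ | ⟨r, K, hr, hrodd, hrn, -⟩ |
    ⟨n₁, n₂, e, P, f₁, f₂, hn₁, hlt, -⟩ | h | h | h | h
  · exact Or.inl h
  · exact Or.inr (Or.inl h)
  · have htwo := hD.decomp.two_le
    have hm0 := hD.decomp.pos
    have hcases : (t = 4 ∧ m = 1) ∨ (t = 2 ∧ m = 2) := by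
      have hm4 : m ≤ 2 := by nlinarith
      interval_cases m <;> omega
    rcases hcases with ⟨rfl, rfl⟩ | ⟨rfl, rfl⟩
    · by_cases hq3 : q = 3
      · subst hq3
        have hle : H ≤ decompositionStabilizer D := by
          rw [hE]
          exact inf_le_left
        obtain ⟨R, h1, h2, h3, h4, h5, h6⟩ := frame_q3 hS hH hD hle
        exact Or.inr (Or.inr (Or.inr (Or.inr (Or.inr (Or.inr (Or.inr (Or.inr (Or.inl
          ⟨3, R, Nat.prime_three, rfl, by norm_num, h1, h2, h3, h4, h5, h6⟩))))))))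
      · exact Or.inr (Or.inr (Or.inl ⟨hq3, D, hD, hE⟩))
    · exact Or.inr (Or.inr (Or.inr (Or.inl ⟨hm2 rfl, D, hD, hE⟩)))
  · obtain rfl : k = 2 := by omega
    by_cases hq4 : 4 ≤ q
    · exact Or.inr (Or.inr (Or.inr (Or.inr (Or.inl ⟨hq4, D, hD, hts, hE⟩))))
    · have hle : H ≤ decompositionStabilizer D := by
        rw [hE]
        exact inf_le_left
      exact Or.inr (Or.inr (Or.inr (Or.inr (Or.inr (Or.inr (Or.inl (pair_conc hS (by omega) hH hD hts hle)))))))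
  · exfalso
    have h1 : r ∣ 2 ^ 2 := by simpa using hrn
    have h2 := hr.dvd_of_dvd_pow h1
    have h3 := (Nat.prime_dvd_prime_iff_eq hr Nat.prime_two).1 h2
    subst h3
    exact absurd hrodd (by decide)
  · exfalso
    have hcard : n₁ * n₂ = 4 := by
      have := Fintype.card_congr e
      simpa using this.symm
    nlinarith
  · exact Or.inr (Or.inr (Or.inr (Or.inr (Or.inr (Or.inl h)))))
  · exact Or.inr (Or.inr (Or.inr (Or.inr (Or.inr (Or.inr (Or.inl h))))))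
  · exact Or.inr (Or.inr (Or.inr (Or.inr (Or.inr (Or.inr (Or.inr (Or.inl h)))))))
  · exact Or.inr (Or.inr (Or.inr (Or.inr (Or.inr (Or.inr (Or.inr (Or.inr (Or.inr h))))))))

/-- The maximal subgroups of the special unitary group in dimension four. -/
theorem su4_main (hS : HS F q σ) {H : Subgroup (GL (Fin 4) F)} (hH : IsMaximalIn (GSU 4 F q) H) : SU4Concl F q H := by
  rcases main_su4_forms hS hH with h | ⟨e, P, f₁, f₂, hle, hf₁, hf₂, hsplit⟩ |
    ⟨N, hN, hNa, hc, hirr, hd, hmin⟩ | ⟨N, T, hN, hfac, hirr, hd⟩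
  · exact concl_of_conclG hS hH h
  · exact concl_of_tensor (tensor22_conc hS hH (hle.trans (tensor_le_wreath e P)) hf₁ hf₂ hsplit)
  · obtain ⟨i, hi⟩ := exists_sqrt_neg_one hS
    obtain ⟨R, hX, hR⟩ := exists_xdata4 hN hNa hc hd hmin (by simp) (s := 2) (by simp) hi
    rcases xdata_su4 hS hH hX (by norm_num) (by
      intro a ha hcop
      have h3 : a % 2 ≠ 0 := by
        intro h0
        have : 2 ∣ Nat.gcd a 4 := Nat.dvd_gcd (Nat.dvd_of_mod_eq_zero h0) (by norm_num)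
        rw [hcop] at this
        omega
      omega) Nat.prime_two (t := 2) (by norm_num) (xdata4_lift hS hH hX hR (by norm_num) hmin) with h |
      ⟨⟨p, hpp, hqp, h2p, hchar, hdvd⟩, hE⟩
    · exact concl_of_conclG hS hH h
    · have hodd : p % 2 = 1 := by
        rcases hpp.eq_two_or_odd with h | h
        · exact absurd h.symm h2p
        · exact h
      refine Or.inr (Or.inr (Or.inr (Or.inr (Or.inr (Or.inr (Or.inr (Or.inr (Or.inl
        ⟨p, R, hpp, hqp, ?_, hX.symp (by simp) Nat.prime_two (t := 2) (by norm_num) (by norm_num), hX.absIrr,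
        hX.le_sim hS hH, ?_, hX.card_center (by norm_num), hE⟩))))))))
      · have h1 := hpp.pos
        omega
      · rw [hX.card_eq (by norm_num)]
        simp
  · obtain ⟨hw, φ, M, e, B, hφ, hM, hB, hle⟩ := hfac.square_data (w₀ := 2) (by simp) (by
      intro w k hw hk h
      simp only [Fintype.card_fin] at h
      have hk3 : k = 2 := by
        by_contra hne
        have h3 : 3 ≤ k := by omega
        have h4 := (Nat.pow_le_pow_left hw k).trans' (Nat.pow_le_pow_right (by norm_num : 0 < 2) h3)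
        omega
      subst hk3
      refine ⟨?_, rfl⟩
      nlinarith)
    haveI := hw
    have hMU : ∀ g ∈ M, ∀ x y : Fin 4 → F, hermForm 4 F q ((g : Matrix (Fin 4) (Fin 4) F) *ᵥ x)
        ((g : Matrix (Fin 4) (Fin 4) F) *ᵥ y) = hermForm 4 F q x y := fun g hg x y =>
      gu_isom (hH.1.le (hN.1 (hM hg))).1 x y
    obtain ⟨f₁, f₂, hs₁, hs₂, hnd₁, hnd₂, h₁, h₂, hsplit⟩ := tensor_herm hS hMU hφ hB
    exact concl_of_tensor (tensor22_conc hS hH hle
      ⟨hs₁, hS.inv, fun x y => by rw [one_mul]; exact h₁ x y, hnd₁⟩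
      ⟨hs₂, hS.inv, fun x y => by rw [one_mul]; exact h₂ x y, hnd₂⟩ hsplit)

end SU4Main

end Cfsg.Agent.H28
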