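import Cfsg.Agent.Lib.H28.GUF6

set_option autoImplicit false
set_option linter.style.haveILetI false
set_option linter.unusedSectionVars false
set_option linter.unusedSimpArgs false

namespace Cfsg.Agent.H28

open scoped MatrixGroups Matrix
open Cfsg Cfsg.Geo Cfsg.Agent.H03

section UK1

variable {F : Type*} [Field F]

/-- The adjoint for the standard unitary form over the field with four elements. -/
def dg6 (X : Matrix (Fin 6) (Fin 6) F) : Matrix (Fin 6) (Fin 6) F := (X.map (fun x => x ^ 2)).transpose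

lemma dg6_eq (h2 : (2 : F) = 0) (X : Matrix (Fin 6) (Fin 6) F) : dg6 X = ((frH h2).mapMatrix X).transpose := rfl

lemma dg6_mul (h2 : (2 : F) = 0) (X Y : Matrix (Fin 6) (Fin 6) F) : dg6 (X * Y) = dg6 Y * dg6 X := by
  rw [dg6_eq h2, dg6_eq h2, dg6_eq h2, map_mul, Matrix.transpose_mul]

lemma dg6_add (h2 : (2 : F) = 0) (X Y : Matrix (Fin 6) (Fin 6) F) : dg6 (X + Y) = dg6 X + dg6 Y := by
  rw [dg6_eq h2, dg6_eq h2, dg6_eq h2, map_add, Matrix.transpose_add]

lemma dg6_one (h2 : (2 : F) = 0) : dg6 (1 : Matrix (Fin 6) (Fin 6) F) = 1 := by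
  rw [dg6_eq h2, map_one, Matrix.transpose_one]

lemma dg6_pow (h2 : (2 : F) = 0) (X : Matrix (Fin 6) (Fin 6) F) (n : ℕ) : dg6 (X ^ n) = dg6 X ^ n := by
  rw [dg6_eq h2, dg6_eq h2, map_pow, Matrix.transpose_pow]

lemma dg6_smul (c : F) (X : Matrix (Fin 6) (Fin 6) F) : dg6 (c • X) = c ^ 2 • dg6 X := by
  ext i j
  simp [dg6, mul_pow]

lemma dg6_dg (h4 : ∀ c : F, c ^ 4 = c) (X : Matrix (Fin 6) (Fin 6) F) : dg6 (dg6 X) = X := by
  ext i j
  simp only [dg6, Matrix.transpose_apply, Matrix.map_apply]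
  rw [← pow_mul]
  exact h4 _

lemma dg6_sum (h2 : (2 : F) = 0) {α : Type*} (s : Finset α) (f : α → Matrix (Fin 6) (Fin 6) F) :
    dg6 (∑ i ∈ s, f i) = ∑ i ∈ s, dg6 (f i) := by
  classical
  induction s using Finset.induction_on with
  | empty =>
    ext i j
    simp [dg6]
  | insert a s ha ih => rw [Finset.sum_insert ha, Finset.sum_insert ha, dg6_add h2, ih]

lemma herm6_dg (h2 : (2 : F) = 0) (h4 : ∀ c : F, c ^ 4 = c) (X : Matrix (Fin 6) (Fin 6) F) (u v : Fin 6 → F) :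
    hermForm 6 F 2 (X *ᵥ u) v = hermForm 6 F 2 u (dg6 X *ᵥ v) := by
  have hsq : ∀ (s : Finset (Fin 6)) (f : Fin 6 → F), (∑ i ∈ s, f i) ^ 2 = ∑ i ∈ s, f i ^ 2 := by
    intro s f
    exact map_sum (frH h2) f s
  simp only [hermForm, Matrix.mulVec, dotProduct, dg6, Matrix.transpose_apply, Matrix.map_apply, hsq, Finset.sum_mul,
    Finset.mul_sum, mul_pow, ← pow_mul]
  rw [Finset.sum_comm]
  refine Finset.sum_congr rfl fun i _ => Finset.sum_congr rfl fun j _ => ?_
  have h5 : X j i ^ (2 * 2) = X j i := h4 _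
  rw [h5]
  ring

lemma herm6_right (h2 : (2 : F) = 0) {w w' : Fin 6 → F} (h : ∀ u, hermForm 6 F 2 u w = hermForm 6 F 2 u w') : w = w' := by
  funext i
  have h1 := h (Pi.single i 1)
  simp only [hermForm, Pi.single_apply, ite_mul, one_mul, zero_mul, Finset.sum_ite_eq', Finset.mem_univ, if_true] at h1
  have h3 : (w i - w' i) ^ 2 = 0 := by
    linear_combination h1 + (w' i ^ 2 - w i * w' i) * h2
  have h5 := pow_eq_zero_iff (two_ne_zero) |>.1 h3
  exact sub_eq_zero.1 h5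

lemma dg6_of_adj (h2 : (2 : F) = 0) (h4 : ∀ c : F, c ^ 4 = c) {k k' : Matrix (Fin 6) (Fin 6) F}
    (h : ∀ u v, hermForm 6 F 2 (k *ᵥ u) v = hermForm 6 F 2 u (k' *ᵥ v)) : k' = dg6 k := by
  apply Matrix.ext_iff_mulVec.2
  intro v
  apply herm6_right h2
  intro u
  rw [← h, herm6_dg h2 h4]

lemma gu6_iff (h2 : (2 : F) = 0) (h4 : ∀ c : F, c ^ 4 = c) {g : GL (Fin 6) F} :
    g ∈ GU 6 F 2 ↔ dg6 (g : Matrix (Fin 6) (Fin 6) F) * (g : Matrix (Fin 6) (Fin 6) F) = 1 := by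
  constructor
  · intro hg
    apply Matrix.ext_iff_mulVec.2
    intro v
    apply herm6_right h2
    intro u
    rw [Matrix.one_mulVec, ← Matrix.mulVec_mulVec, ← herm6_dg h2 h4]
    exact hg u v
  · intro hg u v
    show hermForm 6 F 2 ((g : Matrix (Fin 6) (Fin 6) F) *ᵥ u) ((g : Matrix (Fin 6) (Fin 6) F) *ᵥ v) = _
    rw [herm6_dg h2 h4, Matrix.mulVec_mulVec, hg, Matrix.one_mulVec]

/-- An invertible matrix from a power relation. -/
def glp6 (M : Matrix (Fin 6) (Fin 6) F) (n : ℕ) (h : M ^ (n + 1) = 1) : GL (Fin 6) F where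
  val := M
  inv := M ^ n
  val_inv := by rw [← pow_succ']; exact h
  inv_val := by rw [← pow_succ]; exact h

lemma glp6_val (M : Matrix (Fin 6) (Fin 6) F) (n : ℕ) (h : M ^ (n + 1) = 1) :
    ((glp6 M n h : GL (Fin 6) F) : Matrix (Fin 6) (Fin 6) F) = M := rfl

lemma mem_sl6_iff {g : GL (Fin 6) F} : g ∈ specialLinear (Fin 6) F ↔ (g : Matrix (Fin 6) (Fin 6) F).det = 1 := by
  constructor
  · intro hg
    have h5 : (Matrix.GeneralLinearGroup.det g : Fˣ) = 1 := hg
    have := congrArg Units.val h5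
    simpa using this
  · intro hg
    apply Units.ext
    simpa using hg

end UK1

end Cfsg.Agent.H28
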