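import Cfsg.Agent.Lib.H28.GUK1

set_option autoImplicit false
set_option linter.style.haveILetI false
set_option linter.unusedSectionVars false
set_option linter.unusedSimpArgs false

namespace Cfsg.Agent.H28

open scoped MatrixGroups Matrix
open Cfsg Cfsg.Geo Cfsg.Agent.H03

section UK2

/-- A non-monomial element of order four stabilising the special set. -/
def fA : Matrix (Fin 6) (Fin 6) GF4 := !![.i, .i, .o, .v, .i, .w; .o, .v, .v, .w, .v, .i; .w, .o, .w, .i, .w, .v; .w, .w, .w, .o, .w, .v; .i, .i, .i, .v, .o, .w; .v, .v, .v, .w, .v, .o]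
/-- A transvection moving the special set. -/
def fB : Matrix (Fin 6) (Fin 6) GF4 := !![.o, .i, .i, .i, .o, .o; .i, .o, .i, .i, .o, .o; .i, .i, .o, .i, .o, .o; .i, .i, .i, .o, .o, .o; .o, .o, .o, .o, .i, .o; .o, .o, .o, .o, .o, .i]

/-- Support size of one coordinate. -/
def nzB : GF4 → ℕ
  | .o => 0
  | _ => 1

/-- The special set: vectors of weight two, and vectors with coordinate product one. -/
def inSB (v : Fin 6 → GF4) : Bool :=
  (nzB (v 0) + nzB (v 1) + nzB (v 2) + nzB (v 3) + nzB (v 4) + nzB (v 5) == 2) || (v 0 * v 1 * v 2 * v 3 * v 4 * v 5 == 1)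

lemma fA_pow : fA ^ 4 = 1 := by decide +kernel
lemma fB_pow : fB ^ 2 = 1 := by decide +kernel
lemma fA_unit : fA.transpose * fA.map (fun x => x ^ 2) = 1 := by decide +kernel
lemma fB_unit : fB.transpose * fB.map (fun x => x ^ 2) = 1 := by decide +kernel
lemma fA_S : ∀ a b c d e f : GF4, inSB ![a, b, c, d, e, f] = true → inSB (fA *ᵥ ![a, b, c, d, e, f]) = true := by decide +kernel
lemma fB_S : inSB ![.i, .o, .o, .o, .i, .o] = true ∧ inSB (fB *ᵥ ![.i, .o, .o, .o, .i, .o]) = false := by decide +kernel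

end UK2

end Cfsg.Agent.H28
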