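import Cfsg.Agent.Lib.H28.GUK2

set_option autoImplicit false
set_option linter.style.haveILetI false
set_option linter.unusedSectionVars false
set_option linter.unusedSimpArgs false

namespace Cfsg.Agent.H28

open scoped MatrixGroups Matrix
open Cfsg Cfsg.Geo Cfsg.Agent.H03

section UK3

variable {F : Type*} [Field F] [Fintype F]

/-- Matrices over the concrete field, viewed over `F`. -/
noncomputable def tm6 (e : GF4 ≃+* F) : Matrix (Fin 6) (Fin 6) GF4 →+* Matrix (Fin 6) (Fin 6) F :=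
  (e : GF4 →+* F).mapMatrix

lemma tm6_apply (e : GF4 ≃+* F) (M : Matrix (Fin 6) (Fin 6) GF4) (i j : Fin 6) : tm6 e M i j = e (M i j) := rfl

lemma tm6_mulVec (e : GF4 ≃+* F) (M : Matrix (Fin 6) (Fin 6) GF4) (v : Fin 6 → GF4) :
    tm6 e M *ᵥ (fun i => e (v i)) = fun i => e ((M *ᵥ v) i) := map_mulVec_e e 6 M v

lemma tm6_dg (e : GF4 ≃+* F) (M : Matrix (Fin 6) (Fin 6) GF4) : dg6 (tm6 e M) = tm6 e (dg6 M) := by
  ext i j
  simp [dg6, tm6_apply, map_pow]

lemma dg6_of_unit {M : Matrix (Fin 6) (Fin 6) GF4} (h : M.transpose * M.map (fun x => x ^ 2) = 1) : dg6 M * M = 1 := by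
  have h1 := congrArg Matrix.transpose h
  rw [Matrix.transpose_mul, Matrix.transpose_transpose, Matrix.transpose_one] at h1
  exact h1

open Classical in
/-- Support indicator of a coordinate. -/
noncomputable def nzF (a : F) : ℕ := if a = 0 then 0 else 1

/-- The special set of vectors. -/
def S0F (F : Type*) [Field F] : Set (Fin 6 → F) := {x | ∑ i, nzF (x i) = 2 ∨ ∏ i, x i = 1}

lemma nzB_e (e : GF4 ≃+* F) (c : GF4) : nzF (e c) = nzB c := by
  classical
  unfold nzF
  cases c with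
  | o =>
    have : e GF4.o = 0 := map_zero e
    simp [this, nzB]
  | i =>
    have : e GF4.i ≠ 0 := fun h => by
      have h5 := (map_eq_zero e).1 h
      exact absurd h5 (by decide)
    simp [this, nzB]
  | w =>
    have : e GF4.w ≠ 0 := fun h => by
      have h5 := (map_eq_zero e).1 h
      exact absurd h5 (by decide)
    simp [this, nzB]
  | v =>
    have : e GF4.v ≠ 0 := fun h => by
      have h5 := (map_eq_zero e).1 h
      exact absurd h5 (by decide)
    simp [this, nzB]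

lemma mem_S0_e (e : GF4 ≃+* F) (v : Fin 6 → GF4) : (fun i => e (v i)) ∈ S0F F ↔ inSB v = true := by
  simp only [S0F, Set.mem_setOf_eq, Fin.sum_univ_six, Fin.prod_univ_six, nzB_e, inSB, Bool.or_eq_true, beq_iff_eq]
  rw [← map_mul, ← map_mul, ← map_mul, ← map_mul, ← map_mul]
  rw [EmbeddingLike.map_eq_one_iff]

lemma mono_S0 (h2 : (2 : F) = 0) {σ : Equiv.Perm (Fin 6)} {c : Fin 6 → F} (hc : ∀ i, c i ≠ 0) {m : Matrix (Fin 6) (Fin 6) F}
    (hm : ∀ j i, m j i = if j = σ i then c i else 0) (hdet : m.det = 1) {x : Fin 6 → F} (hx : x ∈ S0F F) :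
    m *ᵥ x ∈ S0F F := by
  classical
  have hmx : ∀ i, (m *ᵥ x) (σ i) = c i * x i := by
    intro i
    simp only [Matrix.mulVec, dotProduct, hm]
    rw [Finset.sum_eq_single i]
    · simp
    · intro k _ hk
      rw [if_neg, zero_mul]
      intro h
      exact hk (σ.injective h).symm
    · simp
  have hprod : ∏ i, c i = 1 := by
    have e1 : m = (Matrix.diagonal c).submatrix σ.symm id := by
      ext j i
      rw [hm, Matrix.submatrix_apply, Matrix.diagonal_apply, id]
      by_cases h : j = σ i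
      · subst h
        simp
      · rw [if_neg h, if_neg]
        intro h5
        exact h (by rw [← h5, Equiv.apply_symm_apply])
    rw [e1, Matrix.det_permute, Matrix.det_diagonal] at hdet
    have hs : ∀ s : ℤˣ, ((s : ℤ) : F) = 1 := by
      intro s
      rcases Int.units_eq_one_or s with rfl | rfl
      · simp
      · have : (-1 : F) = 1 := by linear_combination -h2
        simpa using this
    rw [hs, one_mul] at hdet
    exact hdet
  have hnz : ∀ i, nzF ((m *ᵥ x) (σ i)) = nzF (x i) := by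
    intro i
    rw [hmx]
    unfold nzF
    by_cases h : x i = 0
    · simp [h]
    · simp [h, hc i]
  rcases hx with hx | hx
  · left
    rw [← Equiv.sum_comp σ]
    simp only [hnz]
    exact hx
  · right
    rw [← Equiv.prod_comp σ]
    simp only [hmx, Finset.prod_mul_distrib, hprod, hx, one_mul]

/-- Subsets of vectors stabilised by a matrix. -/
def stabS6 (S : Set (Fin 6 → F)) : Subgroup (GL (Fin 6) F) where
  carrier := {g | ∀ v, v ∈ S ↔ (g : Matrix (Fin 6) (Fin 6) F) *ᵥ v ∈ S}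
  mul_mem' {a b} ha hb := by
    intro v
    rw [hb v, ha, Units.val_mul, Matrix.mulVec_mulVec]
  one_mem' := by
    intro v
    simp
  inv_mem' {g} hg := by
    intro v
    have h1 := hg (((g⁻¹ : GL (Fin 6) F) : Matrix (Fin 6) (Fin 6) F) *ᵥ v)
    rw [Matrix.mulVec_mulVec, Units.mul_inv, Matrix.one_mulVec] at h1
    exact h1.symm

lemma mem_stabS6_of_forward {S : Set (Fin 6 → F)} {g : GL (Fin 6) F}
    (h : ∀ v ∈ S, (g : Matrix (Fin 6) (Fin 6) F) *ᵥ v ∈ S) : g ∈ stabS6 S := by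
  classical
  have hpow : ∀ k : ℕ, ∀ v ∈ S, ((g ^ k : GL (Fin 6) F) : Matrix (Fin 6) (Fin 6) F) *ᵥ v ∈ S := by
    intro k
    induction k with
    | zero =>
      intro v hv
      simpa using hv
    | succ k ih =>
      intro v hv
      rw [pow_succ', Units.val_mul, ← Matrix.mulVec_mulVec]
      exact h _ (ih v hv)
  intro v
  refine ⟨h v, fun hv => ?_⟩
  have hn : 0 < orderOf g := orderOf_pos g
  have h1 := hpow (orderOf g - 1) _ hv
  rw [Matrix.mulVec_mulVec, ← Units.val_mul, ← pow_succ, Nat.sub_add_cancel hn, pow_orderOf_eq_one, Units.val_one,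
    Matrix.one_mulVec] at h1
  exact h1

/-- The frame gives an isometry carrying the stabiliser of the frame into monomial matrices. -/
lemma frame_basis (hF : Fintype.card F = 4) (h2 : (2 : F) = 0) (h4 : ∀ c : F, c ^ 4 = c) {D : Fin 6 → Submodule F (Fin 6 → F)}
    (hD : IsNondegenerateMDecomposition (hermForm 6 F 2) 1 D) :
    ∃ u : GL (Fin 6) F, u ∈ GU 6 F 2 ∧ ∀ g ∈ decompositionStabilizer D, ∃ (σ : Equiv.Perm (Fin 6)) (c : Fin 6 → F),
      (∀ i, c i ≠ 0) ∧ ∀ j i, ((u⁻¹ * g * u : GL (Fin 6) F) : Matrix (Fin 6) (Fin 6) F) j i = if j = σ i then c i else 0 := by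
  classical
  have hex : ∀ i, ∃ b : Fin 6 → F, b ∈ D i ∧ b ≠ 0 ∧ ∀ w ∈ D i, ∃ c : F, c • b = w := by
    intro i
    obtain ⟨b, hb, hall⟩ := (finrank_eq_one_iff' (K := F) (V := D i)).1 (hD.decomp.finrank_eq i)
    refine ⟨b, b.2, fun h => hb (Subtype.ext h), fun w hw => ?_⟩
    obtain ⟨c, hc⟩ := hall ⟨w, hw⟩
    exact ⟨c, congrArg Subtype.val hc⟩
  choose b hbD hb0 hbc using hex
  have hself : ∀ i, hermForm 6 F 2 (b i) (b i) = 1 := by
    intro i
    obtain ⟨⟨x, hx, hxne⟩, -⟩ := hD.nondegenerate i (b i) (hbD i) (hb0 i)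
    obtain ⟨c, rfl⟩ := hbc i x hx
    have hne : hermForm 6 F 2 (b i) (b i) ≠ 0 := by
      intro h0
      apply hxne
      simp only [hermForm, Pi.smul_apply, smul_eq_mul, mul_assoc, ← Finset.mul_sum]
      simp only [hermForm] at h0
      rw [h0, mul_zero]
    have hsq : (hermForm 6 F 2 (b i) (b i)) ^ 2 = hermForm 6 F 2 (b i) (b i) := by
      have hfrob : ∀ (s : Finset (Fin 6)) (f : Fin 6 → F), (∑ j ∈ s, f j) ^ 2 = ∑ j ∈ s, f j ^ 2 := by
        intro s f
        exact map_sum (frH h2) f s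
      simp only [hermForm]
      rw [hfrob]
      refine Finset.sum_congr rfl fun j _ => ?_
      have h5 := h4 (b i j)
      calc (b i j * b i j ^ 2) ^ 2 = b i j ^ 4 * b i j ^ 2 := by ring
        _ = b i j * b i j ^ 2 := by rw [h5]
    have h5 : hermForm 6 F 2 (b i) (b i) * (hermForm 6 F 2 (b i) (b i) - 1) = 0 := by
      linear_combination hsq
    rcases mul_eq_zero.1 h5 with h6 | h6
    · exact absurd h6 hne
    · exact sub_eq_zero.1 h6
  have hortho : ∀ i j, i ≠ j → hermForm 6 F 2 (b i) (b j) = 0 := fun i j hij =>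
    hD.orthogonal i j hij _ (hbD i) _ (hbD j)
  let U : Matrix (Fin 6) (Fin 6) F := Matrix.of fun r k => b k r
  have hUcol : ∀ k, U *ᵥ Pi.single k 1 = b k := by
    intro k
    funext r
    simp [U, Matrix.mulVec_single]
  have hUU : dg6 U * U = 1 := by
    ext i j
    rw [Matrix.one_apply]
    have e1 : (dg6 U * U) i j = hermForm 6 F 2 (b j) (b i) := by
      simp only [Matrix.mul_apply, dg6, Matrix.transpose_apply, Matrix.map_apply, U, Matrix.of_apply, hermForm]
      exact Finset.sum_congr rfl fun k _ => mul_comm _ _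
    rw [e1]
    by_cases h : i = j
    · subst h
      rw [hself, if_pos rfl]
    · rw [hortho j i (Ne.symm h), if_neg h]
  let u : GL (Fin 6) F := ⟨U, dg6 U, mul_eq_one_comm.1 hUU, hUU⟩
  have huv : (u : Matrix (Fin 6) (Fin 6) F) = U := rfl
  refine ⟨u, (gu6_iff h2 h4).2 hUU, ?_⟩
  rintro g ⟨σ, hσ⟩
  have hgb : ∀ i, ∃ c : F, c • b (σ i) = (g : Matrix (Fin 6) (Fin 6) F) *ᵥ b i := by
    intro i
    apply hbc
    rw [← hσ]
    exact Submodule.mem_map_of_mem (f := Matrix.toLin' (g : Matrix (Fin 6) (Fin 6) F)) (hbD i)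
  choose c hc using hgb
  have huinv : ∀ k, ((u⁻¹ : GL (Fin 6) F) : Matrix (Fin 6) (Fin 6) F) *ᵥ b k = Pi.single k 1 := by
    intro k
    rw [← hUcol k, ← huv, Matrix.mulVec_mulVec, Units.inv_mul, Matrix.one_mulVec]
  refine ⟨σ, c, ?_, ?_⟩
  · intro i h0
    have h5 := hc i
    rw [h0, zero_smul] at h5
    have h6 : ((g⁻¹ : GL (Fin 6) F) : Matrix (Fin 6) (Fin 6) F) *ᵥ ((g : Matrix (Fin 6) (Fin 6) F) *ᵥ b i) = 0 := by
      rw [← h5, Matrix.mulVec_zero]
    rw [Matrix.mulVec_mulVec, Units.inv_mul, Matrix.one_mulVec] at h6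
    exact hb0 i h6
  · intro j i
    have e1 : ((u⁻¹ * g * u : GL (Fin 6) F) : Matrix (Fin 6) (Fin 6) F) *ᵥ Pi.single i 1 = c i • Pi.single (σ i) 1 := by
      rw [Units.val_mul, Units.val_mul, ← Matrix.mulVec_mulVec, huv, hUcol, ← Matrix.mulVec_mulVec, ← hc, Matrix.mulVec_smul,
        huinv]
    have e2 := congrFun e1 j
    have e3 : (((u⁻¹ * g * u : GL (Fin 6) F) : Matrix (Fin 6) (Fin 6) F) *ᵥ Pi.single i 1) j =
        ((u⁻¹ * g * u : GL (Fin 6) F) : Matrix (Fin 6) (Fin 6) F) j i := by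
      simp [Matrix.mulVec_single]
    rw [e3] at e2
    rw [e2]
    by_cases h : j = σ i
    · simp [h]
    · simp [h]

/-- The monomial group in dimension six over the field with four elements is not maximal in the special unitary group. -/
theorem su62_frame_false (hF : Fintype.card F = 4) {D : Fin 6 → Submodule F (Fin 6 → F)}
    (hD : IsNondegenerateMDecomposition (hermForm 6 F 2) 1 D)
    (hH : IsMaximalIn (GU 6 F 2 ⊓ specialLinear (Fin 6) F) (decompositionStabilizer D ⊓ (GU 6 F 2 ⊓ specialLinear (Fin 6) F))) :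
    False := by
  classical
  let e : GF4 ≃+* F := (equivGF4 hF).symm
  have h2 : (2 : F) = 0 := two_eq_zero_e e
  have h4 : ∀ c : F, c ^ 4 = c := fun c => by
    have := FiniteField.pow_card c
    rwa [hF] at this
  have h3 : ∀ c : F, c ≠ 0 → c ^ 3 = 1 := fun c hc => by
    have h5 := h4 c
    have h6 : c * c ^ 3 = c * 1 := by linear_combination h5
    exact mul_left_cancel₀ hc h6
  have hd0 : ∀ g : GL (Fin 6) F, (g : Matrix (Fin 6) (Fin 6) F).det ^ 3 = 1 := fun g =>
    h3 _ (by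
      have := (Matrix.isUnit_iff_isUnit_det _).1 g.isUnit
      exact this.ne_zero)
  let S : Subgroup (GL (Fin 6) F) := GU 6 F 2 ⊓ specialLinear (Fin 6) F
  obtain ⟨u, huU, hmono⟩ := frame_basis hF h2 h4 hD
  have hA4 : (tm6 e fA) ^ (3 + 1) = 1 := by rw [← map_pow, fA_pow, map_one]
  have hB2 : (tm6 e fB) ^ (1 + 1) = 1 := by rw [← map_pow, fB_pow, map_one]
  let A : GL (Fin 6) F := glp6 _ 3 hA4
  let B : GL (Fin 6) F := glp6 _ 1 hB2
  have hAv : (A : Matrix (Fin 6) (Fin 6) F) = tm6 e fA := rfl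
  have hBv : (B : Matrix (Fin 6) (Fin 6) F) = tm6 e fB := rfl
  have hunit : ∀ M : Matrix (Fin 6) (Fin 6) GF4, M.transpose * M.map (fun x => x ^ 2) = 1 → dg6 (tm6 e M) * tm6 e M = 1 := by
    intro M hM
    rw [tm6_dg, ← map_mul, dg6_of_unit hM, map_one]
  have hAS : A ∈ S := by
    refine ⟨(gu6_iff h2 h4).2 (hunit _ fA_unit), mem_sl6_iff.2 ?_⟩
    have h5 := hd0 A
    have h6 : (A : Matrix (Fin 6) (Fin 6) F).det ^ 4 = 1 := by
      rw [← Matrix.det_pow, hAv, hA4, Matrix.det_one]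
    generalize (A : Matrix (Fin 6) (Fin 6) F).det = d at *
    calc d = d * 1 := (mul_one d).symm
      _ = d * d ^ 3 := by rw [h5]
      _ = d ^ 4 := by ring
      _ = 1 := h6
  have hBS : B ∈ S := by
    refine ⟨(gu6_iff h2 h4).2 (hunit _ fB_unit), mem_sl6_iff.2 ?_⟩
    have h5 := hd0 B
    have h6 : (B : Matrix (Fin 6) (Fin 6) F).det ^ 2 = 1 := by
      rw [← Matrix.det_pow, hBv, hB2, Matrix.det_one]
    generalize (B : Matrix (Fin 6) (Fin 6) F).det = d at *
    calc d = d * d ^ 2 := by rw [h6, mul_one]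
      _ = d ^ 3 := by ring
      _ = 1 := h5
  have hconjS : ∀ g ∈ S, u * g * u⁻¹ ∈ S := by
    intro g hg
    refine ⟨(GU 6 F 2).mul_mem ((GU 6 F 2).mul_mem huU hg.1) ((GU 6 F 2).inv_mem huU), mem_sl6_iff.2 ?_⟩
    have h5 := mem_sl6_iff.1 hg.2
    rw [Units.val_mul, Units.val_mul, Matrix.det_mul, Matrix.det_mul, h5, mul_one, ← Matrix.det_mul, Units.mul_inv, Matrix.det_one]
  have hAst : A ∈ stabS6 (S0F F) := by
    apply mem_stabS6_of_forward
    intro x hx
    let v : Fin 6 → GF4 := fun i => e.symm (x i)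
    have hxv : x = fun i => e (v i) := by
      funext i
      simp [v]
    rw [hxv] at hx ⊢
    rw [hAv, tm6_mulVec]
    rw [mem_S0_e] at hx ⊢
    have hvv : v = ![v 0, v 1, v 2, v 3, v 4, v 5] := by
      funext i
      fin_cases i <;> rfl
    rw [hvv] at hx ⊢
    exact fA_S _ _ _ _ _ _ hx
  have hBnot : B ∉ stabS6 (S0F F) := by
    intro hB
    have hv1 := (mem_S0_e e _).2 fB_S.1
    have h5 := (hB _).1 hv1
    rw [hBv, tm6_mulVec, mem_S0_e, fB_S.2] at h5
    exact Bool.noConfusion h5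
  let L : Subgroup (GL (Fin 6) F) := (stabS6 (S0F F)).map (MulAut.conj u).toMonoidHom ⊓ S
  have hHL : decompositionStabilizer D ⊓ S ≤ L := by
    rintro g ⟨hgD, hgS⟩
    refine ⟨⟨u⁻¹ * g * u, ?_, ?_⟩, hgS⟩
    · obtain ⟨σ, c, hc, hm⟩ := hmono g hgD
      apply mem_stabS6_of_forward
      intro x hx
      refine mono_S0 h2 hc hm ?_ hx
      have h5 := mem_sl6_iff.1 hgS.2
      rw [Units.val_mul, Units.val_mul, Matrix.det_mul, Matrix.det_mul, h5, mul_one, ← Matrix.det_mul, Units.inv_mul, Matrix.det_one]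
    · show u * (u⁻¹ * g * u) * u⁻¹ = g
      group
  have hLS : L ≤ S := inf_le_right
  rcases hH.2 L hHL hLS with hLeq | hLeq
  · have hmem : u * A * u⁻¹ ∈ L := ⟨⟨A, hAst, rfl⟩, hconjS A hAS⟩
    rw [hLeq] at hmem
    obtain ⟨σ, c, hc, hm⟩ := hmono _ hmem.1
    have e1 : u⁻¹ * (u * A * u⁻¹) * u = A := by group
    rw [e1] at hm
    have h00 := hm 0 0
    have h20 := hm 2 0
    rw [hAv, tm6_apply] at h00 h20
    have hne0 : e (fA 0 0) ≠ 0 := fun h => by
      have h5 := (map_eq_zero e).1 h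
      exact absurd h5 (by decide +kernel)
    have hne2 : e (fA 2 0) ≠ 0 := fun h => by
      have h5 := (map_eq_zero e).1 h
      exact absurd h5 (by decide +kernel)
    by_cases h5 : (0 : Fin 6) = σ 0
    · have h6 : (2 : Fin 6) ≠ σ 0 := by
        rw [← h5]
        decide
      rw [if_neg h6] at h20
      exact hne2 h20
    · rw [if_neg h5] at h00
      exact hne0 h00
  · have hmem : u * B * u⁻¹ ∈ L := by
      rw [hLeq]
      exact hconjS B hBS
    obtain ⟨⟨g, hg, hgB⟩, -⟩ := hmem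
    have hgB' : g = B := by
      have h5 : u * g * u⁻¹ = u * B * u⁻¹ := hgB
      exact mul_left_cancel (mul_right_cancel h5)
    rw [hgB'] at hg
    exact hBnot hg

end UK3

end Cfsg.Agent.H28
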