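import Cfsg.Agent.Lib.H28.GUK3

set_option autoImplicit false
set_option linter.style.haveILetI false
set_option linter.unusedSectionVars false
set_option linter.unusedSimpArgs false

namespace Cfsg.Agent.H28

open scoped MatrixGroups Matrix
open Cfsg Cfsg.Geo Cfsg.Agent.H03

section UK4

section Gen

variable {R : Type*} [CommRing R]

lemma kadd2 (h2 : (2 : R) = 0) (u v : R) : (u + v) ^ 2 = u ^ 2 + v ^ 2 := by linear_combination (u * v) * h2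

lemma kadd4 (h2 : (2 : R) = 0) (u v : R) : (u + v) ^ 4 = u ^ 4 + v ^ 4 := by
  calc (u + v) ^ 4 = ((u + v) ^ 2) ^ 2 := by ring
    _ = (u ^ 2) ^ 2 + (v ^ 2) ^ 2 := by rw [kadd2 h2, kadd2 h2]
    _ = u ^ 4 + v ^ 4 := by ring

lemma kadd8 (h2 : (2 : R) = 0) (u v : R) : (u + v) ^ 8 = u ^ 8 + v ^ 8 := by
  calc (u + v) ^ 8 = ((u + v) ^ 4) ^ 2 := by ring
    _ = (u ^ 4) ^ 2 + (v ^ 4) ^ 2 := by rw [kadd4 h2, kadd2 h2]
    _ = u ^ 8 + v ^ 8 := by ring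

lemma kadd16 (h2 : (2 : R) = 0) (u v : R) : (u + v) ^ 16 = u ^ 16 + v ^ 16 := by
  calc (u + v) ^ 16 = ((u + v) ^ 8) ^ 2 := by ring
    _ = (u ^ 8) ^ 2 + (v ^ 8) ^ 2 := by rw [kadd8 h2, kadd2 h2]
    _ = u ^ 16 + v ^ 16 := by ring

lemma ky4 {y : R} (hy : y ^ 3 = y + 1) : y ^ 4 = y ^ 2 + y := by linear_combination y * hy

lemma ky6 (h2 : (2 : R) = 0) {y : R} (hy : y ^ 3 = y + 1) : y ^ 6 = y ^ 2 + 1 := by
  calc y ^ 6 = (y ^ 3) ^ 2 := by ring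
    _ = (y + 1) ^ 2 := by rw [hy]
    _ = y ^ 2 + 1 := by linear_combination y * h2

lemma ky7 (h2 : (2 : R) = 0) {y : R} (hy : y ^ 3 = y + 1) : y ^ 7 = 1 := by
  calc y ^ 7 = y * y ^ 6 := by ring
    _ = y * (y ^ 2 + 1) := by rw [ky6 h2 hy]
    _ = y ^ 3 + y := by ring
    _ = (y + 1) + y := by rw [hy]
    _ = 1 := by linear_combination y * h2

lemma ky8 (h2 : (2 : R) = 0) {y : R} (hy : y ^ 3 = y + 1) : y ^ 8 = y := by
  calc y ^ 8 = y * y ^ 7 := by ring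
    _ = y := by rw [ky7 h2 hy, mul_one]

lemma ky16 (h2 : (2 : R) = 0) {y : R} (hy : y ^ 3 = y + 1) : y ^ 16 = y ^ 2 := by
  calc y ^ 16 = (y ^ 8) ^ 2 := by ring
    _ = y ^ 2 := by rw [ky8 h2 hy]

lemma ky32 (h2 : (2 : R) = 0) {y : R} (hy : y ^ 3 = y + 1) : y ^ 32 = y ^ 2 + y := by
  calc y ^ 32 = (y ^ 8) ^ 4 := by ring
    _ = y ^ 4 := by rw [ky8 h2 hy]
    _ = y ^ 2 + y := ky4 hy

/-- The trace to the field with four elements. -/
def trT (x : R) : R := x + x ^ 4 + x ^ 16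

lemma trT_add (h2 : (2 : R) = 0) (u v : R) : trT (u + v) = trT u + trT v := by
  simp only [trT]
  rw [kadd4 h2, kadd16 h2]
  ring

lemma trT_map {S : Type*} [CommRing S] (φ : R →+* S) (x : R) : trT (φ x) = φ (trT x) := by
  simp only [trT, map_add, map_pow]

lemma pow16_of_pow4 {A : R} (hA : A ^ 4 = A) : A ^ 16 = A := by
  calc A ^ 16 = (A ^ 4) ^ 4 := by ring
    _ = A := by rw [hA, hA]

lemma trT_gen (h2 : (2 : R) = 0) {y : R} (hy : y ^ 3 = y + 1) {A B C : R} (hA : A ^ 4 = A) (hB : B ^ 4 = B) (hC : C ^ 4 = C) :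
    trT (A + B * y + C * y ^ 2) = A := by
  have e4 : (A + B * y + C * y ^ 2) ^ 4 = A + B * (y ^ 2 + y) + C * y := by
    rw [kadd4 h2, kadd4 h2, mul_pow, mul_pow, hA, hB, hC, ky4 hy]
    have : (y ^ 2) ^ 4 = y := by
      calc (y ^ 2) ^ 4 = y ^ 8 := by ring
        _ = y := ky8 h2 hy
    rw [this]
  have e16 : (A + B * y + C * y ^ 2) ^ 16 = A + B * y ^ 2 + C * (y ^ 2 + y) := by
    rw [kadd16 h2, kadd16 h2, mul_pow, mul_pow, pow16_of_pow4 hA, pow16_of_pow4 hB, pow16_of_pow4 hC, ky16 h2 hy]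
    have : (y ^ 2) ^ 16 = y ^ 2 + y := by
      calc (y ^ 2) ^ 16 = y ^ 32 := by ring
        _ = y ^ 2 + y := ky32 h2 hy
    rw [this]
  simp only [trT]
  rw [e4, e16]
  linear_combination (A + B * y + B * y ^ 2 + C * y + C * y ^ 2) * h2

lemma pow8_gen (h2 : (2 : R) = 0) {y : R} (hy : y ^ 3 = y + 1) {A B C : R} (hA : A ^ 4 = A) (hB : B ^ 4 = B) (hC : C ^ 4 = C) :
    (A + B * y + C * y ^ 2) ^ 8 = A ^ 2 + B ^ 2 * y + C ^ 2 * y ^ 2 := by
  have h8 : ∀ {X : R}, X ^ 4 = X → X ^ 8 = X ^ 2 := by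
    intro X hX
    calc X ^ 8 = (X ^ 4) ^ 2 := by ring
      _ = X ^ 2 := by rw [hX]
  rw [kadd8 h2, kadd8 h2, mul_pow, mul_pow, h8 hA, h8 hB, h8 hC, ky8 h2 hy]
  have : (y ^ 2) ^ 8 = y ^ 2 := by
    calc (y ^ 2) ^ 8 = y ^ 16 := by ring
      _ = y ^ 2 := ky16 h2 hy
  rw [this]

/-- The norm form. -/
def nrm (A B C : R) : R := A ^ 3 + A * B ^ 2 + A * B * C + A * C ^ 2 + B ^ 3 + B * C ^ 2 + C ^ 3

lemma pow21_gen (h2 : (2 : R) = 0) {y : R} (hy : y ^ 3 = y + 1) {A B C : R} (hA : A ^ 4 = A) (hB : B ^ 4 = B) (hC : C ^ 4 = C) :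
    (A + B * y + C * y ^ 2) ^ 21 = nrm A B C := by
  have e4 : (A + B * y + C * y ^ 2) ^ 4 = A + B * (y ^ 2 + y) + C * y := by
    rw [kadd4 h2, kadd4 h2, mul_pow, mul_pow, hA, hB, hC, ky4 hy]
    have : (y ^ 2) ^ 4 = y := by
      calc (y ^ 2) ^ 4 = y ^ 8 := by ring
        _ = y := ky8 h2 hy
    rw [this]
  have e16 : (A + B * y + C * y ^ 2) ^ 16 = A + B * y ^ 2 + C * (y ^ 2 + y) := by
    rw [kadd16 h2, kadd16 h2, mul_pow, mul_pow, pow16_of_pow4 hA, pow16_of_pow4 hB, pow16_of_pow4 hC, ky16 h2 hy]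
    have : (y ^ 2) ^ 16 = y ^ 2 + y := by
      calc (y ^ 2) ^ 16 = y ^ 32 := by ring
        _ = y ^ 2 + y := ky32 h2 hy
    rw [this]
  have e21 : (A + B * y + C * y ^ 2) ^ 21 = (A + B * y + C * y ^ 2) * (A + B * y + C * y ^ 2) ^ 4 * (A + B * y + C * y ^ 2) ^ 16 := by
    ring
  rw [e21, e4, e16]
  simp only [nrm]
  linear_combination ((A*B^2*y + 3*A*B^2 + 3*A*B*C*y + 5*A*B*C + A*C^2*y + 3*A*C^2 + B^3*y^2 + B^3*y + B^3 + B^2*C*y^3 + 2*B^2*C*y^2 + 4*B^2*C*y + 4*B^2*C + B*C^2*y^3 + 3*B*C^2*y^2 + 3*B*C^2*y + 5*B*C^2 + C^3*y^2 + C^3*y + C^3)) * hy + ((A^2*B*y^2 + A^2*B*y + A^2*C*y^2 + A^2*C*y + A*B^2*y^2 + 2*A*B^2*y + A*B^2 + 3*A*B*C*y^2 + 4*A*B*C*y + 2*A*B*C + A*C^2*y^2 + 2*A*C^2*y + A*C^2 + B^3*y^2 + B^3*y + 3*B^2*C*y^2 + 4*B^2*C*y + 2*B^2*C + 3*B*C^2*y^2 + 4*B*C^2*y + 2*B*C^2 + C^3*y^2 + C^3*y)) * h2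

end Gen

/-- The data of a field of degree three over the field with four elements acting on the six-dimensional unitary space. -/
structure KD (F E : Type*) [Field F] [Field E] where
  ρ : E →+* Matrix (Fin 6) (Fin 6) F
  emb : F →+* E
  τ : E →+* E
  ζ : E
  h2 : (2 : F) = 0
  h4 : ∀ c : F, c ^ 4 = c
  hemb : ∀ a, ρ (emb a) = a • (1 : Matrix (Fin 6) (Fin 6) F)
  hτ : ∀ k, ρ (τ k) = dg6 (ρ k)
  hτemb : ∀ a, τ (emb a) = emb (a ^ 2)
  hτζ : τ ζ = ζ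
  hζ : ζ ^ 3 = ζ + 1
  hexp : ∀ x, ∃ a b c, x = emb a + emb b * ζ + emb c * ζ ^ 2

namespace KD

variable {F E : Type*} [Field F] [Field E] (D : KD F E)

/-- The action of the field on vectors. -/
def act (k : E) (u : Fin 6 → F) : Fin 6 → F := D.ρ k *ᵥ u

include D in
lemma h2E : (2 : E) = 0 := by
  have h := map_ofNat D.emb 2
  rw [← h, D.h2, map_zero]

lemma emb4 (a : F) : D.emb a ^ 4 = D.emb a := by rw [← map_pow, D.h4]

lemma act_mul (k k' : E) (u : Fin 6 → F) : D.act (k * k') u = D.act k (D.act k' u) := by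
  simp only [act, map_mul, Matrix.mulVec_mulVec]

lemma act_add_k (k k' : E) (u : Fin 6 → F) : D.act (k + k') u = D.act k u + D.act k' u := by
  simp only [act, map_add, Matrix.add_mulVec]

lemma act_add (k : E) (u u' : Fin 6 → F) : D.act k (u + u') = D.act k u + D.act k u' := by
  simp only [act, Matrix.mulVec_add]

lemma act_emb (a : F) (u : Fin 6 → F) : D.act (D.emb a) u = a • u := by
  simp only [act, D.hemb, Matrix.smul_mulVec, Matrix.one_mulVec]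

lemma act_one (u : Fin 6 → F) : D.act 1 u = u := by
  simp only [act, map_one, Matrix.one_mulVec]

lemma act_zero_k (u : Fin 6 → F) : D.act 0 u = 0 := by
  simp only [act, map_zero, Matrix.zero_mulVec]

lemma act_zero (k : E) : D.act k 0 = 0 := by
  simp only [act, Matrix.mulVec_zero]

lemma act_exp (a b c : F) (u : Fin 6 → F) :
    D.act (D.emb a + D.emb b * D.ζ + D.emb c * D.ζ ^ 2) u = a • u + b • D.act D.ζ u + c • D.act (D.ζ ^ 2) u := by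
  rw [D.act_add_k, D.act_add_k, D.act_mul, D.act_mul, D.act_emb, D.act_emb, D.act_emb]

lemma herm_add_l (u u' w : Fin 6 → F) : hermForm 6 F 2 (u + u') w = hermForm 6 F 2 u w + hermForm 6 F 2 u' w := by
  simp only [hermForm, Pi.add_apply, add_mul, Finset.sum_add_distrib]

lemma herm_smul_l (c : F) (u w : Fin 6 → F) : hermForm 6 F 2 (c • u) w = c * hermForm 6 F 2 u w := by
  simp only [hermForm, Pi.smul_apply, smul_eq_mul, mul_assoc, Finset.mul_sum]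

include D in
lemma herm_sq (u w : Fin 6 → F) : (hermForm 6 F 2 u w) ^ 2 = hermForm 6 F 2 w u := by
  have hfrob : ∀ (s : Finset (Fin 6)) (f : Fin 6 → F), (∑ j ∈ s, f j) ^ 2 = ∑ j ∈ s, f j ^ 2 := by
    intro s f
    exact map_sum (frH D.h2) f s
  simp only [hermForm]
  rw [hfrob]
  refine Finset.sum_congr rfl fun j _ => ?_
  have h5 := D.h4 (w j)
  calc (u j * w j ^ 2) ^ 2 = u j ^ 2 * w j ^ 4 := by ring
    _ = u j ^ 2 * w j := by rw [h5]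
    _ = w j * u j ^ 2 := mul_comm _ _

lemma herm_adj (k : E) (u w : Fin 6 → F) : hermForm 6 F 2 (D.act (D.τ k) u) w = hermForm 6 F 2 u (D.act k w) := by
  simp only [act]
  rw [D.hτ, herm6_dg D.h2 D.h4, dg6_dg D.h4]

lemma τ_τ (k : E) : D.τ (D.τ k) = k := by
  apply D.ρ.injective
  rw [D.hτ, D.hτ, dg6_dg D.h4]

/-- The hermitian form with values in the big field. -/
def HH (u w : Fin 6 → F) : E :=
  D.emb (hermForm 6 F 2 u w) + D.emb (hermForm 6 F 2 (D.act D.ζ u) w) * D.ζ ^ 2 + D.emb (hermForm 6 F 2 (D.act (D.ζ ^ 2) u) w) * D.ζ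

lemma trT_exp (a b c : F) : trT (D.emb a + D.emb b * D.ζ + D.emb c * D.ζ ^ 2) = D.emb a :=
  trT_gen D.h2E D.hζ (D.emb4 a) (D.emb4 b) (D.emb4 c)

lemma trT_exp1 (a b c : F) : trT (D.ζ * (D.emb a + D.emb b * D.ζ + D.emb c * D.ζ ^ 2)) = D.emb c := by
  have e : D.ζ * (D.emb a + D.emb b * D.ζ + D.emb c * D.ζ ^ 2) = D.emb c + D.emb (a + c) * D.ζ + D.emb b * D.ζ ^ 2 := by
    rw [map_add]
    linear_combination D.emb c * D.hζ
  rw [e, D.trT_exp]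

lemma trT_exp2 (a b c : F) : trT (D.ζ ^ 2 * (D.emb a + D.emb b * D.ζ + D.emb c * D.ζ ^ 2)) = D.emb b := by
  have e : D.ζ ^ 2 * (D.emb a + D.emb b * D.ζ + D.emb c * D.ζ ^ 2) = D.emb b + D.emb (b + c) * D.ζ + D.emb (a + c) * D.ζ ^ 2 := by
    rw [map_add, map_add]
    linear_combination (D.emb b + D.emb c * D.ζ) * D.hζ
  rw [e, D.trT_exp]

lemma exp_inj {a b c a' b' c' : F} (h : D.emb a + D.emb b * D.ζ + D.emb c * D.ζ ^ 2 = D.emb a' + D.emb b' * D.ζ + D.emb c' * D.ζ ^ 2) :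
    a = a' ∧ b = b' ∧ c = c' := by
  have h1 := D.trT_exp a b c
  have h3 := D.trT_exp1 a b c
  have h5 := D.trT_exp2 a b c
  rw [h] at h1 h3 h5
  rw [D.trT_exp] at h1
  rw [D.trT_exp1] at h3
  rw [D.trT_exp2] at h5
  exact ⟨(D.emb.injective h1).symm, (D.emb.injective h5).symm, (D.emb.injective h3).symm⟩

lemma T_mul_emb (a : F) (x : E) : trT (D.emb a * x) = D.emb a * trT x := by
  simp only [trT, mul_pow, D.emb4, pow16_of_pow4 (D.emb4 a)]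
  ring

include D in
lemma T_add (x y : E) : trT (x + y) = trT x + trT y := trT_add D.h2E x y

lemma T_HH0 (u w : Fin 6 → F) : trT (D.HH u w) = D.emb (hermForm 6 F 2 u w) := by
  have e : D.HH u w = D.emb (hermForm 6 F 2 u w) + D.emb (hermForm 6 F 2 (D.act (D.ζ ^ 2) u) w) * D.ζ + D.emb (hermForm 6 F 2 (D.act D.ζ u) w) * D.ζ ^ 2 := by
    simp only [HH]
    ring
  rw [e, D.trT_exp]

lemma T_HH1 (u w : Fin 6 → F) : trT (D.ζ * D.HH u w) = D.emb (hermForm 6 F 2 (D.act D.ζ u) w) := by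
  have e : D.HH u w = D.emb (hermForm 6 F 2 u w) + D.emb (hermForm 6 F 2 (D.act (D.ζ ^ 2) u) w) * D.ζ + D.emb (hermForm 6 F 2 (D.act D.ζ u) w) * D.ζ ^ 2 := by
    simp only [HH]
    ring
  rw [e, D.trT_exp1]

lemma T_HH2 (u w : Fin 6 → F) : trT (D.ζ ^ 2 * D.HH u w) = D.emb (hermForm 6 F 2 (D.act (D.ζ ^ 2) u) w) := by
  have e : D.HH u w = D.emb (hermForm 6 F 2 u w) + D.emb (hermForm 6 F 2 (D.act (D.ζ ^ 2) u) w) * D.ζ + D.emb (hermForm 6 F 2 (D.act D.ζ u) w) * D.ζ ^ 2 := by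
    simp only [HH]
    ring
  rw [e, D.trT_exp2]

lemma T_HH (k : E) (u w : Fin 6 → F) : trT (k * D.HH u w) = D.emb (hermForm 6 F 2 (D.act k u) w) := by
  obtain ⟨a, b, c, rfl⟩ := D.hexp k
  have e : (D.emb a + D.emb b * D.ζ + D.emb c * D.ζ ^ 2) * D.HH u w =
      D.emb a * D.HH u w + D.emb b * (D.ζ * D.HH u w) + D.emb c * (D.ζ ^ 2 * D.HH u w) := by ring
  rw [e, D.T_add, D.T_add, D.T_mul_emb, D.T_mul_emb, D.T_mul_emb, D.T_HH0, D.T_HH1, D.T_HH2, D.act_exp, herm_add_l, herm_add_l,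
    herm_smul_l, herm_smul_l, herm_smul_l, map_add, map_add, map_mul, map_mul, map_mul]

include D in
lemma T_nondeg {x : E} (h : ∀ k, trT (k * x) = 0) : x = 0 := by
  obtain ⟨a, b, c, rfl⟩ := D.hexp x
  have h1 := h 1
  have h3 := h D.ζ
  have h5 := h (D.ζ ^ 2)
  rw [one_mul, D.trT_exp] at h1
  rw [D.trT_exp1] at h3
  rw [D.trT_exp2] at h5
  rw [h1, h3, h5]
  ring

include D in
lemma eq_of_add (x y : E) (h : x + y = 0) : x = y := by
  linear_combination h - y * D.h2E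

lemma HH_unique {x : E} {u w : Fin 6 → F} (h : ∀ k, trT (k * x) = D.emb (hermForm 6 F 2 (D.act k u) w)) : x = D.HH u w := by
  apply D.eq_of_add
  apply D.T_nondeg
  intro k
  rw [mul_add, D.T_add, h, D.T_HH]
  linear_combination D.emb (hermForm 6 F 2 (D.act k u) w) * D.h2E

lemma HH_add_l (u u' w : Fin 6 → F) : D.HH (u + u') w = D.HH u w + D.HH u' w :=
  (D.HH_unique (fun k => by rw [mul_add, D.T_add, D.T_HH, D.T_HH, D.act_add, herm_add_l, map_add])).symm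

lemma HH_mul_l (k : E) (u w : Fin 6 → F) : D.HH (D.act k u) w = k * D.HH u w :=
  (D.HH_unique (fun k' => by rw [← mul_assoc, D.T_HH, D.act_mul])).symm

lemma HH_herm (u w : Fin 6 → F) : D.HH w u = D.τ (D.HH u w) := by
  refine (D.HH_unique (fun k => ?_)).symm
  have e : k * D.τ (D.HH u w) = D.τ (D.τ k * D.HH u w) := by rw [map_mul, D.τ_τ]
  rw [e, trT_map, D.T_HH, D.hτemb, D.herm_adj, D.herm_sq]

lemma HH_add_r (u w w' : Fin 6 → F) : D.HH u (w + w') = D.HH u w + D.HH u w' := by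
  rw [D.HH_herm (w + w') u, D.HH_add_l, map_add, ← D.HH_herm, ← D.HH_herm]

lemma HH_mul_r (k : E) (u w : Fin 6 → F) : D.HH u (D.act k w) = D.τ k * D.HH u w := by
  rw [D.HH_herm (D.act k w) u, D.HH_mul_l, map_mul, ← D.HH_herm]

lemma HH_zero_l (w : Fin 6 → F) : D.HH 0 w = 0 := by
  have h := D.HH_mul_l 0 0 w
  rw [D.act_zero_k, zero_mul] at h
  exact h

lemma HH_self_fixed (u : Fin 6 → F) : D.τ (D.HH u u) = D.HH u u := (D.HH_herm u u).symm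

lemma herm_of_HH {u w : Fin 6 → F} (h : D.HH u w = 0) : hermForm 6 F 2 u w = 0 := by
  apply D.emb.injective
  rw [← D.T_HH0, h, map_zero]
  simp [trT]

lemma τ_eq (a b c : F) : D.τ (D.emb a + D.emb b * D.ζ + D.emb c * D.ζ ^ 2) = D.emb (a ^ 2) + D.emb (b ^ 2) * D.ζ + D.emb (c ^ 2) * D.ζ ^ 2 := by
  simp only [map_add, map_mul, map_pow, D.hτemb, D.hτζ]

lemma τ_pow8 (x : E) : D.τ x = x ^ 8 := by
  obtain ⟨a, b, c, rfl⟩ := D.hexp x
  rw [pow8_gen D.h2E D.hζ (D.emb4 a) (D.emb4 b) (D.emb4 c), D.τ_eq, map_pow, map_pow, map_pow]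

lemma fixed_exp {x : E} (hx : D.τ x = x) : ∃ a b c : F, a ^ 2 = a ∧ b ^ 2 = b ∧ c ^ 2 = c ∧ x = D.emb a + D.emb b * D.ζ + D.emb c * D.ζ ^ 2 := by
  obtain ⟨a, b, c, rfl⟩ := D.hexp x
  rw [D.τ_eq] at hx
  obtain ⟨h1, h3, h5⟩ := D.exp_inj hx
  exact ⟨a, b, c, h1, h3, h5, rfl⟩

end KD

end UK4

end Cfsg.Agent.H28
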