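import Cfsg.Agent.Lib.H28.GUK4

set_option autoImplicit false
set_option linter.style.haveILetI false
set_option linter.unusedSectionVars false
set_option linter.unusedSimpArgs false

namespace Cfsg.Agent.H28

open scoped MatrixGroups Matrix
open Cfsg Cfsg.Geo Cfsg.Agent.H03

section UK5

namespace KD

variable {F E : Type*} [Field F] [Field E] [Fintype F] [Fintype E] (D : KD F E)

lemma exists_iso (hF : Fintype.card F = 4) (hE : Fintype.card E = 64) : ∃ v : Fin 6 → F, v ≠ 0 ∧ D.HH v v = 0 := by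
  classical
  let u₀ : Fin 6 → F := Pi.single 0 1
  have hu₀ : u₀ ≠ 0 := by
    intro h
    have h1 := congrFun h 0
    simp [u₀] at h1
  by_cases ha : D.HH u₀ u₀ = 0
  · exact ⟨u₀, hu₀, ha⟩
  set a := D.HH u₀ u₀ with hadef
  obtain ⟨x, y, hxy, hf⟩ := Fintype.exists_ne_map_eq_of_card_lt (fun w : Fin 6 → F => D.HH w u₀) (by
    rw [hE, Fintype.card_fun, hF, Fintype.card_fin]
    norm_num)
  replace hf : D.HH x u₀ = D.HH y u₀ := hf
  obtain ⟨w, hw0, hwu⟩ : ∃ w : Fin 6 → F, w ≠ 0 ∧ D.HH w u₀ = 0 := by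
    refine ⟨x + y, ?_, ?_⟩
    · intro h
      apply hxy
      funext i
      have h1 := congrFun h i
      simp only [Pi.add_apply, Pi.zero_apply] at h1
      linear_combination h1 - y i * D.h2
    · rw [D.HH_add_l, hf]
      linear_combination D.HH y u₀ * D.h2E
  have huw : D.HH u₀ w = 0 := by
    rw [D.HH_herm w u₀, hwu, map_zero]
  by_cases hb : D.HH w w = 0
  · exact ⟨w, hw0, hb⟩
  set b := D.HH w w with hbdef
  let z : E := b * a⁻¹
  have hz0 : z ≠ 0 := mul_ne_zero hb (inv_ne_zero ha)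
  have hτa : D.τ a = a := D.HH_self_fixed u₀
  have hτb : D.τ b = b := D.HH_self_fixed w
  have hτz : D.τ z = z := by
    simp only [z]
    rw [map_mul, map_inv₀, hτa, hτb]
  have hz8 : z ^ 8 = z := by
    rw [← D.τ_pow8, hτz]
  let c : E := z ^ 4
  have hc0 : c ≠ 0 := pow_ne_zero _ hz0
  have hτc : D.τ c = c := by
    simp only [c]
    rw [map_pow, hτz]
  have hcc : c * (c * a) = b := by
    have e1 : c * (c * a) = z ^ 8 * a := by
      simp only [c]
      ring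
    rw [e1, hz8]
    simp only [z]
    field_simp
  refine ⟨D.act c u₀ + w, ?_, ?_⟩
  · intro h0
    have h1 := D.HH_add_l (D.act c u₀) w u₀
    rw [h0, D.HH_zero_l, D.HH_mul_l, hwu, add_zero] at h1
    exact (mul_ne_zero hc0 ha) h1.symm
  · rw [D.HH_add_l, D.HH_add_r, D.HH_add_r, D.HH_mul_l, D.HH_mul_l, D.HH_mul_r, D.HH_mul_r, hτc, hwu, huw, ← hadef, ← hbdef]
    simp only [mul_zero, add_zero, zero_add]
    rw [hcc]
    linear_combination b * D.h2E

lemma exists_hyp (hF : Fintype.card F = 4) (hE : Fintype.card E = 64) {W : F} (hW : W ^ 2 + W + 1 = 0) :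
    ∃ v₁ v₂ : Fin 6 → F, D.HH v₁ v₁ = 0 ∧ D.HH v₂ v₂ = 0 ∧ D.HH v₁ v₂ = 1 := by
  classical
  obtain ⟨v₁, hv₁, hiso⟩ := D.exists_iso hF hE
  obtain ⟨i, hi⟩ := Function.ne_iff.1 hv₁
  let w₀ : Fin 6 → F := Pi.single i 1
  have hh : hermForm 6 F 2 v₁ w₀ ≠ 0 := by
    have e : hermForm 6 F 2 v₁ w₀ = v₁ i := by
      simp only [hermForm, w₀, Pi.single_apply]
      rw [Finset.sum_eq_single i]
      · simp
      · intro k _ hk
        simp [hk]
      · simp
    rw [e]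
    exact hi
  let m : E := D.HH v₁ w₀
  have hm : m ≠ 0 := fun h => hh (D.herm_of_HH h)
  obtain ⟨w₁, h1⟩ : ∃ w₁ : Fin 6 → F, D.HH v₁ w₁ = 1 := by
    refine ⟨D.act (D.τ m⁻¹) w₀, ?_⟩
    rw [D.HH_mul_r, D.τ_τ]
    exact inv_mul_cancel₀ hm
  have h1' : D.HH w₁ v₁ = 1 := by
    rw [D.HH_herm v₁ w₁, h1, map_one]
  have hτt : D.τ (D.HH w₁ w₁) = D.HH w₁ w₁ := D.HH_self_fixed w₁
  obtain ⟨s, hτs, hs⟩ : ∃ s : E, D.τ s = D.emb (W ^ 2) * D.HH w₁ w₁ ∧ s = D.emb W * D.HH w₁ w₁ := by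
    refine ⟨D.emb W * D.HH w₁ w₁, ?_, rfl⟩
    rw [map_mul, D.hτemb, hτt]
  refine ⟨v₁, w₁ + D.act s v₁, hiso, ?_, ?_⟩
  · rw [D.HH_add_l, D.HH_add_r, D.HH_add_r, D.HH_mul_l, D.HH_mul_l, D.HH_mul_r, D.HH_mul_r, hiso, h1, h1', hτs]
    have e : D.emb (W ^ 2) + D.emb W + 1 = 0 := by
      rw [← map_add, ← map_one D.emb, ← map_add, hW, map_zero]
    rw [hs]
    linear_combination D.HH w₁ w₁ * e
  · rw [D.HH_add_r, D.HH_mul_r, hiso, h1, mul_zero, add_zero]

/-- The powers of the generator. -/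
def pw : Fin 3 → E := ![1, D.ζ, D.ζ ^ 2]

/-- The Gram table of the trace form. -/
def gt : Fin 3 → Fin 3 → F := ![![1, 0, 0], ![0, 0, 1], ![0, 1, 0]]

lemma herm_act_T (k k' : E) (u w : Fin 6 → F) :
    D.emb (hermForm 6 F 2 (D.act k u) (D.act k' w)) = trT (k * (D.τ k' * D.HH u w)) := by
  rw [← D.T_HH, D.HH_mul_r]

lemma gram_same {u : Fin 6 → F} (hu : D.HH u u = 0) (k k' : E) : hermForm 6 F 2 (D.act k u) (D.act k' u) = 0 := by
  apply D.emb.injective
  rw [D.herm_act_T, hu, map_zero]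
  simp [trT]

include D in
lemma T_one : trT (1 : E) = 1 := by
  simp only [trT, one_pow]
  linear_combination D.h2E

lemma T_z1 : trT D.ζ = 0 := by
  have h := D.trT_exp 0 1 0
  simpa using h

lemma T_z2 : trT (D.ζ ^ 2) = 0 := by
  have h := D.trT_exp 0 0 1
  simpa using h

lemma T_z3 : trT (D.ζ ^ 3) = 1 := by
  rw [D.hζ, D.T_add, D.T_z1, D.T_one, zero_add]

lemma T_z4 : trT (D.ζ ^ 4) = 0 := by
  rw [ky4 D.hζ, D.T_add, D.T_z1, D.T_z2, add_zero]

lemma τ_pw (i : Fin 3) : D.τ (D.pw i) = D.pw i := by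
  fin_cases i
  · simp [pw]
  · simp [pw, D.hτζ]
  · simp [pw, D.hτζ]

lemma gram_diff {u w : Fin 6 → F} (huw : D.HH u w = 1) (i j : Fin 3) :
    hermForm 6 F 2 (D.act (D.pw i) u) (D.act (D.pw j) w) = (gt i j : F) := by
  apply D.emb.injective
  rw [D.herm_act_T, huw, mul_one, D.τ_pw]
  have h0 := D.T_one
  have h1 := D.T_z1
  have h2 := D.T_z2
  have h3 := D.T_z3
  have h4 := D.T_z4
  fin_cases i <;> fin_cases j <;> simp [pw, gt] <;>
    first
      | exact h0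
      | exact h1
      | exact h2
      | (rw [← pow_succ', show (2 + 1 : ℕ) = 3 from rfl]; exact h3)
      | (rw [show D.ζ * D.ζ = D.ζ ^ 2 by ring]; exact h2)
      | (rw [show D.ζ * D.ζ ^ 2 = D.ζ ^ 3 by ring]; exact h3)
      | (rw [show D.ζ ^ 2 * D.ζ = D.ζ ^ 3 by ring]; exact h3)
      | (rw [show D.ζ ^ 2 * D.ζ ^ 2 = D.ζ ^ 4 by ring]; exact h4)

/-- The columns of the change of basis. -/
def col (v₁ v₂ : Fin 6 → F) : Fin 6 → Fin 6 → F :=
  ![D.act (D.pw 0) v₁, D.act (D.pw 1) v₁, D.act (D.pw 2) v₁, D.act (D.pw 0) v₂, D.act (D.pw 1) v₂, D.act (D.pw 2) v₂]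

/-- The involution describing the Gram matrix. -/
def prt : Fin 6 → Fin 6 := ![3, 5, 4, 0, 2, 1]

/-- First index. -/
def iaX : Fin 6 → Fin 2 := ![0, 0, 0, 1, 1, 1]

/-- Second index. -/
def ibX : Fin 6 → Fin 3 := ![0, 1, 2, 0, 1, 2]

/-- The support of the Gram table. -/
def gtB : Fin 3 → Fin 3 → Bool := ![![true, false, false], ![false, false, true], ![false, true, false]]

lemma tblX : ∀ i j : Fin 6, (j = prt i) ↔ (iaX i ≠ iaX j ∧ gtB (ibX i) (ibX j) = true) := by decide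

lemma gt_eq (i j : Fin 3) : (gt i j : F) = if gtB i j = true then 1 else 0 := by
  fin_cases i <;> fin_cases j <;> simp [gt, gtB]

lemma col_eq (v₁ v₂ : Fin 6 → F) (i : Fin 6) : D.col v₁ v₂ i = D.act (D.pw (ibX i)) ((![v₁, v₂] : Fin 2 → Fin 6 → F) (iaX i)) := by
  fin_cases i <;> rfl

lemma gram_col {v₁ v₂ : Fin 6 → F} (h1 : D.HH v₁ v₁ = 0) (h2 : D.HH v₂ v₂ = 0) (h3 : D.HH v₁ v₂ = 1) (i j : Fin 6) :
    hermForm 6 F 2 (D.col v₁ v₂ i) (D.col v₁ v₂ j) = if j = prt i then 1 else 0 := by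
  have h3' : D.HH v₂ v₁ = 1 := by
    rw [D.HH_herm v₁ v₂, h3, map_one]
  rw [D.col_eq, D.col_eq]
  by_cases hab : iaX i = iaX j
  · have hn : ¬ j = prt i := fun h => ((tblX i j).1 h).1 hab
    rw [if_neg hn, ← hab]
    apply D.gram_same
    generalize iaX i = a
    fin_cases a
    · exact h1
    · exact h2
  · have hd : D.HH ((![v₁, v₂] : Fin 2 → Fin 6 → F) (iaX i)) ((![v₁, v₂] : Fin 2 → Fin 6 → F) (iaX j)) = 1 := by
      revert hab
      generalize iaX i = a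
      generalize iaX j = b
      intro hab
      fin_cases a <;> fin_cases b
      · exact absurd rfl hab
      · exact h3
      · exact h3'
      · exact absurd rfl hab
    rw [D.gram_diff hd, gt_eq]
    by_cases hj : j = prt i
    · rw [if_pos hj, if_pos ((tblX i j).1 hj).2]
    · rw [if_neg hj, if_neg (fun h => hj ((tblX i j).2 ⟨hab, h⟩))]

end KD

end UK5

end Cfsg.Agent.H28
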