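import Cfsg.Agent.Lib.H28.GUK5

set_option autoImplicit false
set_option linter.style.haveILetI false
set_option linter.unusedSectionVars false
set_option linter.unusedSimpArgs false

namespace Cfsg.Agent.H28

open scoped MatrixGroups Matrix
open Cfsg Cfsg.Geo Cfsg.Agent.H03

section UK6

/-- A block matrix in dimension six with equal diagonal blocks. -/
def blk {F : Type*} [Field F] (a b c : F) : Matrix (Fin 6) (Fin 6) F :=
  !![a, c, b, 0, 0, 0; b, a + c, b + c, 0, 0, 0; c, b, a + c, 0, 0, 0; 0, 0, 0, a, c, b; 0, 0, 0, b, a + c, b + c; 0, 0, 0, c, b, a + c]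

lemma det_blk {F : Type*} [Field F] (h2 : (2 : F) = 0) (a b c : F) : (blk a b c).det = (nrm a b c) ^ 2 := by
  let M : Matrix (Fin 3) (Fin 3) F := !![a, c, b; b, a + c, b + c; c, b, a + c]
  have e : blk a b c = (Matrix.fromBlocks M 0 0 M).submatrix finSumFinEquiv.symm finSumFinEquiv.symm := by
    ext i j
    fin_cases i <;> fin_cases j <;> rfl
  rw [e, Matrix.det_submatrix_equiv_self, Matrix.det_fromBlocks_zero₂₁]
  have h3 : M.det = nrm a b c := by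
    rw [Matrix.det_fin_three]
    simp only [M, nrm, Matrix.of_apply, Matrix.cons_val', Matrix.cons_val_zero, Matrix.cons_val_one, Matrix.cons_val_two, Matrix.empty_val',
      Matrix.cons_val_fin_one, Matrix.head_cons, Matrix.tail_cons, Matrix.head_fin_const]
    linear_combination (a ^ 2 * c - a * b ^ 2 - 2 * a * b * c - b * c ^ 2) * h2
  rw [h3]
  ring

namespace KD

variable {F E : Type*} [Field F] [Field E] [Fintype F] [Fintype E] (D : KD F E) {v₁ v₂ : Fin 6 → F}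

/-- The change of basis matrix. -/
def PM (v₁ v₂ : Fin 6 → F) : Matrix (Fin 6) (Fin 6) F := Matrix.of fun r j => D.col v₁ v₂ j r

lemma PM_single (j : Fin 6) : D.PM v₁ v₂ *ᵥ Pi.single j 1 = D.col v₁ v₂ j := by
  funext r
  simp [PM, Matrix.mulVec_single]

/-- The Gram matrix. -/
def prtM (F : Type*) [Field F] : Matrix (Fin 6) (Fin 6) F := Matrix.of fun i j => if j = prt i then 1 else 0

lemma prt_inv : ∀ i j : Fin 6, i = prt j ↔ j = prt i := by decide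

lemma prt_prt : ∀ i : Fin 6, prt (prt i) = i := by decide

lemma prtM_mulVec (v : Fin 6 → F) : prtM F *ᵥ v = v ∘ prt := by
  funext i
  simp [prtM, Matrix.mulVec, dotProduct]

lemma prtM_sq : prtM F * prtM F = 1 := by
  apply Matrix.ext_iff_mulVec.2
  intro v
  rw [← Matrix.mulVec_mulVec, prtM_mulVec, prtM_mulVec, Matrix.one_mulVec]
  funext i
  simp [prt_prt]

lemma dg_PM (h1 : D.HH v₁ v₁ = 0) (h2 : D.HH v₂ v₂ = 0) (h3 : D.HH v₁ v₂ = 1) : dg6 (D.PM v₁ v₂) * D.PM v₁ v₂ = prtM F := by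
  ext i j
  have e1 : (dg6 (D.PM v₁ v₂) * D.PM v₁ v₂) i j = hermForm 6 F 2 (D.col v₁ v₂ j) (D.col v₁ v₂ i) := by
    simp only [Matrix.mul_apply, dg6, Matrix.transpose_apply, Matrix.map_apply, PM, Matrix.of_apply, hermForm]
    exact Finset.sum_congr rfl fun k _ => mul_comm _ _
  rw [e1, D.gram_col h1 h2 h3]
  simp only [prtM, Matrix.of_apply, prt_inv i j]

/-- The change of basis as an invertible matrix. -/
def PG (h1 : D.HH v₁ v₁ = 0) (h2 : D.HH v₂ v₂ = 0) (h3 : D.HH v₁ v₂ = 1) : GL (Fin 6) F where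
  val := D.PM v₁ v₂
  inv := prtM F * dg6 (D.PM v₁ v₂)
  val_inv := by
    apply mul_eq_one_comm.1
    rw [mul_assoc, D.dg_PM h1 h2 h3, prtM_sq]
  inv_val := by
    rw [mul_assoc, D.dg_PM h1 h2 h3, prtM_sq]

lemma herm_PM (h1 : D.HH v₁ v₁ = 0) (h2 : D.HH v₂ v₂ = 0) (h3 : D.HH v₁ v₂ = 1) (u w : Fin 6 → F) :
    hermForm 6 F 2 (D.PM v₁ v₂ *ᵥ u) (D.PM v₁ v₂ *ᵥ w) = hermForm 6 F 2 u (w ∘ prt) := by
  rw [herm6_dg D.h2 D.h4, Matrix.mulVec_mulVec, D.dg_PM h1 h2 h3, prtM_mulVec]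

lemma PM_mulVec (x : Fin 6 → F) : D.PM v₁ v₂ *ᵥ x =
    D.act (D.emb (x 0) + D.emb (x 1) * D.ζ + D.emb (x 2) * D.ζ ^ 2) v₁ + D.act (D.emb (x 3) + D.emb (x 4) * D.ζ + D.emb (x 5) * D.ζ ^ 2) v₂ := by
  rw [D.act_exp, D.act_exp]
  have c0 : D.col v₁ v₂ 0 = v₁ := D.act_one v₁
  have c1 : D.col v₁ v₂ 1 = D.act D.ζ v₁ := rfl
  have c2 : D.col v₁ v₂ 2 = D.act (D.ζ ^ 2) v₁ := rfl
  have c3 : D.col v₁ v₂ 3 = v₂ := D.act_one v₂
  have c4 : D.col v₁ v₂ 4 = D.act D.ζ v₂ := rfl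
  have c5 : D.col v₁ v₂ 5 = D.act (D.ζ ^ 2) v₂ := rfl
  funext r
  simp only [Matrix.mulVec, dotProduct, Fin.sum_univ_six, PM, Matrix.of_apply, c0, c1, c2, c3, c4, c5, Pi.add_apply, Pi.smul_apply, smul_eq_mul]
  ring

lemma fixed_combo {s₁ s₂ : E} (h₁ : D.τ s₁ = s₁) (h₂ : D.τ s₂ = s₂) :
    ∃ x : Fin 6 → F, (∀ i, x i ^ 2 = x i) ∧ D.act s₁ v₁ + D.act s₂ v₂ = D.PM v₁ v₂ *ᵥ x := by
  obtain ⟨a, b, c, ha, hb, hc, rfl⟩ := D.fixed_exp h₁
  obtain ⟨a', b', c', ha', hb', hc', rfl⟩ := D.fixed_exp h₂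
  refine ⟨![a, b, c, a', b', c'], ?_, ?_⟩
  · intro i
    fin_cases i
    · exact ha
    · exact hb
    · exact hc
    · exact ha'
    · exact hb'
    · exact hc'
  · rw [D.PM_mulVec]
    rfl

lemma exists_comb (h1 : D.HH v₁ v₁ = 0) (h2 : D.HH v₂ v₂ = 0) (h3 : D.HH v₁ v₂ = 1) (u : Fin 6 → F) :
    ∃ k₁ k₂ : E, u = D.act k₁ v₁ + D.act k₂ v₂ := by
  let x : Fin 6 → F := (((D.PG h1 h2 h3)⁻¹ : GL (Fin 6) F) : Matrix (Fin 6) (Fin 6) F) *ᵥ u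
  refine ⟨D.emb (x 0) + D.emb (x 1) * D.ζ + D.emb (x 2) * D.ζ ^ 2, D.emb (x 3) + D.emb (x 4) * D.ζ + D.emb (x 5) * D.ζ ^ 2, ?_⟩
  rw [← D.PM_mulVec]
  show u = ((D.PG h1 h2 h3 : GL (Fin 6) F) : Matrix (Fin 6) (Fin 6) F) *ᵥ ((((D.PG h1 h2 h3)⁻¹ : GL (Fin 6) F) : Matrix (Fin 6) (Fin 6) F) *ᵥ u)
  rw [Matrix.mulVec_mulVec, Units.mul_inv, Matrix.one_mulVec]

lemma HH_comb (h1 : D.HH v₁ v₁ = 0) (h2 : D.HH v₂ v₂ = 0) (h3 : D.HH v₁ v₂ = 1) (a b c d : E) :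
    D.HH (D.act a v₁ + D.act b v₂) (D.act c v₁ + D.act d v₂) = a * D.τ d + b * D.τ c := by
  have h3' : D.HH v₂ v₁ = 1 := by
    rw [D.HH_herm v₁ v₂, h3, map_one]
  simp only [D.HH_add_l, D.HH_add_r, D.HH_mul_l, D.HH_mul_r, h1, h2, h3, h3']
  ring

lemma expand (h1 : D.HH v₁ v₁ = 0) (h2 : D.HH v₂ v₂ = 0) (h3 : D.HH v₁ v₂ = 1) (u : Fin 6 → F) :
    u = D.act (D.HH u v₂) v₁ + D.act (D.HH u v₁) v₂ := by
  obtain ⟨k₁, k₂, hu⟩ := D.exists_comb h1 h2 h3 u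
  have h3' : D.HH v₂ v₁ = 1 := by
    rw [D.HH_herm v₁ v₂, h3, map_one]
  have e₁ : D.HH u v₂ = k₁ := by
    rw [hu]
    simp only [D.HH_add_l, D.HH_mul_l, h2, h3]
    ring
  have e₂ : D.HH u v₁ = k₂ := by
    rw [hu]
    simp only [D.HH_add_l, D.HH_mul_l, h1, h3']
    ring
  rw [e₁, e₂]
  exact hu

lemma rho_blk (a b c : F) : D.ρ (D.emb a + D.emb b * D.ζ + D.emb c * D.ζ ^ 2) * D.PM v₁ v₂ = D.PM v₁ v₂ * blk a b c := by
  apply Matrix.ext_iff_mulVec.2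
  intro y
  rw [← Matrix.mulVec_mulVec, ← Matrix.mulVec_mulVec, D.PM_mulVec, D.PM_mulVec]
  have eb : ∀ i, (blk a b c *ᵥ y) i = (blk a b c *ᵥ y) i := fun _ => rfl
  have e0 : (blk a b c *ᵥ y) 0 = a * y 0 + c * y 1 + b * y 2 := by
    simp [blk, Matrix.mulVec, dotProduct, Fin.sum_univ_six]
  have e1 : (blk a b c *ᵥ y) 1 = b * y 0 + (a + c) * y 1 + (b + c) * y 2 := by
    simp [blk, Matrix.mulVec, dotProduct, Fin.sum_univ_six]
  have e2 : (blk a b c *ᵥ y) 2 = c * y 0 + b * y 1 + (a + c) * y 2 := by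
    simp [blk, Matrix.mulVec, dotProduct, Fin.sum_univ_six]
  have e3 : (blk a b c *ᵥ y) 3 = a * y 3 + c * y 4 + b * y 5 := by
    simp [blk, Matrix.mulVec, dotProduct, Fin.sum_univ_six]
  have e4 : (blk a b c *ᵥ y) 4 = b * y 3 + (a + c) * y 4 + (b + c) * y 5 := by
    simp [blk, Matrix.mulVec, dotProduct, Fin.sum_univ_six]
  have e5 : (blk a b c *ᵥ y) 5 = c * y 3 + b * y 4 + (a + c) * y 5 := by
    simp [blk, Matrix.mulVec, dotProduct, Fin.sum_univ_six]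
  rw [e0, e1, e2, e3, e4, e5]
  have hprod : ∀ p q r : F, (D.emb a + D.emb b * D.ζ + D.emb c * D.ζ ^ 2) * (D.emb p + D.emb q * D.ζ + D.emb r * D.ζ ^ 2) =
      D.emb (a * p + c * q + b * r) + D.emb (b * p + (a + c) * q + (b + c) * r) * D.ζ + D.emb (c * p + b * q + (a + c) * r) * D.ζ ^ 2 := by
    intro p q r
    simp only [map_add, map_mul]
    linear_combination (D.emb b * D.emb r + D.emb c * D.emb q + D.emb c * D.emb r * D.ζ) * D.hζ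
  rw [← hprod, ← hprod]
  show D.ρ _ *ᵥ (D.act _ v₁ + D.act _ v₂) = _
  rw [Matrix.mulVec_add]
  simp only [act, Matrix.mulVec_mulVec, map_mul]

lemma det_rho (h1 : D.HH v₁ v₁ = 0) (h2 : D.HH v₂ v₂ = 0) (h3 : D.HH v₁ v₂ = 1) (a b c : F) :
    (D.ρ (D.emb a + D.emb b * D.ζ + D.emb c * D.ζ ^ 2)).det = (nrm a b c) ^ 2 := by
  have h5 := congrArg Matrix.det (D.rho_blk (v₁ := v₁) (v₂ := v₂) a b c)
  rw [Matrix.det_mul, Matrix.det_mul, det_blk D.h2] at h5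
  have hne : (D.PM v₁ v₂).det ≠ 0 := by
    have := (Matrix.isUnit_iff_isUnit_det _).1 (D.PG h1 h2 h3).isUnit
    exact this.ne_zero
  rw [mul_comm] at h5
  exact mul_left_cancel₀ hne h5

end KD

end UK6

end Cfsg.Agent.H28
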