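import Cfsg.Agent.Lib.H28.GUK6

set_option autoImplicit false
set_option linter.style.haveILetI false
set_option linter.unusedSectionVars false
set_option linter.unusedSimpArgs false

namespace Cfsg.Agent.H28

open scoped MatrixGroups Matrix
open Cfsg Cfsg.Geo Cfsg.Agent.H03

section UK7

lemma core_rel {R : Type*} [CommRing R] (h2 : (2 : R) = 0) {α β γ δ α' β' γ' δ' : R} (r1 : α * β' + β * α' = 0)
    (r2 : γ * δ' + δ * γ' = 0) (r3 : α * δ' + β * γ' = 1) (r4 : α' * δ + β' * γ = 1) :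
    α' * (α * δ + β * γ) = α ∧ β' * (α * δ + β * γ) = β ∧ γ' * (α * δ + β * γ) = γ ∧ δ' * (α * δ + β * γ) = δ := by
  refine ⟨?_, ?_, ?_, ?_⟩
  · linear_combination α * r4 + γ * r1 - α * β' * γ * h2
  · linear_combination β * r4 + δ * r1 - β * α' * δ * h2
  · linear_combination γ * r3 + α * r2 - α * γ * δ' * h2
  · linear_combination δ * r3 + β * r2 - β * δ * γ' * h2

namespace KD

variable {F E : Type*} [Field F] [Field E] [Fintype F] [Fintype E] (D : KD F E) {v₁ v₂ : Fin 6 → F}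

variable {g : GL (Fin 6) F} {η : E →+* E}

lemma eta_emb (hη : ∀ k, D.ρ (η k) * (g : Matrix (Fin 6) (Fin 6) F) = (g : Matrix (Fin 6) (Fin 6) F) * D.ρ k) (a : F) :
    η (D.emb a) = D.emb a := by
  apply D.ρ.injective
  have h5 := hη (D.emb a)
  rw [D.hemb, Matrix.mul_smul, mul_one, ← one_mul (g : Matrix (Fin 6) (Fin 6) F), ← Matrix.smul_mul, one_mul] at h5
  rw [D.hemb]
  exact (Units.mul_left_inj g).1 h5

lemma eta_act (hη : ∀ k, D.ρ (η k) * (g : Matrix (Fin 6) (Fin 6) F) = (g : Matrix (Fin 6) (Fin 6) F) * D.ρ k) (k : E) (u : Fin 6 → F) :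
    (g : Matrix (Fin 6) (Fin 6) F) *ᵥ D.act k u = D.act (η k) ((g : Matrix (Fin 6) (Fin 6) F) *ᵥ u) := by
  simp only [act, Matrix.mulVec_mulVec, hη]

include D in
lemma herm_g (hU : dg6 (g : Matrix (Fin 6) (Fin 6) F) * (g : Matrix (Fin 6) (Fin 6) F) = 1) (u w : Fin 6 → F) :
    hermForm 6 F 2 ((g : Matrix (Fin 6) (Fin 6) F) *ᵥ u) ((g : Matrix (Fin 6) (Fin 6) F) *ᵥ w) = hermForm 6 F 2 u w := by
  rw [herm6_dg D.h2 D.h4, Matrix.mulVec_mulVec, hU, Matrix.one_mulVec]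

lemma HH_g (hU : dg6 (g : Matrix (Fin 6) (Fin 6) F) * (g : Matrix (Fin 6) (Fin 6) F) = 1)
    (hη : ∀ k, D.ρ (η k) * (g : Matrix (Fin 6) (Fin 6) F) = (g : Matrix (Fin 6) (Fin 6) F) * D.ρ k) (u w : Fin 6 → F) :
    D.HH ((g : Matrix (Fin 6) (Fin 6) F) *ᵥ u) ((g : Matrix (Fin 6) (Fin 6) F) *ᵥ w) = η (D.HH u w) := by
  refine (D.HH_unique (fun k => ?_)).symm
  have hsurj : Function.Surjective η := Finite.injective_iff_surjective.1 η.injective
  obtain ⟨k', rfl⟩ := hsurj k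
  rw [← map_mul, trT_map, D.T_HH, D.eta_emb hη, ← D.eta_act hη, D.herm_g hU]

lemma eta_tau (hU : dg6 (g : Matrix (Fin 6) (Fin 6) F) * (g : Matrix (Fin 6) (Fin 6) F) = 1)
    (hη : ∀ k, D.ρ (η k) * (g : Matrix (Fin 6) (Fin 6) F) = (g : Matrix (Fin 6) (Fin 6) F) * D.ρ k) (k : E) :
    D.τ (η k) = η (D.τ k) := by
  apply D.ρ.injective
  set G : Matrix (Fin 6) (Fin 6) F := (g : Matrix (Fin 6) (Fin 6) F) with hG
  have hU' : G * dg6 G = 1 := mul_eq_one_comm.1 hU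
  have hform : ∀ k', D.ρ (η k') = G * D.ρ k' * dg6 G := by
    intro k'
    calc D.ρ (η k') = D.ρ (η k') * (G * dg6 G) := by rw [hU', mul_one]
      _ = (D.ρ (η k') * G) * dg6 G := by rw [mul_assoc]
      _ = G * D.ρ k' * dg6 G := by rw [hη k']
  rw [D.hτ, hform, hform, D.hτ, dg6_mul D.h2, dg6_mul D.h2, dg6_dg D.h4, mul_assoc]


/-- The normaliser of the field lies in the subfield subgroup. -/
theorem main_sub {W : F} (hW : W ^ 2 + W + 1 = 0) (h1 : D.HH v₁ v₁ = 0) (h2 : D.HH v₂ v₂ = 0) (h3 : D.HH v₁ v₂ = 1)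
    {F₀ : Subfield F} (hF₀ : ∀ x, x ∈ F₀ ↔ x ^ 2 = x)
    (hU : dg6 (g : Matrix (Fin 6) (Fin 6) F) * (g : Matrix (Fin 6) (Fin 6) F) = 1) (hdet : (g : Matrix (Fin 6) (Fin 6) F).det = 1)
    (hη : ∀ k, D.ρ (η k) * (g : Matrix (Fin 6) (Fin 6) F) = (g : Matrix (Fin 6) (Fin 6) F) * D.ρ k) :
    g ∈ subfieldSubgroup F₀ (D.PG h1 h2 h3) := by
  classical
  set G : Matrix (Fin 6) (Fin 6) F := (g : Matrix (Fin 6) (Fin 6) F) with hG
  have h2E := D.h2E
  obtain ⟨α, β, e1⟩ : ∃ α β : E, G *ᵥ v₁ = D.act α v₁ + D.act β v₂ := ⟨_, _, D.expand h1 h2 h3 _⟩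
  obtain ⟨γ, δ, e2⟩ : ∃ γ δ : E, G *ᵥ v₂ = D.act γ v₁ + D.act δ v₂ := ⟨_, _, D.expand h1 h2 h3 _⟩
  have r1 : α * D.τ β + β * D.τ α = 0 := by
    have h5 := D.HH_g hU hη v₁ v₁
    rw [← hG, e1, D.HH_comb h1 h2 h3, h1, map_zero] at h5
    exact h5
  have r2 : γ * D.τ δ + δ * D.τ γ = 0 := by
    have h5 := D.HH_g hU hη v₂ v₂
    rw [← hG, e2, D.HH_comb h1 h2 h3, h2, map_zero] at h5
    exact h5
  have r3 : α * D.τ δ + β * D.τ γ = 1 := by
    have h5 := D.HH_g hU hη v₁ v₂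
    rw [← hG, e1, e2, D.HH_comb h1 h2 h3, h3, map_one] at h5
    exact h5
  have r4 : D.τ α * δ + D.τ β * γ = 1 := by
    have h5 := congrArg D.τ r3
    rw [map_add, map_mul, map_mul, D.τ_τ, D.τ_τ, map_one] at h5
    exact h5
  obtain ⟨c1, c2, c3, c4⟩ := core_rel h2E r1 r2 r3 r4
  set Dt : E := α * δ + β * γ with hDt
  have hτD : D.τ Dt = D.τ α * D.τ δ + D.τ β * D.τ γ := by
    rw [hDt, map_add, map_mul, map_mul]
  have hDD : D.τ Dt * Dt = 1 := by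
    rw [hτD]
    linear_combination D.τ δ * c1 + D.τ γ * c2 + r3
  have hD9 : Dt ^ 9 = 1 := by
    have h5 := hDD
    rw [D.τ_pow8] at h5
    rw [← h5]
    ring
  let μ : E := Dt ^ 4
  have hμ9 : μ ^ 9 = 1 := by
    simp only [μ]
    calc (Dt ^ 4) ^ 9 = (Dt ^ 9) ^ 4 := by ring
      _ = 1 := by rw [hD9, one_pow]
  have hτμ : D.τ μ = Dt ^ 5 := by
    simp only [μ]
    rw [map_pow, D.τ_pow8]
    calc (Dt ^ 8) ^ 4 = (Dt ^ 9) ^ 3 * Dt ^ 5 := by ring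
      _ = Dt ^ 5 := by rw [hD9, one_pow, one_mul]
  have hfix : ∀ x : E, D.τ x * Dt = x → D.τ (μ * x) = μ * x := by
    intro x hx
    rw [map_mul, hτμ]
    simp only [μ]
    calc Dt ^ 5 * D.τ x = Dt ^ 4 * (D.τ x * Dt) := by ring
      _ = Dt ^ 4 * x := by rw [hx]
  have hμ0 : μ ≠ 0 := by
    intro h0
    rw [h0, zero_pow (by norm_num)] at hμ9
    exact zero_ne_one hμ9
  -- the rational matrix
  let G' : Matrix (Fin 6) (Fin 6) F := D.ρ μ * G
  have hstep : ∀ {v : Fin 6 → F} {s₁ s₂ : E}, D.τ s₁ = s₁ → D.τ s₂ = s₂ → D.act μ (G *ᵥ v) = D.act s₁ v₁ + D.act s₂ v₂ →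
      ∀ i : Fin 3, ∃ x : Fin 6 → F, (∀ r, x r ^ 2 = x r) ∧ G' *ᵥ D.act (D.pw i) v = D.PM v₁ v₂ *ᵥ x := by
    intro v s₁ s₂ h₁ h₂ he i
    have hp : D.τ (η (D.pw i)) = η (D.pw i) := by
      rw [D.eta_tau hU hη, D.τ_pw]
    have e3 : G' *ᵥ D.act (D.pw i) v = D.act (η (D.pw i) * s₁) v₁ + D.act (η (D.pw i) * s₂) v₂ := by
      have e4 : G' *ᵥ D.act (D.pw i) v = D.act μ (G *ᵥ D.act (D.pw i) v) := by
        simp only [G', act, Matrix.mulVec_mulVec, mul_assoc]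
      rw [e4, hG, D.eta_act hη, ← D.act_mul, mul_comm μ, D.act_mul, ← hG, he, D.act_add, ← D.act_mul, ← D.act_mul]
    rw [e3]
    exact D.fixed_combo (by rw [map_mul, hp, h₁]) (by rw [map_mul, hp, h₂])
  have he1 : D.act μ (G *ᵥ v₁) = D.act (μ * α) v₁ + D.act (μ * β) v₂ := by
    rw [e1, D.act_add, D.act_mul, D.act_mul]
  have he2 : D.act μ (G *ᵥ v₂) = D.act (μ * γ) v₁ + D.act (μ * δ) v₂ := by
    rw [e2, D.act_add, D.act_mul, D.act_mul]
  have hcol : ∀ j : Fin 6, ∃ x : Fin 6 → F, (∀ r, x r ^ 2 = x r) ∧ G' *ᵥ D.col v₁ v₂ j = D.PM v₁ v₂ *ᵥ x := by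
    intro j
    rw [D.col_eq]
    generalize hb : ibX j = b
    generalize ha : iaX j = a
    fin_cases a
    · exact hstep (hfix _ c1) (hfix _ c2) he1 b
    · exact hstep (hfix _ c3) (hfix _ c4) he2 b
  let P := D.PG h1 h2 h3
  have hPv : (P : Matrix (Fin 6) (Fin 6) F) = D.PM v₁ v₂ := rfl
  let Pi' : Matrix (Fin 6) (Fin 6) F := ((P⁻¹ : GL (Fin 6) F) : Matrix (Fin 6) (Fin 6) F)
  have hPP' : Pi' * D.PM v₁ v₂ = 1 := Units.inv_mul P
  have hP'P : D.PM v₁ v₂ * Pi' = 1 := Units.mul_inv P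
  let R : Matrix (Fin 6) (Fin 6) F := Pi' * G' * D.PM v₁ v₂
  have hR : ∀ i j, R i j ^ 2 = R i j := by
    intro i j
    obtain ⟨x, hx, hxe⟩ := hcol j
    have e3 : R *ᵥ Pi.single j 1 = x := by
      simp only [R]
      rw [← Matrix.mulVec_mulVec, D.PM_single, ← Matrix.mulVec_mulVec, hxe, Matrix.mulVec_mulVec, hPP', Matrix.one_mulVec]
    have e4 := congrFun e3 i
    have e5 : (R *ᵥ Pi.single j 1) i = R i j := by
      simp [Matrix.mulVec_single]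
    rw [e5] at e4
    rw [e4]
    exact hx i
  have hdetR : R.det = (D.ρ μ).det := by
    simp only [R, G']
    rw [Matrix.det_mul, Matrix.det_mul, Matrix.det_mul, hdet, mul_one]
    have h5 : Pi'.det * (D.PM v₁ v₂).det = 1 := by
      rw [← Matrix.det_mul, hPP', Matrix.det_one]
    calc Pi'.det * (D.ρ μ).det * (D.PM v₁ v₂).det = (Pi'.det * (D.PM v₁ v₂).det) * (D.ρ μ).det := by ring
      _ = (D.ρ μ).det := by rw [h5, one_mul]
  have hdetne : (D.ρ μ).det ≠ 0 := by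
    intro h0
    have h5 : D.ρ μ * D.ρ μ⁻¹ = 1 := by
      rw [← map_mul, mul_inv_cancel₀ hμ0, map_one]
    have h6 := congrArg Matrix.det h5
    rw [Matrix.det_mul, h0, zero_mul, Matrix.det_one] at h6
    exact zero_ne_one h6
  have hsqdet : (D.ρ μ).det ^ 2 = (D.ρ μ).det := by
    rw [← hdetR]
    have h5 := RingHom.map_det (frH D.h2) R
    have h6 : (frH D.h2).mapMatrix R = R := by
      ext i j
      exact hR i j
    rw [h6] at h5
    exact h5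
  have hdet1 : (D.ρ μ).det = 1 := by
    have h5 : (D.ρ μ).det * ((D.ρ μ).det - 1) = 0 := by linear_combination hsqdet
    rcases mul_eq_zero.1 h5 with h6 | h6
    · exact absurd h6 hdetne
    · exact sub_eq_zero.1 h6
  obtain ⟨a, b, c, hμexp⟩ := D.hexp μ
  have hN : nrm a b c = 1 := by
    have h5 := D.det_rho h1 h2 h3 a b c
    rw [← hμexp, hdet1] at h5
    have h6 : (nrm a b c - 1) ^ 2 = 0 := by
      linear_combination -h5 + (1 - nrm a b c) * D.h2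
    exact sub_eq_zero.1 (pow_eq_zero_iff (two_ne_zero) |>.1 h6)
  have hμ3 : μ ^ 3 = 1 := by
    have h5 : μ ^ 21 = D.emb (nrm a b c) := by
      rw [hμexp, pow21_gen h2E D.hζ (D.emb4 a) (D.emb4 b) (D.emb4 c)]
      simp only [nrm, map_add, map_mul, map_pow]
    rw [hN, map_one] at h5
    calc μ ^ 3 = (μ ^ 9) ^ 2 * μ ^ 3 := by rw [hμ9, one_pow, one_mul]
      _ = μ ^ 21 := by ring
      _ = 1 := h5
  have hWE : (D.emb W) ^ 2 + D.emb W + 1 = 0 := by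
    rw [← map_pow, ← map_add, ← map_one D.emb, ← map_add, hW, map_zero]
  have hneg : ∀ t : E, μ + t = 0 → μ = t := fun t ht => D.eq_of_add _ _ ht
  have hz := cube_ring h2E hWE hμ3
  obtain ⟨c', hc'⟩ : ∃ c' : F, μ = D.emb c' := by
    rcases mul_eq_zero.1 hz with hz | hz
    · rcases mul_eq_zero.1 hz with hz | hz
      · exact ⟨1, by rw [map_one]; exact hneg _ hz⟩
      · exact ⟨W, hneg _ hz⟩
    · exact ⟨W ^ 2, by rw [map_pow]; exact hneg _ hz⟩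
  have hc'0 : c' ≠ 0 := by
    rintro rfl
    rw [map_zero] at hc'
    exact hμ0 hc'
  rw [mem_subfieldSubgroup]
  refine ⟨Units.mk0 c' hc'0, fun i j => (hF₀ _).2 ?_⟩
  have e5 : R = c' • (((P⁻¹ : GL (Fin 6) F) : Matrix (Fin 6) (Fin 6) F) * G * (P : Matrix (Fin 6) (Fin 6) F)) := by
    simp only [R, G']
    rw [hc', D.hemb, Matrix.smul_mul, one_mul, Matrix.mul_smul, Matrix.smul_mul, hPv]
  have e6 := hR i j
  rw [e5, Matrix.smul_apply, smul_eq_mul] at e6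
  exact e6

end KD

end UK7

end Cfsg.Agent.H28
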