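import Cfsg.Agent.Lib.H28.GUK7

set_option autoImplicit false
set_option linter.style.haveILetI false
set_option linter.unusedSectionVars false
set_option linter.unusedSimpArgs false

namespace Cfsg.Agent.H28

open scoped MatrixGroups Matrix
open Cfsg Cfsg.Geo Cfsg.Agent.H03

section UK8

lemma exists_root7 {R : Type*} [Field R] (h2 : (2 : R) = 0) {z : R} (hz : z ^ 7 = 1) (hz1 : z ≠ 1) : ∃ y : R, y ^ 3 = y + 1 := by
  have hz0 : z ≠ 0 := by
    rintro rfl
    rw [zero_pow (by norm_num)] at hz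
    exact zero_ne_one hz
  have e : (z - 1) * ((z ^ 3 + z + 1) * (z ^ 3 + z ^ 2 + 1)) = 0 := by
    linear_combination hz + (z ^ 4 - z ^ 3) * h2
  have h3 := (mul_eq_zero.1 e).resolve_left (sub_ne_zero.2 hz1)
  rcases mul_eq_zero.1 h3 with h5 | h5
  · exact ⟨z, by linear_combination h5 - (z + 1) * h2⟩
  · refine ⟨z⁻¹, ?_⟩
    have h6 : z ^ 3 * (z⁻¹ ^ 3 - z⁻¹ - 1) = 0 := by
      have e1 : z * z⁻¹ = 1 := mul_inv_cancel₀ hz0
      have e2 : z ^ 3 * z⁻¹ ^ 3 = 1 := by rw [← mul_pow, e1, one_pow]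
      have e3 : z ^ 3 * z⁻¹ = z ^ 2 := by
        calc z ^ 3 * z⁻¹ = z ^ 2 * (z * z⁻¹) := by ring
          _ = z ^ 2 := by rw [e1, mul_one]
      linear_combination e2 - e3 + h5 - (z ^ 3 + z ^ 2) * h2
    have h7 := (mul_eq_zero.1 h6).resolve_left (pow_ne_zero _ hz0)
    linear_combination h7

lemma root_factor {R : Type*} [CommRing R] (h2 : (2 : R) = 0) {t y : R} (ht : t ^ 3 = t + 1) (hy : y ^ 3 = y + 1) :
    (t + y) * (t + y ^ 2) * (t + y ^ 2 + y) = 0 := by
  linear_combination ht + (t * y + 3 * t + y ^ 2 + y + 1) * hy + (t ^ 2 * y ^ 2 + t ^ 2 * y + t * y ^ 2 + 2 * t * y + 2 * t + y ^ 2 + y + 1) * h2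

lemma exp_zero {F E : Type*} [Field F] [Field E] (emb : F →+* E) (h4 : ∀ c : F, c ^ 4 = c) (h2 : (2 : E) = 0) {y : E} (hy : y ^ 3 = y + 1)
    {a b c : F} (h : emb a + emb b * y + emb c * y ^ 2 = 0) : a = 0 ∧ b = 0 ∧ c = 0 := by
  have h4E : ∀ a : F, emb a ^ 4 = emb a := fun a => by rw [← map_pow, h4]
  have hT0 : trT (0 : E) = 0 := by simp [trT]
  have h1 : emb a = 0 := by
    rw [← trT_gen h2 hy (h4E a) (h4E b) (h4E c), h, hT0]
  have h3 : emb c = 0 := by
    have e : y * (emb a + emb b * y + emb c * y ^ 2) = emb c + emb (a + c) * y + emb b * y ^ 2 := by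
      rw [map_add]
      linear_combination emb c * hy
    have h5 := trT_gen h2 hy (h4E c) (h4E (a + c)) (h4E b)
    rw [← e, h, mul_zero, hT0] at h5
    exact h5.symm
  have h5 : emb b = 0 := by
    have e : y ^ 2 * (emb a + emb b * y + emb c * y ^ 2) = emb b + emb (b + c) * y + emb (a + c) * y ^ 2 := by
      rw [map_add, map_add]
      linear_combination (emb b + emb c * y) * hy
    have h6 := trT_gen h2 hy (h4E b) (h4E (b + c)) (h4E (a + c))
    rw [← e, h, mul_zero, hT0] at h6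
    exact h6.symm
  exact ⟨(map_eq_zero emb).1 h1, (map_eq_zero emb).1 h5, (map_eq_zero emb).1 h3⟩

lemma tau_fix_root {E : Type*} [Field E] (h2 : (2 : E) = 0) (τ : E →+* E) (hττ : ∀ k, τ (τ k) = k) {y : E} (hy : y ^ 3 = y + 1) : τ y = y := by
  have hy0 : y ≠ 0 := by
    rintro rfl
    simp at hy
  have hy1 : y ≠ 1 := by
    rintro rfl
    have : (1 : E) = 0 := by linear_combination hy + h2
    exact one_ne_zero this
  have ht : (τ y) ^ 3 = τ y + 1 := by
    rw [← map_pow, hy, map_add, map_one]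
  have hneg : ∀ a b : E, a + b = 0 → a = b := fun a b h => by linear_combination h - b * h2
  have hf := root_factor h2 ht hy
  rcases mul_eq_zero.1 hf with hf | hf
  · rcases mul_eq_zero.1 hf with hf | hf
    · exact hneg _ _ hf
    · exfalso
      have h5 : τ y = y ^ 2 := hneg _ _ hf
      have h6 : y = y ^ 2 + y := by
        calc y = τ (τ y) := (hττ y).symm
          _ = (τ y) ^ 2 := by rw [h5, map_pow, h5]
          _ = y ^ 4 := by rw [h5]; ring
          _ = y ^ 2 + y := ky4 hy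
      have h7 : y ^ 2 = 0 := by linear_combination -h6
      exact hy0 (pow_eq_zero_iff (two_ne_zero) |>.1 h7)
  · exfalso
    have h5 : τ y = y ^ 2 + y := by
      have h6 : τ y + (y ^ 2 + y) = 0 := by linear_combination hf
      exact hneg _ _ h6
    have h6 : y = y ^ 2 := by
      calc y = τ (τ y) := (hττ y).symm
        _ = (τ y) ^ 2 + τ y := by rw [h5, map_add, map_pow, h5]
        _ = (y ^ 2 + y) ^ 2 + (y ^ 2 + y) := by rw [h5]
        _ = y ^ 4 + y ^ 2 + y + 2 * y ^ 3 + y ^ 2 := by ring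
        _ = y ^ 2 := by
          rw [ky4 hy]
          linear_combination (y ^ 3 + y ^ 2 + y) * h2
    have h7 : y * (y - 1) = 0 := by linear_combination -h6
    rcases mul_eq_zero.1 h7 with h8 | h8
    · exact hy0 h8
    · exact hy1 (sub_eq_zero.1 h8)

variable {F : Type*} [Field F] [Fintype F] {K : Subalgebra F (Matrix (Fin 6) (Fin 6) F)}

/-- The normaliser of an adjoint-closed cubic field in the unitary group in dimension six over the field with four elements is a subfield group of symplectic type. -/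
theorem su62_K (hF : Fintype.card F = 4) (hK : IsFieldSubalgebra 3 K) (hadj : IsAdjointClosedFor (hermForm 6 F 2) K)
    (hH : IsMaximalIn (GU 6 F 2 ⊓ specialLinear (Fin 6) F) (subalgebraNormalizer K ⊓ (GU 6 F 2 ⊓ specialLinear (Fin 6) F))) :
    ∃ (F₀ : Subfield F) (P : GL (Fin 6) F) (ζ : F), Fintype.card F = Nat.card F₀ ^ 2 ∧ ζ ≠ 0 ∧ ζ + ζ ^ 2 = 0 ∧
      IsFormRationalStructure (hermForm 6 F 2) F₀ ζ P ∧
      (∀ u : Fin 6 → F, (∀ i, u i ∈ F₀) → hermForm 6 F 2 ((P : Matrix (Fin 6) (Fin 6) F) *ᵥ u) ((P : Matrix (Fin 6) (Fin 6) F) *ᵥ u) = 0) ∧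
      subalgebraNormalizer K ⊓ (GU 6 F 2 ⊓ specialLinear (Fin 6) F) = subfieldSubgroup F₀ P ⊓ (GU 6 F 2 ⊓ specialLinear (Fin 6) F) := by
  classical
  let e₀ : GF4 ≃+* F := (equivGF4 hF).symm
  have h2 : (2 : F) = 0 := two_eq_zero_e e₀
  have h4 : ∀ c : F, c ^ 4 = c := fun c => by
    have := FiniteField.pow_card c
    rwa [hF] at this
  have hW := w_eq_e e₀
  set W := e₀ GF4.w with hWdef
  -- the subfield of order two
  obtain ⟨p, hchar, n, hpp, hn⟩ := FiniteField.card' F
  have hp2 : p = 2 := by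
    rw [hF] at hn
    have h6 : p ∣ 2 ^ 2 := by
      rw [show 2 ^ 2 = 4 by norm_num, hn]
      exact dvd_pow_self p n.pos.ne'
    exact (Nat.prime_dvd_prime_iff_eq hpp Nat.prime_two).1 (hpp.dvd_of_dvd_pow h6)
  subst hp2
  haveI := hchar
  haveI : Fact (Nat.Prime 2) := ⟨Nat.prime_two⟩
  have hcard4 : Fintype.card F = 2 ^ 2 := by rw [hF]; norm_num
  have hcard4' : Fintype.card F = (2 ^ 1) ^ 2 := by rw [hF]; norm_num
  have hF₀c := card_fixedSub (F := F) 2 1 2 (by norm_num) (by norm_num) hcard4'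
  have hne := fixedSub_ne_top (F := F) 2 1 2 (by norm_num) (by norm_num) hcard4
  let F₀ : Subfield F := fixedSub F 2 1
  have hF₀ : ∀ x, x ∈ F₀ ↔ x ^ 2 = x := by
    intro x
    have h5 := mem_fixedSub (F := F) 2 1 (x := x)
    rw [pow_one] at h5
    exact h5
  obtain ⟨σ, hS⟩ := exists_hs (q := 2) hcard4
  -- the field
  letI : Field K := (IsFieldSubalgebra.isField hK).toField
  haveI : Fintype K := Fintype.ofFinite K
  have hcardK : Fintype.card K = 64 := by
    have h1 := Module.natCard_eq_pow_finrank (K := F) (V := K)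
    rw [hK.finrank_eq, Nat.card_eq_fintype_card, Nat.card_eq_fintype_card, hF] at h1
    rw [h1]
    norm_num
  let ρ : K →+* Matrix (Fin 6) (Fin 6) F :=
    { toFun := Subtype.val
      map_one' := rfl
      map_mul' := fun _ _ => rfl
      map_zero' := rfl
      map_add' := fun _ _ => rfl }
  have hinj : Function.Injective ρ := Subtype.val_injective
  let emb : F →+* K :=
    { toFun := fun a => ⟨algebraMap F (Matrix (Fin 6) (Fin 6) F) a, K.algebraMap_mem a⟩
      map_one' := Subtype.ext (map_one _)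
      map_mul' := fun a b => Subtype.ext (map_mul _ a b)
      map_zero' := Subtype.ext (map_zero _)
      map_add' := fun a b => Subtype.ext (map_add _ a b) }
  have hemb : ∀ a, ρ (emb a) = a • (1 : Matrix (Fin 6) (Fin 6) F) := fun a => Algebra.algebraMap_eq_smul_one a
  have h2K : (2 : K) = 0 := by
    have := map_ofNat emb 2
    rw [← this, h2, map_zero]
  have hdgK : ∀ k ∈ K, dg6 k ∈ K := by
    intro k hk
    obtain ⟨k', hk', hkk⟩ := hadj k hk
    rw [← dg6_of_adj h2 h4 hkk]
    exact hk'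
  let τ : K →+* K :=
    { toFun := fun k => ⟨dg6 k.1, hdgK _ k.2⟩
      map_one' := Subtype.ext (dg6_one h2)
      map_mul' := fun a b => Subtype.ext (by
        show dg6 (a.1 * b.1) = dg6 a.1 * dg6 b.1
        rw [dg6_mul h2]
        exact hK.comm _ (hdgK _ b.2) _ (hdgK _ a.2))
      map_zero' := Subtype.ext (by
        ext i j
        simp [dg6])
      map_add' := fun a b => Subtype.ext (dg6_add h2 _ _) }
  have hττ : ∀ k, τ (τ k) = k := fun k => Subtype.ext (dg6_dg h4 _)
  -- the generator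
  haveI : Fact (Nat.Prime 7) := ⟨by norm_num⟩
  have hc : 7 ∣ Fintype.card Kˣ := by
    rw [Fintype.card_units, hcardK]
    norm_num
  obtain ⟨x, hx⟩ := exists_prime_orderOf_dvd_card 7 hc
  have hx7 : (x : K) ^ 7 = 1 := by
    rw [← Units.val_pow_eq_pow_val, ← hx, pow_orderOf_eq_one, Units.val_one]
  have hxne : (x : K) ≠ 1 := by
    intro h
    have h5 : x = 1 := Units.ext h
    rw [h5, orderOf_one] at hx
    omega
  obtain ⟨y, hy⟩ := exists_root7 h2K hx7 hxne
  have hτy := tau_fix_root h2K τ hττ hy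
  have hexp : ∀ z : K, ∃ a b c, z = emb a + emb b * y + emb c * y ^ 2 := by
    let φ : F × F × F → K := fun t => emb t.1 + emb t.2.1 * y + emb t.2.2 * y ^ 2
    have hφ : Function.Injective φ := by
      rintro ⟨a, b, c⟩ ⟨a', b', c'⟩ h
      have h5 : emb (a - a') + emb (b - b') * y + emb (c - c') * y ^ 2 = 0 := by
        have h6 : emb a + emb b * y + emb c * y ^ 2 = emb a' + emb b' * y + emb c' * y ^ 2 := h
        rw [map_sub, map_sub, map_sub]
        linear_combination h6
      obtain ⟨h6, h7, h8⟩ := exp_zero emb h4 h2K hy h5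
      rw [sub_eq_zero.1 h6, sub_eq_zero.1 h7, sub_eq_zero.1 h8]
    have hbij : Function.Bijective φ := by
      rw [Fintype.bijective_iff_injective_and_card]
      refine ⟨hφ, ?_⟩
      rw [hcardK, Fintype.card_prod, Fintype.card_prod, hF]
    intro z
    obtain ⟨⟨a, b, c⟩, h⟩ := hbij.2 z
    exact ⟨a, b, c, h.symm⟩
  let D : KD F K :=
    { ρ := ρ
      emb := emb
      τ := τ
      ζ := y
      h2 := h2
      h4 := h4
      hemb := hemb
      hτ := fun k => rfl
      hτemb := fun a => by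
        apply Subtype.ext
        show dg6 (ρ (emb a)) = ρ (emb (a ^ 2))
        rw [hemb, hemb, dg6_smul, dg6_one h2]
      hτζ := hτy
      hζ := hy
      hexp := hexp }
  obtain ⟨v₁, v₂, h1, h3, h5⟩ := D.exists_hyp hF hcardK hW
  let P := D.PG h1 h3 h5
  have hPv : (P : Matrix (Fin 6) (Fin 6) F) = D.PM v₁ v₂ := rfl
  have hle : subalgebraNormalizer K ⊓ (GU 6 F 2 ⊓ specialLinear (Fin 6) F) ≤ subfieldSubgroup F₀ P := by
    rintro g ⟨hgN, hgS⟩
    have hU := (gu6_iff h2 h4).1 hgS.1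
    have hdet := mem_sl6_iff.1 hgS.2
    set G : Matrix (Fin 6) (Fin 6) F := (g : Matrix (Fin 6) (Fin 6) F) with hG
    let G' : Matrix (Fin 6) (Fin 6) F := ((g⁻¹ : GL (Fin 6) F) : Matrix (Fin 6) (Fin 6) F)
    have hGG' : G * G' = 1 := Units.mul_inv g
    have hG'G : G' * G = 1 := Units.inv_mul g
    let η : K →+* K :=
      { toFun := fun k => ⟨G * k.1 * G', (hgN k.1).1 k.2⟩
        map_one' := Subtype.ext (by
          show G * 1 * G' = 1
          rw [mul_one, hGG'])
        map_mul' := fun a b => Subtype.ext (by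
          show G * (a.1 * b.1) * G' = (G * a.1 * G') * (G * b.1 * G')
          calc G * (a.1 * b.1) * G' = G * a.1 * 1 * b.1 * G' := by simp only [mul_one, mul_assoc]
            _ = G * a.1 * (G' * G) * b.1 * G' := by rw [hG'G]
            _ = _ := by simp only [mul_assoc])
        map_zero' := Subtype.ext (by
          show G * 0 * G' = 0
          rw [mul_zero, zero_mul])
        map_add' := fun a b => Subtype.ext (by
          show G * (a.1 + b.1) * G' = G * a.1 * G' + G * b.1 * G'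
          rw [mul_add, add_mul]) }
    have hη : ∀ k, D.ρ (η k) * G = G * D.ρ k := by
      intro k
      show G * k.1 * G' * G = G * k.1
      rw [mul_assoc, hG'G, mul_one]
    exact D.main_sub hW h1 h3 h5 hF₀ hU hdet hη
  have hτ₀ : ∀ x, σ x = x ↔ x ∈ F₀ := by
    intro x
    rw [hS.pow, hF₀]
  refine ⟨F₀, P, 1, ?_, one_ne_zero, ?_, ?_, ?_, eq_inf_of_max hH hle (not_gsu_le_subfield hS (by norm_num) σ hτ₀ hne P)⟩
  · rw [hF, show Nat.card F₀ = 2 ^ 1 from hF₀c]
    norm_num
  · rw [one_pow]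
    linear_combination h2
  · intro u w hu hw
    rw [one_mul, hPv, D.herm_PM h1 h3 h5]
    simp only [hermForm]
    refine F₀.sum_mem fun i _ => F₀.mul_mem (hu i) (F₀.pow_mem ?_ _)
    exact hw _
  · intro u hu
    rw [hPv, D.herm_PM h1 h3 h5]
    have hsq : ∀ i, u i ^ 2 = u i := fun i => (hF₀ _).1 (hu i)
    simp only [hermForm, Function.comp_apply, hsq, Fin.sum_univ_six]
    show u 0 * u 3 + u 1 * u 5 + u 2 * u 4 + u 3 * u 0 + u 4 * u 2 + u 5 * u 1 = 0
    linear_combination (u 0 * u 3 + u 1 * u 5 + u 2 * u 4) * h2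

end UK8

end Cfsg.Agent.H28
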