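import Cfsg.Agent.Lib.H05.Comp2
import Cfsg.Agent.Lib.H01.Fitting

/-!
Abelian TI 2-subgroups: squares act trivially on the small sections.
-/

set_option autoImplicit false
set_option linter.unusedSectionVars false
set_option linter.unusedSimpArgs false

namespace Cfsg.Agent.H28.TIsq

variable {X : Type*} [Group X]

/-- commutator `x⁻¹ y⁻¹ x y`. -/
def cc (x y : X) : X := x⁻¹ * (y⁻¹ * x * y)

lemma cj_eq (x y : X) : y⁻¹ * x * y = x * cc x y := by simp [cc]

lemma cc_one_left (a : X) : cc 1 a = 1 := by simp [cc]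

lemma cc_eq_one_iff {x y : X} : cc x y = 1 ↔ x * y = y * x := by
  unfold cc
  constructor
  · intro h
    have h1 : y⁻¹ * x * y = x := by
      have := congrArg (fun t => x * t) h
      simpa using this
    calc x * y = y * (y⁻¹ * x * y) := by group
      _ = y * x := by rw [h1]
  · intro h
    have : y⁻¹ * x * y = x := by
      calc y⁻¹ * x * y = y⁻¹ * (x * y) := by group
        _ = y⁻¹ * (y * x) := by rw [h]
        _ = x := by group
    rw [this]; group

lemma cc_sq (m a : X) : cc m (a * a) = cc m a * cc m a * cc (cc m a) a := by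
  simp only [cc]; group

lemma cc_conj (x y a : X) : a⁻¹ * cc x y * a = cc (a⁻¹ * x * a) (a⁻¹ * y * a) := by
  simp only [cc]; group

lemma cc_mul_left {x y z : X} (h : cc x z * y = y * cc x z) :
    cc (x * y) z = cc x z * cc y z := by
  have h' : cc (x * y) z = y⁻¹ * cc x z * (z⁻¹ * y * z) := by simp only [cc]; group
  rw [h', mul_assoc y⁻¹, ← mul_assoc (cc x z), ]
  have h2 : y⁻¹ * (cc x z * (z⁻¹ * y * z)) = y⁻¹ * ((cc x z * y) * cc y z) := by
    rw [cj_eq y z]; group
  rw [mul_assoc, h2, h]; group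

lemma cc_mul_right {x y z : X} (h : cc x y * z = z * cc x y) :
    cc x (y * z) = cc x z * cc x y := by
  have h' : cc x (y * z) = x⁻¹ * (z⁻¹ * (x * cc x y) * z) := by
    rw [← cj_eq x y]; simp only [cc]; group
  have h2 : z⁻¹ * (x * cc x y) * z = (z⁻¹ * x * z) * cc x y := by
    calc z⁻¹ * (x * cc x y) * z = z⁻¹ * x * (cc x y * z) := by group
      _ = z⁻¹ * x * (z * cc x y) := by rw [h]
      _ = (z⁻¹ * x * z) * cc x y := by group
  rw [h', h2, cj_eq x z]; group

/-- Squares generate commutators. -/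
lemma cc_eq_squares (x y : X) : cc x y = (x⁻¹ * x⁻¹) * ((x * y⁻¹) * (x * y⁻¹)) * (y * y) := by
  simp only [cc]; group

/-- A last nontrivial term in an iteration. -/
lemma exists_last {f : X → X} {P : X → Prop} {x : X} (h0 : ¬ P x) {n : ℕ} (hn : P (f^[n] x)) :
    ∃ k, ¬ P (f^[k] x) ∧ P (f^[k + 1] x) := by
  by_contra hcon
  push Not at hcon
  have : ∀ k, ¬ P (f^[k] x) := by
    intro k
    induction k with
    | zero => simpa using h0
    | succ k ih => exact hcon k ih
  exact this n hn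

lemma comm_closure {s : Set X} (h : ∀ x ∈ s, ∀ y ∈ s, x * y = y * x) :
    ∀ x ∈ Subgroup.closure s, ∀ y ∈ Subgroup.closure s, x * y = y * x := by
  have h1 : Subgroup.closure s ≤ Subgroup.centralizer s :=
    (Subgroup.closure_le _).mpr fun x hx =>
      Subgroup.mem_centralizer_iff.mpr fun y hy => h y hy x hx
  have h2 : Subgroup.closure s ≤ Subgroup.centralizer (Subgroup.closure s : Set X) :=
    (Subgroup.closure_le _).mpr fun x hx =>
      Subgroup.mem_centralizer_iff.mpr fun y hy =>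
        (Subgroup.mem_centralizer_iff.mp (h1 hy) x hx).symm
  intro x hx y hy
  exact (Subgroup.mem_centralizer_iff.mp (h2 hx) y hy).symm

section TI

variable {A : Subgroup X}

/-- `A` is self-normalising under centralisers of its nontrivial elements. -/
def TIc (A : Subgroup X) : Prop :=
  ∀ {b x c : X}, b ∈ A → b ≠ 1 → x * b = b * x → c ∈ A → x⁻¹ * c * x ∈ A

lemma TIc.cc_mem (hTI : TIc A) {b x a : X} (hb : b ∈ A) (hb1 : b ≠ 1) (hx : x * b = b * x)
    (ha : a ∈ A) : cc x a ∈ A := by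
  have h1 : x⁻¹ * a⁻¹ * x ∈ A := hTI hb hb1 hx (A.inv_mem ha)
  have : cc x a = (x⁻¹ * a⁻¹ * x) * a := by simp only [cc]; group
  rw [this]; exact A.mul_mem h1 ha

theorem abel_fix {V : Subgroup X} (hTI : TIc A) {a : X} (ha : a ∈ A) (ha2 : a * a ≠ 1)
    (hVc : ∀ x ∈ V, ∀ y ∈ V, x * y = y * x) (hVa : ∀ v ∈ V, a⁻¹ * v * a ∈ V)
    (hVA : ∀ v ∈ V, v ∈ A → v = 1)
    (hnil : ∀ x ∈ V, ∃ n : ℕ, (fun z => cc z a)^[n] x = 1)
    (h2 : ∀ x ∈ V, ∃ k : ℕ, x ^ (2 ^ k) = 1) :
    ∀ v ∈ V, cc v a = 1 := by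
  set f : X → X := fun z => cc z a with hf
  have hfV : ∀ v ∈ V, f v ∈ V := fun v hv => V.mul_mem (V.inv_mem hv) (hVa v hv)
  have hfmul : ∀ x ∈ V, ∀ y ∈ V, f (x * y) = f x * f y := by
    intro x hx y hy
    exact cc_mul_left (hVc _ (hfV x hx) _ hy)
  have hfone : f 1 = 1 := cc_one_left a
  have hfpow : ∀ x ∈ V, ∀ j : ℕ, f (x ^ j) = f x ^ j := by
    intro x hx j
    induction j with
    | zero => simpa using hfone
    | succ j ih =>
      rw [pow_succ, hfmul _ (V.pow_mem hx j) _ hx, ih, pow_succ]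
  intro x hx
  by_contra hne
  obtain ⟨n, hn⟩ := hnil x hx
  have hiter : ∀ k, f^[k] x ∈ V := by
    intro k
    induction k with
    | zero => simpa using hx
    | succ k ih => rw [Function.iterate_succ_apply']; exact hfV _ ih
  have hn' : f (f^[n] x) = 1 := by
    have : f^[n] x = 1 := hn
    rw [this]; exact hfone
  -- find the last nontrivial commutator
  have hlast : ∃ k, f (f^[k] x) ≠ 1 ∧ f (f (f^[k] x)) = 1 := by
    by_contra hcon
    push Not at hcon
    have : ∀ k, f (f^[k] x) ≠ 1 := by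
      intro k
      induction k with
      | zero => simpa using hne
      | succ k ih =>
        rw [Function.iterate_succ_apply']
        exact hcon k ih
    exact this n hn'
  obtain ⟨k, hk1, hk2⟩ := hlast
  set w := f^[k] x with hw
  have hwV : w ∈ V := hiter k
  set u := f w with hu
  have huV : u ∈ V := hfV _ hwV
  -- a 2-power of `u` of order 2
  have hex : ∃ e : ℕ, u ^ (2 ^ e) = 1 := h2 u huV
  classical
  set e := Nat.find hex with he
  have he1 : u ^ (2 ^ e) = 1 := Nat.find_spec hex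
  have he0 : e ≠ 0 := by
    intro h0
    rw [h0] at he1
    exact hk1 (by simpa using he1)
  obtain ⟨e', he'⟩ := Nat.exists_eq_succ_of_ne_zero he0
  have hi1 : u ^ (2 ^ e') ≠ 1 := by
    have : e' < e := by omega
    exact Nat.find_min hex this
  set i := u ^ (2 ^ e') with hi
  have hii : i * i = 1 := by
    rw [hi, ← pow_add, ← two_mul, ← pow_succ', ← Nat.succ_eq_add_one, ← he']
    exact he1
  set v := w ^ (2 ^ e') with hv
  have hvV : v ∈ V := V.pow_mem hwV _
  have hfv : f v = i := by rw [hv, hfpow w hwV, hi]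
  have hfi : f i = 1 := by
    rw [hi, hfpow u huV, hk2]; simp
  have hv2 : cc v (a * a) = 1 := by
    rw [cc_sq]
    have h1 : cc v a = i := hfv
    have h3 : cc (cc v a) a = 1 := by rw [h1]; exact hfi
    rw [h3, h1, hii]; simp
  have hcomm := cc_eq_one_iff.mp hv2
  have hmem : cc v a ∈ A := TIc.cc_mem hTI (A.mul_mem ha ha) ha2 hcomm ha
  have : i ∈ A := by rw [← hfv]; exact hmem
  exact hi1 (hVA i (by rw [← hfv]; exact hfV v hvV) this)

theorem sq_fix {M S : Subgroup X} (hTI : TIc A) (hcomm : ∀ x ∈ A, ∀ y ∈ A, x * y = y * x)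
    {a : X} (ha : a ∈ A) (hMa : ∀ m ∈ M, a⁻¹ * m * a ∈ M) (hMa' : ∀ m ∈ M, a * m * a⁻¹ ∈ M)
    (hSM : S ≤ M) (hSZ : ∀ s ∈ S, ∀ m ∈ M, s * m = m * s) (hsq : ∀ m ∈ M, m * m ∈ S)
    (hnil : ∀ x ∈ M, ∃ n : ℕ, (fun z => cc z a)^[n] x = 1)
    (h2 : ∀ x ∈ M, ∃ k : ℕ, x ^ (2 ^ k) = 1) :
    ∀ m ∈ M, cc m (a * a) ∈ S := by
  intro m hm
  by_cases ha2 : a * a = 1
  · rw [ha2]
    have : cc m (1 : X) = 1 := by simp [cc]
    rw [this]; exact S.one_mem
  set f : X → X := fun z => cc z a with hf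
  have hfM : ∀ v ∈ M, f v ∈ M := fun v hv => M.mul_mem (M.inv_mem hv) (hMa v hv)
  by_cases hZA : ∃ e ∈ M, (∀ n ∈ M, e * n = n * e) ∧ e ∈ A ∧ e ≠ 1
  · obtain ⟨e, heM, heZ, heA, he1⟩ := hZA
    have h1 : cc m a ∈ A := TIc.cc_mem hTI heA he1 (heZ m hm).symm ha
    have h3 : cc (cc m a) a = 1 := cc_eq_one_iff.mpr (hcomm _ h1 _ ha)
    rw [cc_sq, h3, mul_one]
    exact hsq _ (hfM m hm)
  -- the centre of `M`
  push Not at hZA
  let Z : Subgroup X :=
    { carrier := {z | z ∈ M ∧ ∀ n ∈ M, z * n = n * z}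
      mul_mem' := by
        rintro x y ⟨hx, hx'⟩ ⟨hy, hy'⟩
        refine ⟨M.mul_mem hx hy, fun n hn => ?_⟩
        rw [mul_assoc, hy' n hn, ← mul_assoc, hx' n hn, mul_assoc]
      one_mem' := ⟨M.one_mem, fun n _ => by simp⟩
      inv_mem' := by
        rintro x ⟨hx, hx'⟩
        refine ⟨M.inv_mem hx, fun n hn => ?_⟩
        calc x⁻¹ * n = x⁻¹ * (n * x) * x⁻¹ := by group
          _ = x⁻¹ * (x * n) * x⁻¹ := by rw [hx' n hn]
          _ = n * x⁻¹ := by group }
  have hZmem : ∀ {z}, z ∈ Z ↔ (z ∈ M ∧ ∀ n ∈ M, z * n = n * z) := Iff.rfl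
  have hZfix : ∀ z ∈ Z, cc z a = 1 := by
    refine abel_fix (V := Z) hTI ha ha2 ?_ ?_ ?_ ?_ ?_
    · intro x hx y hy
      exact (hZmem.mp hx).2 y (hZmem.mp hy).1
    · intro v hv
      refine hZmem.mpr ⟨hMa v (hZmem.mp hv).1, fun n hn => ?_⟩
      have h3 := (hZmem.mp hv).2 _ (hMa' n hn)
      calc a⁻¹ * v * a * n = a⁻¹ * (v * (a * n * a⁻¹)) * a := by group
        _ = a⁻¹ * ((a * n * a⁻¹) * v) * a := by rw [h3]
        _ = n * (a⁻¹ * v * a) := by group
    · intro v hv hvA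
      by_contra hne
      exact hne (by
        by_contra h1
        exact h1 (hZA v (hZmem.mp hv).1 (hZmem.mp hv).2 hvA))
    · intro x hx
      exact hnil x (hZmem.mp hx).1
    · intro x hx
      exact h2 x (hZmem.mp hx).1
  have hSZ' : ∀ s ∈ S, s ∈ Z := fun s hs => hZmem.mpr ⟨hSM hs, hSZ s hs⟩
  have hcS : ∀ x ∈ M, ∀ y ∈ M, cc x y ∈ S := by
    intro x hx y hy
    rw [cc_eq_squares]
    exact S.mul_mem (S.mul_mem (hsq _ (M.inv_mem hx))
      (hsq _ (M.mul_mem hx (M.inv_mem hy)))) (hsq _ hy)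
  have hSfix : ∀ s ∈ S, a⁻¹ * s * a = s := by
    intro s hs
    have := hZfix s (hSZ' s hs)
    rw [cj_eq, this, mul_one]
  by_contra hm'
  have hc2 : f (f m) ∉ S := by
    intro hc
    apply hm'
    rw [cc_sq]
    exact S.mul_mem (hsq _ (hfM m hm)) hc
  obtain ⟨n, hn⟩ := hnil m hm
  have hlast : ∃ k, f (f (f^[k] m)) ∉ S ∧ f (f (f (f^[k] m))) ∈ S := by
    by_contra hcon
    push Not at hcon
    have : ∀ k, f (f (f^[k] m)) ∉ S := by
      intro k
      induction k with
      | zero => simpa using hc2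
      | succ k ih =>
        rw [Function.iterate_succ_apply']
        exact hcon k ih
    have h3 := this n
    have h4 : f^[n] m = 1 := hn
    rw [h4] at h3
    apply h3
    have h5 : f 1 = 1 := cc_one_left a
    rw [h5, h5]; exact S.one_mem
  obtain ⟨k, hk1, hk2⟩ := hlast
  have hiter : ∀ k, f^[k] m ∈ M := by
    intro k
    induction k with
    | zero => simpa using hm
    | succ k ih => rw [Function.iterate_succ_apply']; exact hfM _ ih
  set w := f^[k] m with hw
  have hwM : w ∈ M := hiter k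
  set p := f w with hp
  have hpM : p ∈ M := hfM _ hwM
  set u := f p with hu
  have huM : u ∈ M := hfM _ hpM
  set z := f u with hz
  have hzS : z ∈ S := hk2
  have huS : u ∉ S := hk1
  have e1 : a⁻¹ * w * a = w * p := cj_eq w a
  have e2 : a⁻¹ * p * a = p * u := cj_eq p a
  have e3 : a⁻¹ * u * a = u * z := cj_eq u a
  have hinv : ∀ x ∈ M, ∀ y ∈ M, cc (a⁻¹ * x * a) (a⁻¹ * y * a) = cc x y := by
    intro x hx y hy
    rw [← cc_conj]; exact hSfix _ (hcS x hx y hy)
  -- `z` is central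
  have hccz : ∀ t ∈ M, cc t (u * z) = cc t u := by
    intro t ht
    rw [cc_mul_right (hSZ _ (hcS t ht u huM) _ (hSM hzS))]
    have : cc t z = 1 := cc_eq_one_iff.mpr (hSZ z hzS t ht).symm
    rw [this, one_mul]
  have h1 : cc p u = 1 := by
    have h3 := hinv w hwM u huM
    rw [e1, e3, hccz _ (M.mul_mem hwM hpM),
      cc_mul_left (hSZ _ (hcS w hwM u huM) _ hpM)] at h3
    exact mul_left_cancel (a := cc w u) (by rw [h3, mul_one])
  have hpu : p * u = u * p := cc_eq_one_iff.mp h1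
  have h4 : cc w u = 1 := by
    have h3 := hinv w hwM p hpM
    rw [e1, e2, cc_mul_left (hSZ _ (hcS w hwM _ (M.mul_mem hpM huM)) _ hpM)] at h3
    have h5 : cc p (p * u) = 1 := cc_eq_one_iff.mpr (by rw [mul_assoc, hpu, ← mul_assoc])
    rw [h5, mul_one, cc_mul_right (hSZ _ (hcS w hwM p hpM) _ huM)] at h3
    exact mul_right_cancel (b := cc w p) (by rw [h3, one_mul])
  have hwu : w * u = u * w := cc_eq_one_iff.mp h4
  -- the abelian subgroup
  set gen : Set X := {x | x = p ∨ x = u ∨ x ∈ Z} with hgen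
  have hgenM : ∀ x ∈ gen, x ∈ M := by
    rintro x (hx | hx | hx)
    · rw [hx]; exact hpM
    · rw [hx]; exact huM
    · exact (hZmem.mp hx).1
  have hgenc : ∀ x ∈ gen, ∀ y ∈ gen, x * y = y * x := by
    rintro x hx y (hy | hy | hy)
    · rcases hx with hx | hx | hx
      · rw [hx, hy]
      · rw [hx, hy]; exact hpu.symm
      · rw [hy]; exact (hZmem.mp hx).2 p hpM
    · rcases hx with hx | hx | hx
      · rw [hx, hy]; exact hpu
      · rw [hx, hy]
      · rw [hy]; exact (hZmem.mp hx).2 u huM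
    · exact ((hZmem.mp hy).2 x (hgenM x hx)).symm
  set V := Subgroup.closure gen with hV
  have hVM : V ≤ M := (Subgroup.closure_le _).mpr hgenM
  have hVc : ∀ x ∈ V, ∀ y ∈ V, x * y = y * x := comm_closure hgenc
  have hVa : ∀ v ∈ V, a⁻¹ * v * a ∈ V := by
    intro v hv
    induction hv using Subgroup.closure_induction with
    | mem x hx =>
      rcases hx with hx | hx | hx
      · rw [hx, e2]
        exact V.mul_mem (Subgroup.subset_closure (Or.inl rfl))
          (Subgroup.subset_closure (Or.inr (Or.inl rfl)))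
      · rw [hx, e3]
        exact V.mul_mem (Subgroup.subset_closure (Or.inr (Or.inl rfl)))
          (Subgroup.subset_closure (Or.inr (Or.inr (hSZ' z hzS))))
      · have h3 := hZfix x hx
        rw [cj_eq, h3, mul_one]
        exact Subgroup.subset_closure (Or.inr (Or.inr hx))
    | one => simp [V.one_mem]
    | mul x y _ _ hx hy =>
      have : a⁻¹ * (x * y) * a = (a⁻¹ * x * a) * (a⁻¹ * y * a) := by group
      rw [this]; exact V.mul_mem hx hy
    | inv x _ hx =>
      have : a⁻¹ * x⁻¹ * a = (a⁻¹ * x * a)⁻¹ := by group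
      rw [this]; exact V.inv_mem hx
  have hpV : p ∈ V := Subgroup.subset_closure (Or.inl rfl)
  have hu1 : u ≠ 1 := fun h => huS (by rw [h]; exact S.one_mem)
  by_cases hVA : ∀ v ∈ V, v ∈ A → v = 1
  · have h3 : cc p a = 1 := abel_fix hTI ha ha2 hVc hVa hVA (fun x hx => hnil x (hVM hx))
      (fun x hx => h2 x (hVM hx)) p hpV
    exact hu1 h3
  · push Not at hVA
    obtain ⟨e, heV, heA, he1⟩ := hVA
    have huA : u ∈ A := TIc.cc_mem hTI heA he1 (hVc p hpV e heV) ha
    have hpA : p ∈ A := TIc.cc_mem hTI huA hu1 hwu ha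
    exact hu1 (cc_eq_one_iff.mpr (hcomm _ hpA _ ha))

end TI

end Cfsg.Agent.H28.TIsq
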