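import Cfsg.Agent.Lib.H28.TIsq1

/-!
Abelian TI 2-subgroups in groups of characteristic 2: the normal closure of the squares.
-/

set_option autoImplicit false
set_option linter.unusedSectionVars false
set_option linter.unusedSimpArgs false

namespace Cfsg.Agent.H28.TIsq

open Cfsg
open scoped commutatorElement

variable {X : Type*} [Group X]

lemma tic_of {A : Subgroup X}
    (hti : ∀ h : X, A.map (MulAut.conj h).toMonoidHom = A ∨ A.map (MulAut.conj h).toMonoidHom ⊓ A = ⊥) :
    TIc A := by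
  intro b x c hb hb1 hx hc
  rcases hti x with h | h
  · have hc' : c ∈ A.map (MulAut.conj x).toMonoidHom := by rw [h]; exact hc
    obtain ⟨c', hc'A, hc'e⟩ := hc'
    have : x * c' * x⁻¹ = c := by simpa using hc'e
    rw [← this]
    simpa [mul_assoc] using hc'A
  · exfalso
    apply hb1
    have hm : b ∈ A.map (MulAut.conj x).toMonoidHom ⊓ A := by
      refine ⟨⟨b, hb, ?_⟩, hb⟩
      simp [hx]
    rw [h] at hm
    simpa using hm

lemma iter_nil0 {G : Type*} [Group G] [hG : Group.IsNilpotent G] (a x : G) :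
    ∃ n : ℕ, (fun z => cc z a)^[n] x = 1 := by
  obtain ⟨n, hn⟩ := nilpotent_iff_lowerCentralSeries.mp hG
  have h : ∀ k, (fun z => cc z a)^[k] x ∈ (⊤ : Subgroup G).lowerCentralSeries k := by
    intro k
    induction k with
    | zero => simp
    | succ k ih =>
      rw [Function.iterate_succ_apply', Subgroup.lowerCentralSeries_succ]
      have h1 : cc ((fun z => cc z a)^[k] x) a
          = ⁅((fun z => cc z a)^[k] x)⁻¹, a⁻¹⁆ := by
        generalize (fun z => cc z a)^[k] x = t
        simp only [cc, commutatorElement_def]; group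
      rw [h1]
      exact Subgroup.commutator_mem_commutator (Subgroup.inv_mem _ ih) (Subgroup.mem_top _)
  refine ⟨n, ?_⟩
  have := h n
  rw [hn] at this
  simpa using this

lemma iter_nil [Finite X] {H : Subgroup X} (hH : IsPGroup 2 H) {a x : X} (ha : a ∈ H)
    (hx : x ∈ H) : ∃ n : ℕ, (fun z => cc z a)^[n] x = 1 := by
  haveI : Group.IsNilpotent H := hH.isNilpotent
  obtain ⟨n, hn⟩ := iter_nil0 (⟨a, ha⟩ : H) (⟨x, hx⟩ : H)
  refine ⟨n, ?_⟩
  have h : ∀ k, ((fun z => cc z (⟨a, ha⟩ : H))^[k] (⟨x, hx⟩ : H) : H).1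
      = (fun z => cc z a)^[k] x := by
    intro k
    induction k with
    | zero => rfl
    | succ k ih =>
      rw [Function.iterate_succ_apply', Function.iterate_succ_apply', ← ih]
      simp [cc]
  rw [← h, hn]; rfl

/-- Coprime action. -/
lemma cop_fix {m y : X} {q k : ℕ} (hq : y ^ q = 1) (hq2 : Nat.Coprime q 2)
    (hc : cc m y * y = y * cc m y) (hk : (cc m y) ^ (2 ^ k) = 1) : cc m y = 1 := by
  set d := cc m y with hd
  have hy : ∀ j : ℕ, (y ^ j)⁻¹ * m * y ^ j = m * d ^ j := by
    intro j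
    induction j with
    | zero => simp
    | succ j ih =>
      have h1 : (y ^ (j + 1))⁻¹ * m * y ^ (j + 1) = y⁻¹ * ((y ^ j)⁻¹ * m * y ^ j) * y := by
        rw [pow_succ]; group
      have h2 : y⁻¹ * d * y = d := by
        rw [mul_assoc, hc]; group
      have h3 : y⁻¹ * d ^ j * y = d ^ j := by
        have hcm : Commute d y := hc
        have : d ^ j * y = y * d ^ j := (hcm.pow_left j).eq
        rw [mul_assoc, this]; group
      rw [h1, ih]
      calc y⁻¹ * (m * d ^ j) * y = (y⁻¹ * m * y) * (y⁻¹ * d ^ j * y) := by group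
        _ = (m * d) * d ^ j := by rw [h3, cj_eq, ← hd]
        _ = m * d ^ (j + 1) := by rw [pow_succ']; group
  have h1 := hy q
  rw [hq] at h1
  have h2 : d ^ q = 1 := by
    have : m = m * d ^ q := by simpa using h1
    exact mul_left_cancel (a := m) (by rw [← this, mul_one])
  have h3 : orderOf d ∣ q := orderOf_dvd_of_pow_eq_one h2
  have h4 : orderOf d ∣ 2 ^ k := orderOf_dvd_of_pow_eq_one hk
  have h5 : orderOf d = 1 := by
    have : Nat.Coprime q (2 ^ k) := Nat.Coprime.pow_right k hq2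
    exact Nat.eq_one_of_dvd_coprimes this h3 h4
  exact orderOf_eq_one_iff.mp h5

lemma cc_mul_gen (m r r' : X) : cc m (r * r') = cc m r' * (r'⁻¹ * cc m r * r') := by
  simp only [cc]; group

lemma cc_inv_gen (m r : X) : cc m r⁻¹ = (cc (r * m * r⁻¹) r)⁻¹ := by
  simp only [cc]; group

lemma cc_conj_gen (m c b : X) : cc m (c * b * c⁻¹) = c * cc (c⁻¹ * m * c) b * c⁻¹ := by
  simp only [cc]; group

/-- The squares generate a normal 2-subgroup. -/
theorem normalClosure_sq_pGroup [Finite X] {A : Subgroup X}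
    (hX : generalizedFittingSubgroup X = pCore 2 X) (hA2 : IsPGroup 2 A) (hTI : TIc A)
    (hcomm : ∀ x ∈ A, ∀ y ∈ A, x * y = y * x) :
    IsPGroup 2 (Subgroup.normalClosure ((fun a : X => a ^ 2) '' (A : Set X))) := by
  classical
  set R := Subgroup.normalClosure ((fun a : X => a ^ 2) '' (A : Set X)) with hRdef
  by_contra hR
  haveI : Fact (Nat.Prime 2) := ⟨Nat.prime_two⟩
  -- an element of odd prime order
  have hex : ∃ q : ℕ, q.Prime ∧ q ≠ 2 ∧ q ∣ Nat.card R := by
    by_contra hcon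
    push Not at hcon
    apply hR
    rw [IsPGroup.iff_card]
    refine ⟨_, Nat.eq_prime_pow_of_unique_prime_dvd Nat.card_pos.ne' ?_⟩
    intro d hd hdd
    by_contra hne
    exact hcon d hd hne hdd
  obtain ⟨q, hqp, hq2, hqd⟩ := hex
  haveI : Fact q.Prime := ⟨hqp⟩
  obtain ⟨y₀, hy₀⟩ := exists_prime_orderOf_dvd_card' q hqd
  set y : X := (y₀ : X) with hy
  have hyR : y ∈ R := y₀.2
  have hyo : orderOf y = q := by rw [hy, Subgroup.orderOf_coe]; exact hy₀
  have hyq : y ^ q = 1 := by rw [← hyo]; exact pow_orderOf_eq_one y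
  have hq2c : Nat.Coprime q 2 := (Nat.coprime_primes hqp Nat.prime_two).mpr hq2
  set Q := pCore 2 X with hQdef
  haveI hQn : Q.Normal := Cfsg.Agent.H01.pCore_normal 2
  have hQ2 : IsPGroup 2 Q := Cfsg.Agent.H01.pCore_isPGroup 2
  have hQe : ∀ x ∈ Q, ∃ k : ℕ, x ^ (2 ^ k) = 1 := by
    intro x hx
    obtain ⟨k, hk⟩ := hQ2 ⟨x, hx⟩
    exact ⟨k, by simpa using congrArg Subtype.val hk⟩
  have hQmoved : ∃ m ∈ Q, cc m y ≠ 1 := by
    by_contra hcon
    push Not at hcon
    have h1 : y ∈ Subgroup.centralizer (Q : Set X) := by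
      rw [Subgroup.mem_centralizer_iff]
      intro m hm
      exact cc_eq_one_iff.mp (hcon m hm)
    have h2 : y ∈ Q := by
      have := Cfsg.Agent.H05.centralizer_fstar_le (G := X)
      rw [hX] at this
      exact this h1
    obtain ⟨k, hk⟩ := hQe y h2
    have h3 : orderOf y ∣ 2 ^ k := orderOf_dvd_of_pow_eq_one hk
    rw [hyo] at h3
    exact hq2 ((Nat.prime_dvd_prime_iff_eq hqp Nat.prime_two).mp (hqp.dvd_of_dvd_pow h3))
  -- a minimal moved normal subgroup
  let 𝓜 : Set (Subgroup X) := {N | N.Normal ∧ N ≤ Q ∧ ∃ m ∈ N, cc m y ≠ 1}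
  obtain ⟨M, hM𝓜, hMmin⟩ := WellFounded.has_min (wellFounded_lt : WellFounded
    ((· < ·) : Subgroup X → Subgroup X → Prop)) 𝓜 ⟨Q, hQn, le_rfl, hQmoved⟩
  obtain ⟨hMn, hMQ, hMmoved⟩ := hM𝓜
  haveI := hMn
  set L := Subgroup.normalClosure ({y} : Set X) with hL
  haveI hLn : L.Normal := Subgroup.normalClosure_normal
  have hyL : y ∈ L := Subgroup.subset_normalClosure rfl
  set CL := Subgroup.centralizer (L : Set X) with hCL
  haveI hCLn : CL.Normal := Subgroup.normal_centralizer
  set S := M ⊓ CL with hS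
  haveI hSn : S.Normal := inferInstance
  have hSy : ∀ s ∈ S, s * y = y * s := fun s hs =>
    (Subgroup.mem_centralizer_iff.mp hs.2 y hyL).symm
  -- proper normal subgroups are centralised
  have hprop : ∀ N : Subgroup X, N.Normal → N ≤ M → N ≠ M → N ≤ S := by
    intro N hNn hNM hNne
    haveI := hNn
    have h1 : ∀ m ∈ N, cc m y = 1 := by
      by_contra hcon
      push Not at hcon
      obtain ⟨m, hm, hm1⟩ := hcon
      exact hMmin N ⟨hNn, hNM.trans hMQ, m, hm, hm1⟩ (lt_of_le_of_ne hNM hNne)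
    have h2 : y ∈ Subgroup.centralizer (N : Set X) := by
      rw [Subgroup.mem_centralizer_iff]
      intro m hm
      exact cc_eq_one_iff.mp (h1 m hm)
    haveI : (Subgroup.centralizer (N : Set X)).Normal := Subgroup.normal_centralizer
    have h3 : L ≤ Subgroup.centralizer (N : Set X) :=
      Subgroup.normalClosure_le_normal (by simpa using h2)
    intro m hm
    refine ⟨hNM hm, Subgroup.mem_centralizer_iff.mpr fun l hl => ?_⟩
    exact (Subgroup.mem_centralizer_iff.mp (h3 hl) m hm).symm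
  have hMe : ∀ x ∈ M, ∃ k : ℕ, x ^ (2 ^ k) = 1 := fun x hx => hQe x (hMQ hx)
  have hccM : ∀ m ∈ M, cc m y ∈ M := by
    intro m hm
    refine M.mul_mem (M.inv_mem hm) ?_
    have := hMn.conj_mem m hm y⁻¹
    simpa using this
  -- the commutators generate M
  set M₁ := Subgroup.normalClosure {d | ∃ m ∈ M, d = cc m y} with hM₁
  haveI hM₁n : M₁.Normal := Subgroup.normalClosure_normal
  have hM₁M : M₁ ≤ M := Subgroup.normalClosure_le_normal (by
    rintro d ⟨m, hm, rfl⟩
    exact hccM m hm)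
  have hM₁e : M₁ = M := by
    by_contra hne
    have h1 := hprop M₁ hM₁n hM₁M hne
    obtain ⟨m, hm, hm1⟩ := hMmoved
    have hd : cc m y ∈ M₁ := Subgroup.subset_normalClosure ⟨m, hm, rfl⟩
    obtain ⟨k, hk⟩ := hMe _ (hM₁M hd)
    exact hm1 (cop_fix hyq hq2c (hSy _ (h1 hd)) hk)
  -- S is central in M
  have hSZ : ∀ s ∈ S, ∀ m ∈ M, s * m = m * s := by
    haveI : (Subgroup.centralizer (S : Set X)).Normal := Subgroup.normal_centralizer
    have h1 : M₁ ≤ Subgroup.centralizer (S : Set X) := by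
      apply Subgroup.normalClosure_le_normal
      rintro d ⟨m, hm, rfl⟩
      rw [SetLike.mem_coe, Subgroup.mem_centralizer_iff]
      intro s hs
      have hs' : m * s * m⁻¹ ∈ S := hSn.conj_mem s hs m
      have h2 := hSy s hs
      have h3 := hSy _ hs'
      have h4 : y⁻¹ * (m * s * m⁻¹) = (m * s * m⁻¹) * y⁻¹ := by
        rw [eq_mul_inv_iff_mul_eq, mul_assoc, h3]; group
      calc s * cc m y = m⁻¹ * ((m * s * m⁻¹) * y⁻¹) * m * y := by simp only [cc]; group
        _ = m⁻¹ * (y⁻¹ * (m * s * m⁻¹)) * m * y := by rw [h4]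
        _ = m⁻¹ * y⁻¹ * m * (s * y) := by group
        _ = m⁻¹ * y⁻¹ * m * (y * s) := by rw [h2]
        _ = cc m y * s := by simp only [cc]; group
    intro s hs m hm
    rw [← hM₁e] at hm
    exact Subgroup.mem_centralizer_iff.mp (h1 hm) s hs
  -- squares of M lie in S
  have hMne : M ≠ ⊥ := by
    obtain ⟨m, hm, hm1⟩ := hMmoved
    intro h
    rw [h, Subgroup.mem_bot] at hm
    rw [hm] at hm1
    exact hm1 (cc_one_left y)
  have hM2 : IsPGroup 2 M := hQ2.to_le hMQ
  have hsq : ∀ m ∈ M, m * m ∈ S := by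
    set W := Subgroup.normalClosure {d | ∃ m ∈ M, d = m * m} with hW
    haveI hWn : W.Normal := Subgroup.normalClosure_normal
    have hWM : W ≤ M := Subgroup.normalClosure_le_normal (by
      rintro d ⟨m, hm, rfl⟩
      exact M.mul_mem hm hm)
    obtain ⟨e, he⟩ := (IsPGroup.iff_card).mp hM2
    have he0 : e ≠ 0 := by
      intro h0
      rw [h0, pow_zero] at he
      exact hMne (Subgroup.eq_bot_of_card_eq _ he)
    obtain ⟨e', rfl⟩ := Nat.exists_eq_succ_of_ne_zero he0
    obtain ⟨K, hK⟩ := Sylow.exists_subgroup_card_pow_prime (G := M) 2 (n := e')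
      (by rw [he]; exact pow_dvd_pow 2 (Nat.le_succ e'))
    have hKi : K.index = 2 := by
      have h1 := K.card_mul_index
      rw [hK, he, pow_succ] at h1
      exact Nat.eq_of_mul_eq_mul_left (by positivity) h1
    have hWK : W ≤ K.map M.subtype := by
      apply Subgroup.closure_le _ |>.mpr
      rintro x hx
      rw [Group.mem_conjugatesOfSet_iff] at hx
      obtain ⟨d, ⟨m, hm, rfl⟩, hconj⟩ := hx
      obtain ⟨c, rfl⟩ := isConj_iff.mp hconj
      have hm' : c * m * c⁻¹ ∈ M := hMn.conj_mem m hm c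
      refine ⟨⟨c * m * c⁻¹, hm'⟩ * ⟨c * m * c⁻¹, hm'⟩,
        Subgroup.mul_self_mem_of_index_two hKi _, ?_⟩
      simp
    have hWne : W ≠ M := by
      intro h
      have h1 : M ≤ K.map M.subtype := by
        intro x hx
        apply hWK
        rw [h]; exact hx
      have h2 : K = ⊤ := by
        rw [eq_top_iff]
        intro x _
        obtain ⟨x', hx', hxe⟩ := h1 x.2
        have : x' = x := Subtype.ext hxe
        rwa [← this]
      have h3 : K.index = 1 := by rw [h2]; exact Subgroup.index_top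
      omega
    intro m hm
    exact hprop W hWn hWM hWne (Subgroup.subset_normalClosure ⟨m, hm, rfl⟩)
  -- the main lemma
  have hP2 : IsPGroup 2 (Q ⊔ A : Subgroup X) := hQ2.to_sup_of_normal_left hA2
  have hkey : ∀ a ∈ A, ∀ m ∈ M, cc m (a * a) ∈ S := by
    intro a ha
    refine sq_fix hTI hcomm ha ?_ ?_ inf_le_left hSZ hsq ?_ hMe
    · intro m hm
      simpa using hMn.conj_mem m hm a⁻¹
    · intro m hm
      exact hMn.conj_mem m hm a
    · intro x hx
      exact iter_nil hP2 (le_sup_right (a := Q) ha) (le_sup_left (b := A) (hMQ hx))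
  have hker : ∀ r ∈ R, ∀ m ∈ M, cc m r ∈ S := by
    intro r hr
    induction hr using Subgroup.closure_induction with
    | mem x hx =>
      intro m hm
      rw [Group.mem_conjugatesOfSet_iff] at hx
      obtain ⟨d, ⟨a, ha, rfl⟩, hconj⟩ := hx
      obtain ⟨c, rfl⟩ := isConj_iff.mp hconj
      rw [cc_conj_gen]
      have hm' : c⁻¹ * m * c ∈ M := by simpa using hMn.conj_mem m hm c⁻¹
      have h1 := hkey a ha _ hm'
      rw [← pow_two] at h1
      exact hSn.conj_mem _ h1 c
    | one =>
      intro m _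
      have : cc m (1 : X) = 1 := by simp [cc]
      rw [this]; exact S.one_mem
    | mul x y' _ _ hx hy' =>
      intro m hm
      rw [cc_mul_gen]
      refine S.mul_mem (hy' m hm) ?_
      have := hSn.conj_mem _ (hx m hm) y'⁻¹
      simpa using this
    | inv x _ hx =>
      intro m hm
      rw [cc_inv_gen]
      exact S.inv_mem (hx _ (hMn.conj_mem m hm x))
  obtain ⟨m, hm, hm1⟩ := hMmoved
  have h1 := hker y hyR m hm
  obtain ⟨k, hk⟩ := hMe _ (hccM m hm)
  exact hm1 (cop_fix hyq hq2c (hSy _ h1) hk)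

end Cfsg.Agent.H28.TIsq
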