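import Cfsg.Agent.Lib.H28.TIsq2

/-!
Abelian TI 2-subgroups in groups of characteristic 2: commutativity of the normal closure of the
squares.
-/

set_option autoImplicit false
set_option linter.unusedSectionVars false
set_option linter.unusedSimpArgs false
set_option linter.style.haveILetI false

namespace Cfsg.Agent.H28.TIsq

open Cfsg

variable {X : Type*} [Group X]

lemma exists_two_central {G : Type*} [Group G] [Finite G] (hG : IsPGroup 2 G)
    (hne : ¬ ∀ x y : G, x * y = y * x) :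
    ∃ x : G, (∀ r : G, cc x r ∈ Subgroup.center G) ∧ x * x ∈ Subgroup.center G ∧
      x ∉ Subgroup.center G := by
  classical
  haveI : Fact (Nat.Prime 2) := ⟨Nat.prime_two⟩
  set Z := Subgroup.center G with hZ
  have hZne : Z ≠ ⊤ := by
    intro h
    apply hne
    intro x y
    have : y ∈ Z := by rw [h]; trivial
    exact ((Subgroup.mem_center_iff.mp this) x)
  have hq : IsPGroup 2 (G ⧸ Z) := hG.to_quotient Z
  haveI hnt : Nontrivial (G ⧸ Z) := QuotientGroup.nontrivial_iff.mpr hZne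
  haveI hcnt := hq.center_nontrivial
  obtain ⟨z, hz1⟩ := exists_ne (1 : Subgroup.center (G ⧸ Z))
  obtain ⟨k, hk⟩ := hq z.1
  have hex : ∃ e : ℕ, z.1 ^ (2 ^ e) = 1 := ⟨k, hk⟩
  set e := Nat.find hex with he
  have he1 : z.1 ^ (2 ^ e) = 1 := Nat.find_spec hex
  have hz1' : z.1 ≠ 1 := fun h => hz1 (Subtype.ext h)
  have he0 : e ≠ 0 := by
    intro h0
    rw [h0] at he1
    exact hz1' (by simpa using he1)
  obtain ⟨e', he'⟩ := Nat.exists_eq_succ_of_ne_zero he0
  have hi1 : z.1 ^ (2 ^ e') ≠ 1 := by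
    have : e' < e := by omega
    exact Nat.find_min hex this
  set z₀ := z.1 ^ (2 ^ e') with hz₀
  have hz₀c : z₀ ∈ Subgroup.center (G ⧸ Z) := Subgroup.pow_mem _ z.2 _
  have hz₀2 : z₀ * z₀ = 1 := by
    rw [hz₀, ← pow_add, ← two_mul, ← pow_succ', ← Nat.succ_eq_add_one, ← he']
    exact he1
  obtain ⟨x, hx⟩ := QuotientGroup.mk_surjective z₀
  refine ⟨x, ?_, ?_, ?_⟩
  · intro r
    rw [← QuotientGroup.eq_one_iff]
    simp only [cc, QuotientGroup.mk_mul, QuotientGroup.mk_inv, hx]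
    have := Subgroup.mem_center_iff.mp hz₀c (r : G ⧸ Z)
    rw [mul_assoc ((r : G ⧸ Z)⁻¹), ← this]
    group
  · rw [← QuotientGroup.eq_one_iff, QuotientGroup.mk_mul, hx, hz₀2]
  · intro h
    rw [← QuotientGroup.eq_one_iff, hx] at h
    exact hi1 h

theorem normalClosure_sq_comm [Finite X] {A : Subgroup X}
    (hti : ∀ h : X, A.map (MulAut.conj h).toMonoidHom = A ∨
      A.map (MulAut.conj h).toMonoidHom ⊓ A = ⊥)
    (hcomm : ∀ x ∈ A, ∀ y ∈ A, x * y = y * x)
    (hR : IsPGroup 2 (Subgroup.normalClosure ((fun a : X => a ^ 2) '' (A : Set X))))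
    {a₁ : X} (ha₁ : a₁ ∈ A) (ha₁4 : a₁ ^ 4 ≠ 1) :
    ∀ x ∈ Subgroup.normalClosure ((fun a : X => a ^ 2) '' (A : Set X)),
      ∀ y ∈ Subgroup.normalClosure ((fun a : X => a ^ 2) '' (A : Set X)), x * y = y * x := by
  classical
  set R := Subgroup.normalClosure ((fun a : X => a ^ 2) '' (A : Set X)) with hRdef
  haveI hRn : R.Normal := Subgroup.normalClosure_normal
  have hTI : TIc A := tic_of hti
  by_contra hcon
  have hsqR : ∀ a ∈ A, a * a ∈ R := by
    intro a ha
    apply Subgroup.subset_normalClosure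
    exact ⟨a, ha, pow_two a⟩
  -- the element from the second centre
  have hcon' : ¬ ∀ x y : R, x * y = y * x := by
    intro h
    apply hcon
    intro x hx y hy
    have := h ⟨x, hx⟩ ⟨y, hy⟩
    simpa using congrArg Subtype.val this
  obtain ⟨x₀, hx1, hx2, hx3⟩ := exists_two_central hR hcon'
  set x : X := (x₀ : X) with hx
  have hxR : x ∈ R := x₀.2
  have hCenOf : ∀ z : R, z ∈ Subgroup.center R → ∀ t ∈ R, (z : X) * t = t * z := by
    intro z hz t ht
    have := Subgroup.mem_center_iff.mp hz ⟨t, ht⟩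
    exact (congrArg Subtype.val this).symm
  have hCen1 : ∀ r ∈ R, ∀ t ∈ R, cc x r * t = t * cc x r := by
    intro r hr t ht
    have := hCenOf _ (hx1 ⟨r, hr⟩) t ht
    simpa [cc] using this
  have hCen2 : ∀ t ∈ R, x * x * t = t * (x * x) := by
    intro t ht
    have := hCenOf _ hx2 t ht
    simpa using this
  have hnc : ∃ r ∈ R, x * r ≠ r * x := by
    by_contra hc
    push Not at hc
    apply hx3
    rw [Subgroup.mem_center_iff]
    intro g
    have := hc g g.2
    exact Subtype.ext this.symm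
  -- a conjugate of a square not commuting with x
  have hgen : ∃ c a, a ∈ A ∧ x * (c * (a * a) * c⁻¹) ≠ (c * (a * a) * c⁻¹) * x := by
    by_contra hc
    push Not at hc
    obtain ⟨r, hr, hr1⟩ := hnc
    apply hr1
    have h1 : R ≤ Subgroup.centralizer ({x} : Set X) := by
      apply (Subgroup.closure_le _).mpr
      intro t ht
      rw [Group.mem_conjugatesOfSet_iff] at ht
      obtain ⟨d, ⟨a, ha, rfl⟩, hconj⟩ := ht
      obtain ⟨c, rfl⟩ := isConj_iff.mp hconj
      rw [SetLike.mem_coe, Subgroup.mem_centralizer_iff]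
      intro y hy
      rw [Set.mem_singleton_iff.mp hy]
      have := hc c a ha
      simpa [pow_two] using this
    exact Subgroup.mem_centralizer_iff.mp (h1 hr) x rfl
  obtain ⟨c, a, ha, hca⟩ := hgen
  set x₁ := c⁻¹ * x * c with hx₁
  have hx₁R : x₁ ∈ R := by simpa using hRn.conj_mem x hxR c⁻¹
  have hCconj : ∀ z, (∀ t ∈ R, z * t = t * z) → ∀ t ∈ R, (c⁻¹ * z * c) * t = t * (c⁻¹ * z * c) := by
    intro z hz t ht
    have h1 : c * t * c⁻¹ ∈ R := hRn.conj_mem t ht c
    have h2 := hz _ h1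
    calc (c⁻¹ * z * c) * t = c⁻¹ * (z * (c * t * c⁻¹)) * c := by group
      _ = c⁻¹ * ((c * t * c⁻¹) * z) * c := by rw [h2]
      _ = t * (c⁻¹ * z * c) := by group
  have hC1 : ∀ r ∈ R, ∀ t ∈ R, cc x₁ r * t = t * cc x₁ r := by
    intro r hr t ht
    have h1 : c * r * c⁻¹ ∈ R := hRn.conj_mem r hr c
    have h2 := hCconj _ (hCen1 _ h1) t ht
    rw [cc_conj] at h2
    have h3 : c⁻¹ * (c * r * c⁻¹) * c = r := by group
    rwa [h3] at h2
  have hC2 : ∀ t ∈ R, x₁ * x₁ * t = t * (x₁ * x₁) := by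
    intro t ht
    have h2 := hCconj _ hCen2 t ht
    have h3 : c⁻¹ * (x * x) * c = x₁ * x₁ := by rw [hx₁]; group
    rwa [h3] at h2
  have hna : x₁ * (a * a) ≠ (a * a) * x₁ := by
    intro h
    apply hca
    have h3 : x = c * x₁ * c⁻¹ := by rw [hx₁]; group
    calc x * (c * (a * a) * c⁻¹) = c * (x₁ * (a * a)) * c⁻¹ := by rw [h3]; group
      _ = c * ((a * a) * x₁) * c⁻¹ := by rw [h]
      _ = (c * (a * a) * c⁻¹) * x := by rw [h3]; group
  set b₁ := a₁ * a₁ with hb₁
  have hb₁R : b₁ ∈ R := hsqR a₁ ha₁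
  set d := cc x₁ b₁ with hd
  have hdd : d * d = 1 := by
    have h1 : cc (x₁ * x₁) b₁ = d * d := cc_mul_left (hC1 _ hb₁R _ hx₁R)
    rw [← h1]
    exact cc_eq_one_iff.mpr (hC2 _ hb₁R)
  have hxs : x₁ * (b₁ * b₁) = (b₁ * b₁) * x₁ := by
    apply cc_eq_one_iff.mp
    rw [cc_mul_right (hC1 _ hb₁R _ hb₁R), ← hd, hdd]
  have hsA : b₁ * b₁ ∈ A := A.mul_mem (A.mul_mem ha₁ ha₁) (A.mul_mem ha₁ ha₁)
  have hs1 : b₁ * b₁ ≠ 1 := by
    intro h
    apply ha₁4
    rw [← h, hb₁]
    simp only [pow_succ, pow_zero, one_mul, mul_assoc]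
  have heA : cc x₁ a ∈ A := TIc.cc_mem hTI hsA hs1 hxs ha
  set e := cc x₁ a with he
  have he2 : cc x₁ (a * a) = e * e := by
    rw [cc_sq, ← he, cc_eq_one_iff.mpr (hcomm _ heA _ ha), mul_one]
  have hee1 : e * e ≠ 1 := by
    intro h
    rw [h] at he2
    exact hna (cc_eq_one_iff.mp he2)
  have heeA : e * e ∈ A := A.mul_mem heA heA
  have heeC : ∀ t ∈ R, e * e * t = t * (e * e) := by
    intro t ht
    rw [← he2]
    exact hC1 _ (hsqR a ha) t ht
  have hRN : ∀ r ∈ R, ∀ u ∈ A, r⁻¹ * u * r ∈ A := by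
    intro r hr u hu
    exact hTI heeA hee1 (heeC r hr).symm hu
  -- generators commute
  have hgens : ∀ u ∈ Group.conjugatesOfSet ((fun a : X => a ^ 2) '' (A : Set X)),
      ∀ v ∈ Group.conjugatesOfSet ((fun a : X => a ^ 2) '' (A : Set X)), u * v = v * u := by
    intro u hu v hv
    rw [Group.mem_conjugatesOfSet_iff] at hu hv
    obtain ⟨_, ⟨a', ha', rfl⟩, hconj⟩ := hu
    obtain ⟨g, rfl⟩ := isConj_iff.mp hconj
    obtain ⟨_, ⟨a'', ha'', rfl⟩, hconj'⟩ := hv
    obtain ⟨h, rfl⟩ := isConj_iff.mp hconj'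
    simp only [pow_two]
    set α := a' * a' with hα
    set β := a'' * a'' with hβ
    have hαA : α ∈ A := A.mul_mem ha' ha'
    have hβA : β ∈ A := A.mul_mem ha'' ha''
    have hαR : α ∈ R := hsqR a' ha'
    have hβR : β ∈ R := hsqR a'' ha''
    set k := g⁻¹ * h with hk
    set β' := k * β * k⁻¹ with hβ'
    have hβ'R : β' ∈ R := hRn.conj_mem β hβR k
    have hcore : α * β' = β' * α := by
      rcases hti k with hk1 | hk1
      · have : β' ∈ A := by
          rw [← hk1]
          exact ⟨β, hβA, by simp [hβ']⟩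
        exact hcomm _ hαA _ this
      · apply cc_eq_one_iff.mp
        have h1 : cc α β' ∈ A := by
          have h3 := hRN β' hβ'R α hαA
          exact A.mul_mem (A.inv_mem hαA) h3
        have h2 : cc α β' ∈ A.map (MulAut.conj k).toMonoidHom := by
          have hα' : k⁻¹ * α * k ∈ R := by simpa using hRn.conj_mem α hαR k⁻¹
          have h3 := hRN _ hα' _ (A.inv_mem hβA)
          have h4 : k⁻¹ * cc α β' * k ∈ A := by
            rw [cc_conj]
            have h5 : k⁻¹ * β' * k = β := by rw [hβ']; group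
            rw [h5]
            have h6 : cc (k⁻¹ * α * k) β
                = ((k⁻¹ * α * k)⁻¹ * β⁻¹ * (k⁻¹ * α * k)) * β := by
              simp only [cc]; group
            rw [h6]
            exact A.mul_mem h3 hβA
          exact ⟨_, h4, by simp; group⟩
        have h3 : cc α β' ∈ A.map (MulAut.conj k).toMonoidHom ⊓ A := ⟨h2, h1⟩
        rw [hk1] at h3
        simpa using h3
    calc g * α * g⁻¹ * (h * β * h⁻¹) = g * (α * β') * g⁻¹ := by rw [hβ', hk]; group
      _ = g * (β' * α) * g⁻¹ := by rw [hcore]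
      _ = h * β * h⁻¹ * (g * α * g⁻¹) := by rw [hβ', hk]; group
  exact hcon (comm_closure hgens)

end Cfsg.Agent.H28.TIsq
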